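import Mathlib
import Cfsg.Prelude.Def_PLocal
import Cfsg.Prelude.Def_Solvable
import Cfsg.Prelude.Def_Transfer
import Cfsg.Prelude.Def_CaseTheorems
import Cfsg.Agent.Lib.Helper1.Cores
import Cfsg.Agent.Lib.Helper1.PQ
import Cfsg.Agent.Lib.Helper21.CoCyclic

/-! Best offenders in a faithful group with self-centralizing `p'`-core: the hyperplane lemma
(every nontrivial best offender has a best-offender hyperplane), the order formula and the
decomposition into best offenders of order `p`. -/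

set_option autoImplicit false

namespace Cfsg.Agent.Lib.Helper6.BestOff

open Cfsg

open scoped commutatorElement

universe u

variable {G : Type u} [Group G]

/-- Elements of the join of two elementwise commuting subgroups are products. -/
theorem mem_sup_comm {C R : Subgroup G} (h : ∀ c ∈ C, ∀ r ∈ R, c * r = r * c) {x : G}
    (hx : x ∈ C ⊔ R) : ∃ c ∈ C, ∃ r ∈ R, x = c * r := by
  let S : Subgroup G :=
    { carrier := {x | ∃ c ∈ C, ∃ r ∈ R, x = c * r}
      one_mem' := ⟨1, C.one_mem, 1, R.one_mem, by simp⟩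
      mul_mem' := by
        rintro _ _ ⟨c, hc, r, hr, rfl⟩ ⟨c', hc', r', hr', rfl⟩
        refine ⟨c * c', C.mul_mem hc hc', r * r', R.mul_mem hr hr', ?_⟩
        rw [mul_assoc, ← mul_assoc r, ← h c' hc' r hr]
        simp only [mul_assoc]
      inv_mem' := by
        rintro _ ⟨c, hc, r, hr, rfl⟩
        refine ⟨c⁻¹, C.inv_mem hc, r⁻¹, R.inv_mem hr, ?_⟩
        rw [mul_inv_rev, h c⁻¹ (C.inv_mem hc) r⁻¹ (R.inv_mem hr)] }
  have hle : C ⊔ R ≤ S := by
    refine sup_le ?_ ?_
    · intro c hc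
      exact ⟨c, hc, 1, R.one_mem, by simp⟩
    · intro r hr
      exact ⟨1, C.one_mem, r, hr, by simp⟩
  exact hle hx

/-- The setting: `Q` plays the role of the image of `O_{p'}(H)`. -/
structure Setting (p : ℕ) (V H Q : Subgroup G) : Prop where
  hV : IsElementaryAbelian p V
  hHV : H ≤ Subgroup.normalizer (V : Set G)
  hf : H ⊓ Subgroup.centralizer (V : Set G) = ⊥
  hQH : Q ≤ H
  hHQ : H ≤ Subgroup.normalizer (Q : Set G)
  hQp : (Nat.card Q).Coprime p
  hCQ : ∀ D : Subgroup G, D ≤ H → D ≤ Subgroup.centralizer (Q : Set G) → D ≤ Q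

theorem setting_of [Finite G] {p : ℕ} (V H : Subgroup G) (hV : IsElementaryAbelian p V)
    (hHV : H ≤ Subgroup.normalizer (V : Set G))
    (hf : H ⊓ Subgroup.centralizer (V : Set G) = ⊥)
    (hS1 : Subgroup.centralizer (pPrimeCore p ↥H : Set ↥H) ≤ pPrimeCore p ↥H) :
    Setting p V H ((pPrimeCore p ↥H).map H.subtype) := by
  refine ⟨hV, hHV, hf, Subgroup.map_subtype_le _, ?_, ?_, ?_⟩
  · have h1 := Subgroup.le_normalizer_map (H := pPrimeCore p ↥H) H.subtype
    have h2 : Subgroup.normalizer ((pPrimeCore p ↥H : Subgroup ↥H) : Set ↥H) = ⊤ :=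
      Subgroup.normalizer_eq_top_iff.mpr (pPrimeCore_normal p ↥H)
    intro h hh
    apply h1
    rw [h2]
    exact ⟨⟨h, hh⟩, Subgroup.mem_top _, rfl⟩
  · rw [Subgroup.card_map_of_injective H.subtype_injective]
    exact Cfsg.Agent.Lib.Helper1.pPrimeCore_coprime p
  · intro D hDH hDQ d hd
    have h1 : (⟨d, hDH hd⟩ : ↥H) ∈ Subgroup.centralizer (pPrimeCore p ↥H : Set ↥H) := by
      rw [Subgroup.mem_centralizer_iff]
      intro y hy
      apply Subtype.ext
      have h2 := Subgroup.mem_centralizer_iff.mp (hDQ hd) (y : G) ⟨y, hy, rfl⟩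
      simpa using h2
    exact ⟨⟨d, hDH hd⟩, hS1 h1, rfl⟩

section main

variable [Finite G] {p : ℕ} [hp : Fact p.Prime] {V H Q : Subgroup G}

omit [Finite G] hp in
theorem comm_of (hS : Setting p V H Q) {A : Subgroup G} (hAH : A ≤ H)
    (hA : IsBestOffenderOn p V A) : ∀ a ∈ A, ∀ b ∈ A, a * b = b * a := by
  intro a ha b hb
  have h1 : ⁅a, b⁆ ∈ H ⊓ Subgroup.centralizer (V : Set G) := by
    refine ⟨?_, hA.2.1 (Subgroup.commutator_mem_commutator ha hb)⟩
    rw [commutatorElement_def]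
    exact H.mul_mem (H.mul_mem (H.mul_mem (hAH ha) (hAH hb)) (H.inv_mem (hAH ha)))
      (H.inv_mem (hAH hb))
  rw [hS.hf, Subgroup.mem_bot] at h1
  exact commutatorElement_eq_one_iff_mul_comm.mp h1

omit [Finite G] hp in
theorem pow_of (hS : Setting p V H Q) {A : Subgroup G} (hAH : A ≤ H)
    (hA : IsBestOffenderOn p V A) : ∀ a ∈ A, a ^ p = 1 := by
  intro a ha
  have h1 : a ^ p ∈ H ⊓ Subgroup.centralizer (V : Set G) :=
    ⟨H.pow_mem (hAH ha) p, hA.2.2 a ha⟩
  rw [hS.hf, Subgroup.mem_bot] at h1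
  exact h1

omit [Finite G] hp in
theorem isPGroup_of (hS : Setting p V H Q) {A : Subgroup G} (hAH : A ≤ H)
    (hA : IsBestOffenderOn p V A) : IsPGroup p A := by
  intro a
  refine ⟨1, ?_⟩
  apply Subtype.ext
  rw [pow_one]
  exact pow_of hS hAH hA a a.2

theorem coprime_of (hS : Setting p V H Q) {A : Subgroup G} (hAH : A ≤ H)
    (hA : IsBestOffenderOn p V A) : (Nat.card A).Coprime (Nat.card Q) := by
  obtain ⟨k, hk⟩ := IsPGroup.iff_card.mp (isPGroup_of hS hAH hA)
  rw [hk]
  exact Nat.Coprime.pow_left k hS.hQp.symm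

theorem inf_Q_of (hS : Setting p V H Q) {A : Subgroup G} (hAH : A ≤ H)
    (hA : IsBestOffenderOn p V A) : A ⊓ Q = ⊥ :=
  (Subgroup.disjoint_of_coprime_natCard (coprime_of hS hAH hA)).eq_bot

omit [Finite G] hp in
theorem isPGroup_V (hS : Setting p V H Q) : IsPGroup p V := by
  intro a
  refine ⟨1, ?_⟩
  apply Subtype.ext
  rw [pow_one]
  exact hS.hV.2 a a.2

/-- A subgroup of a best offender centralizing the fixed points on `Q` of all cocyclic
subgroups is trivial. -/
theorem eq_bot_of_centralizes (hS : Setting p V H Q) {A : Subgroup G} (hAH : A ≤ H)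
    (hA : IsBestOffenderOn p V A) {D : Subgroup G} (hDA : D ≤ A)
    (hD : ∀ B : Subgroup G, B ≤ A → (∃ a ∈ A, B ⊔ Subgroup.zpowers a = A) →
      D ≤ Subgroup.centralizer ((Q ⊓ Subgroup.centralizer (B : Set G) : Subgroup G) : Set G)) :
    D = ⊥ := by
  have : IsMulCommutative A :=
    ⟨⟨fun x y => Subtype.ext (comm_of hS hAH hA x x.2 y y.2)⟩⟩
  have hgen := Cfsg.Agent.Lib.Helper21.cocyclic_generation A Q (hAH.trans hS.hHQ)
    (coprime_of hS hAH hA)
  have h1 : Q ≤ Subgroup.centralizer (D : Set G) := by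
    rw [← hgen]
    refine iSup₂_le ?_
    intro B hB
    exact Subgroup.le_centralizer_iff.mp (hD B hB.1 hB.2)
  have h2 : D ≤ Q := hS.hCQ D (hDA.trans hAH) (Subgroup.le_centralizer_iff.mp h1)
  have h3 : D ≤ A ⊓ Q := le_inf hDA h2
  rw [inf_Q_of hS hAH hA] at h3
  exact le_bot_iff.mp h3

/-- Existence of a cocyclic subgroup on whose fixed points on `Q` the offender acts
nontrivially. -/
theorem exists_cocyclic (hS : Setting p V H Q) {A : Subgroup G} (hAH : A ≤ H)
    (hA : IsBestOffenderOn p V A) (hA1 : A ≠ ⊥) :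
    ∃ B : Subgroup G, B ≤ A ∧ (∃ a ∈ A, B ⊔ Subgroup.zpowers a = A) ∧
      ¬ A ≤ Subgroup.centralizer ((Q ⊓ Subgroup.centralizer (B : Set G) : Subgroup G) : Set G) := by
  by_contra hcon
  push Not at hcon
  exact hA1 (eq_bot_of_centralizes hS hAH hA le_rfl hcon)

/-- The core of the hyperplane lemma: a cocyclic subgroup `B` with the same fixed points on
`V` as `A` has its fixed points on `Q` centralized by `A`. -/
theorem centralizes_of_fix_eq (hS : Setting p V H Q) {A : Subgroup G} (hAH : A ≤ H)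
    (hA : IsBestOffenderOn p V A) {B : Subgroup G} (hBA : B ≤ A)
    (hU : V ⊓ Subgroup.centralizer (A : Set G) = V ⊓ Subgroup.centralizer (B : Set G)) :
    A ≤ Subgroup.centralizer ((Q ⊓ Subgroup.centralizer (B : Set G) : Subgroup G) : Set G) := by
  have hcomm := comm_of hS hAH hA
  obtain ⟨X, hX⟩ : ∃ X : Subgroup G, X = Q ⊓ Subgroup.centralizer (B : Set G) := ⟨_, rfl⟩
  obtain ⟨U, hUdef⟩ : ∃ U : Subgroup G, U = V ⊓ Subgroup.centralizer (B : Set G) := ⟨_, rfl⟩
  obtain ⟨Y, hYdef⟩ : ∃ Y : Subgroup G, Y = ⁅X, A⁆ := ⟨_, rfl⟩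
  rw [← hX]
  have hXQ : X ≤ Q := hX ▸ inf_le_left
  have hXB : X ≤ Subgroup.centralizer (B : Set G) := hX ▸ inf_le_right
  have hYQ : Y ≤ Q := by
    rw [hYdef]
    exact (Subgroup.commutator_mono hXQ le_rfl).trans
      (Cfsg.Agent.Lib.Helper1.commutator_le_of_le_normalizer (hAH.trans hS.hHQ))
  have hACB : A ≤ Subgroup.centralizer (B : Set G) := by
    intro x hx
    rw [Subgroup.mem_centralizer_iff]
    intro b hb
    exact hcomm b (hBA hb) x hx
  have hYCB : Y ≤ Subgroup.centralizer (B : Set G) := by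
    rw [hYdef, Subgroup.commutator_le]
    intro x hx y hy
    rw [commutatorElement_def]
    exact mul_mem (mul_mem (mul_mem (hXB hx) (hACB hy)) (inv_mem (hXB hx))) (inv_mem (hACB hy))
  have hBY : B ≤ Subgroup.centralizer (Y : Set G) := Subgroup.le_centralizer_iff.mp hYCB
  have hYp : (Nat.card Y).Coprime p :=
    Nat.Coprime.coprime_dvd_left (Subgroup.card_dvd_of_le hYQ) hS.hQp
  have hBp : IsPGroup p B := (isPGroup_of hS hAH hA).to_le hBA
  have hBV : B ≤ Subgroup.normalizer (V : Set G) := hBA.trans (hAH.trans hS.hHV)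
  have hYV : Y ≤ Subgroup.normalizer (V : Set G) := hYQ.trans (hS.hQH.trans hS.hHV)
  have hUA : U ≤ Subgroup.centralizer (A : Set G) := by
    rw [hUdef, ← hU]
    exact inf_le_right
  have hC : V ⊓ Subgroup.centralizer (B : Set G) ≤ Subgroup.centralizer (Y : Set G) := by
    rw [← hUdef]
    have h1 : ⁅A, U⁆ = ⊥ :=
      Subgroup.commutator_eq_bot_iff_le_centralizer.mpr (Subgroup.le_centralizer_iff.mp hUA)
    have h2 : ⁅⁅A, U⁆, X⁆ = ⊥ := by rw [h1, Subgroup.commutator_bot_left]
    have h3 : ⁅U, X⁆ ≤ U := by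
      rw [Subgroup.commutator_le]
      intro u hu x hx
      rw [hUdef] at hu ⊢
      have hu := Subgroup.mem_inf.mp hu
      refine Subgroup.mem_inf.mpr ⟨?_, ?_⟩
      · have hxV := hS.hHV (hS.hQH (hXQ hx))
        have h5 := (Subgroup.mem_normalizer_iff.mp hxV u⁻¹).mp (V.inv_mem hu.1)
        have h6 : ⁅u, x⁆ = u * (x * u⁻¹ * x⁻¹) := by
          rw [commutatorElement_def]; group
        rw [h6]
        exact V.mul_mem hu.1 h5
      · rw [commutatorElement_def]
        exact mul_mem (mul_mem (mul_mem hu.2 (hXB hx)) (inv_mem hu.2)) (inv_mem (hXB hx))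
    have h4 : ⁅⁅U, X⁆, A⁆ = ⊥ := by
      have h7 : ⁅U, A⁆ = ⊥ := by rw [Subgroup.commutator_comm]; exact h1
      exact le_bot_iff.mp ((Subgroup.commutator_mono h3 le_rfl).trans (le_of_eq h7))
    have h5 : ⁅⁅X, A⁆, U⁆ = ⊥ := Subgroup.commutator_commutator_eq_bot_of_rotate h2 h4
    rw [← hYdef] at h5
    exact Subgroup.le_centralizer_iff.mp (Subgroup.commutator_eq_bot_iff_le_centralizer.mp h5)
  have hY := Cfsg.Agent.Lib.Helper1.thompson_pq p B Y hBp hYp hBY (Nat.card V) V le_rfl
    (isPGroup_V hS) hBV hYV hC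
  have hYH : Y ≤ H := hYQ.trans hS.hQH
  have hY1 : Y = ⊥ := le_bot_iff.mp (hS.hf ▸ le_inf hYH hY)
  rw [hYdef] at hY1
  exact Subgroup.le_centralizer_iff.mp (Subgroup.commutator_eq_bot_iff_le_centralizer.mp hY1)

/-- A cocyclic proper subgroup of an elementary abelian `A` has index `p`. -/
theorem card_of_cocyclic (hS : Setting p V H Q) {A : Subgroup G} (hAH : A ≤ H)
    (hA : IsBestOffenderOn p V A) {B : Subgroup G} (hBA : B ≤ A) {a : G} (ha : a ∈ A)
    (hBa : B ⊔ Subgroup.zpowers a = A) (hne : B ≠ A) : Nat.card A = p * Nat.card B := by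
  have hpp : p.Prime := hp.out
  have hcomm := comm_of hS hAH hA
  have hpow := pow_of hS hAH hA
  have hza : Subgroup.zpowers a ≤ A := Subgroup.zpowers_le.mpr ha
  have hprod : ∀ y ∈ A, ∃ b ∈ B, ∃ c ∈ Subgroup.zpowers a, y = b * c := by
    intro y hy
    rw [← hBa] at hy
    exact mem_sup_comm (fun b hb c hc => hcomm b (hBA hb) c (hza hc)) hy
  have hsurj : Function.Surjective (fun x : B × Subgroup.zpowers a =>
      (⟨(x.1 : G) * (x.2 : G), A.mul_mem (hBA x.1.2) (hza x.2.2)⟩ : A)) := by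
    rintro ⟨y, hy⟩
    obtain ⟨b, hb, c, hc, rfl⟩ := hprod y hy
    exact ⟨(⟨b, hb⟩, ⟨c, hc⟩), rfl⟩
  have h1 : Nat.card A ≤ Nat.card B * p := by
    have h2 := Nat.card_le_card_of_surjective _ hsurj
    rw [Nat.card_prod, Nat.card_zpowers] at h2
    have h3 : orderOf a ≤ p := Nat.le_of_dvd hpp.pos (orderOf_dvd_of_pow_eq_one (hpow a ha))
    exact h2.trans (Nat.mul_le_mul_left _ h3)
  obtain ⟨t, ht⟩ := Subgroup.card_dvd_of_le hBA
  obtain ⟨n, hn⟩ := IsPGroup.iff_card.mp (isPGroup_of hS hAH hA)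
  have hBpos : 0 < Nat.card B := Nat.card_pos
  have ht1 : t ∣ p ^ n := hn ▸ (Dvd.intro_left _ ht.symm)
  obtain ⟨j, -, hj⟩ := (Nat.dvd_prime_pow hpp).mp ht1
  have htp : t ≤ p := by
    rw [ht] at h1
    exact Nat.le_of_mul_le_mul_left h1 hBpos
  rcases Nat.eq_zero_or_pos j with hj0 | hj0
  · exfalso
    rw [hj0, pow_zero] at hj
    rw [hj, mul_one] at ht
    exact hne (Subgroup.eq_of_le_of_card_ge hBA (le_of_eq ht))
  · have hpt : p ≤ t := by
      rw [hj]
      calc p = p ^ 1 := (pow_one p).symm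
        _ ≤ p ^ j := Nat.pow_le_pow_right hpp.pos hj0
    rw [ht, le_antisymm htp hpt, mul_comm]

/-- The hyperplane lemma. -/
theorem hyperplane (hS : Setting p V H Q) {A : Subgroup G} (hAH : A ≤ H)
    (hA : IsBestOffenderOn p V A) {B : Subgroup G} (hBA : B ≤ A) {a : G} (ha : a ∈ A)
    (hBa : B ⊔ Subgroup.zpowers a = A)
    (hnc : ¬ A ≤ Subgroup.centralizer
      ((Q ⊓ Subgroup.centralizer (B : Set G) : Subgroup G) : Set G)) :
    B ≠ A ∧ Nat.card A = p * Nat.card B ∧ IsBestOffenderOn p V B ∧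
      Nat.card B * Nat.card ↥(V ⊓ Subgroup.centralizer (B : Set G)) =
        Nat.card A * Nat.card ↥(V ⊓ Subgroup.centralizer (A : Set G)) := by
  have hpp : p.Prime := hp.out
  have hne : B ≠ A := by
    rintro rfl
    apply hnc
    exact Subgroup.le_centralizer_iff.mp inf_le_right
  have hcard := card_of_cocyclic hS hAH hA hBA ha hBa hne
  have hineq := hA.1 B hBA
  have hle : V ⊓ Subgroup.centralizer (A : Set G) ≤ V ⊓ Subgroup.centralizer (B : Set G) :=
    inf_le_inf_left V (Subgroup.centralizer_le hBA)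
  obtain ⟨s, hs⟩ := Subgroup.card_dvd_of_le hle
  have hBpos : 0 < Nat.card B := Nat.card_pos
  have hApos : 0 < Nat.card ↥(V ⊓ Subgroup.centralizer (A : Set G)) := Nat.card_pos
  have hsp : s ≤ p := by
    rw [hs, hcard] at hineq
    have h1 : Nat.card B * Nat.card ↥(V ⊓ Subgroup.centralizer (A : Set G)) * s ≤
        Nat.card B * Nat.card ↥(V ⊓ Subgroup.centralizer (A : Set G)) * p := by
      calc Nat.card B * Nat.card ↥(V ⊓ Subgroup.centralizer (A : Set G)) * s
          = Nat.card B * (Nat.card ↥(V ⊓ Subgroup.centralizer (A : Set G)) * s) := by ring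
        _ ≤ p * Nat.card B * Nat.card ↥(V ⊓ Subgroup.centralizer (A : Set G)) := hineq
        _ = Nat.card B * Nat.card ↥(V ⊓ Subgroup.centralizer (A : Set G)) * p := by ring
    exact Nat.le_of_mul_le_mul_left h1 (Nat.mul_pos hBpos hApos)
  obtain ⟨m, hm⟩ := IsPGroup.iff_card.mp (isPGroup_V hS)
  have hs1 : s ∣ p ^ m := by
    rw [← hm]
    exact (Dvd.intro_left _ hs.symm).trans (Subgroup.card_dvd_of_le inf_le_left)
  obtain ⟨j, -, hj⟩ := (Nat.dvd_prime_pow hpp).mp hs1
  have hj1 : j = 0 ∨ j = 1 := by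
    by_contra hcon
    have h2 : 2 ≤ j := by omega
    have h3 : p ^ 2 ≤ p ^ j := Nat.pow_le_pow_right hpp.pos h2
    have h4 : p ^ 2 ≤ p := by rw [hj] at hsp; exact h3.trans hsp
    have h5 : 2 ≤ p := hpp.two_le
    nlinarith
  rcases hj1 with hj0 | hj0
  · exfalso
    rw [hj0, pow_zero] at hj
    rw [hj, mul_one] at hs
    have hU : V ⊓ Subgroup.centralizer (A : Set G) = V ⊓ Subgroup.centralizer (B : Set G) :=
      Subgroup.eq_of_le_of_card_ge hle (le_of_eq hs)
    exact hnc (centralizes_of_fix_eq hS hAH hA hBA hU)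
  · rw [hj0, pow_one] at hj
    rw [hj] at hs
    have heq : Nat.card B * Nat.card ↥(V ⊓ Subgroup.centralizer (B : Set G)) =
        Nat.card A * Nat.card ↥(V ⊓ Subgroup.centralizer (A : Set G)) := by
      rw [hs, hcard]; ring
    refine ⟨hne, hcard, ⟨?_, ?_, ?_⟩, heq⟩
    · intro B' hB'
      rw [heq]
      exact hA.1 B' (hB'.trans hBA)
    · exact (Subgroup.commutator_mono hBA hBA).trans hA.2.1
    · intro b hb
      exact hA.2.2 b (hBA hb)

omit [Finite G] in
theorem inf_centralizer_bot (V : Subgroup G) :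
    V ⊓ Subgroup.centralizer (((⊥ : Subgroup G) : Subgroup G) : Set G) = V := by
  refine inf_eq_left.mpr ?_
  intro v _
  rw [Subgroup.mem_centralizer_iff]
  intro h hh
  rw [SetLike.mem_coe, Subgroup.mem_bot] at hh
  rw [hh, one_mul, mul_one]

/-- The order formula for nontrivial best offenders. -/
theorem card_formula (hS : Setting p V H Q) :
    ∀ (n : ℕ) (A : Subgroup G), Nat.card A ≤ n → A ≤ H → IsBestOffenderOn p V A → A ≠ ⊥ →
      Nat.card A * Nat.card ↥(V ⊓ Subgroup.centralizer (A : Set G)) = Nat.card V := by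
  intro n
  induction n with
  | zero =>
    intro A hn
    exfalso
    have : 0 < Nat.card A := Nat.card_pos
    omega
  | succ n ih =>
    intro A hn hAH hA hA1
    obtain ⟨B, hBA, ⟨a, ha, hBa⟩, hnc⟩ := exists_cocyclic hS hAH hA hA1
    obtain ⟨hne, hcard, hB, heq⟩ := hyperplane hS hAH hA hBA ha hBa hnc
    rw [← heq]
    by_cases hB1 : B = ⊥
    · rw [hB1, inf_centralizer_bot, Subgroup.card_bot, one_mul]
    · refine ih B ?_ (hBA.trans hAH) hB hB1
      have h2 : 2 ≤ p := hp.out.two_le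
      have h3 : 0 < Nat.card B := Nat.card_pos
      nlinarith

omit [Finite G] in
/-- For an abelian `V` normalized by `a`: the commutator `[V, ⟨a⟩]` has order dividing the
index of the fixed points of `a` on `V`. -/
theorem card_commutator_zpowers_dvd [Finite G] {V : Subgroup G}
    (hVc : ∀ x ∈ V, ∀ y ∈ V, x * y = y * x) {a : G}
    (haV : a ∈ Subgroup.normalizer (V : Set G)) :
    Nat.card ↥(⁅V, Subgroup.zpowers a⁆) ∣
      (V ⊓ Subgroup.centralizer ((Subgroup.zpowers a : Subgroup G) : Set G)).relIndex V := by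
  have hconj : ∀ v ∈ V, a * v * a⁻¹ ∈ V := fun v hv =>
    (Subgroup.mem_normalizer_iff.mp haV v).mp hv
  have hmem : ∀ v ∈ V, ⁅v, a⁆ ∈ V := by
    intro v hv
    have h1 : ⁅v, a⁆ = v * (a * v⁻¹ * a⁻¹) := by rw [commutatorElement_def]; group
    rw [h1]
    exact V.mul_mem hv (hconj _ (V.inv_mem hv))
  have hmul : ∀ v ∈ V, ∀ w ∈ V, ⁅v * w, a⁆ = ⁅v, a⁆ * ⁅w, a⁆ := by
    intro v hv w hw
    have hxy := hVc (a * v⁻¹ * a⁻¹) (hconj _ (V.inv_mem hv)) ⁅w, a⁆ (hmem w hw)
    rw [commutatorElement_def] at hxy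
    simp only [commutatorElement_def]
    calc v * w * a * (v * w)⁻¹ * a⁻¹
        = v * ((w * a * w⁻¹ * a⁻¹) * (a * v⁻¹ * a⁻¹)) := by group
      _ = v * ((a * v⁻¹ * a⁻¹) * (w * a * w⁻¹ * a⁻¹)) := by rw [hxy]
      _ = v * a * v⁻¹ * a⁻¹ * (w * a * w⁻¹ * a⁻¹) := by group
  let f : V →* V :=
    { toFun := fun v => ⟨⁅(v : G), a⁆, hmem v v.2⟩
      map_one' := by
        apply Subtype.ext
        simp
      map_mul' := by
        intro v w
        apply Subtype.ext
        exact hmul v v.2 w w.2 }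
  have hf : ∀ v : V, ((f v : V) : G) = ⁅(v : G), a⁆ := fun v => rfl
  have hker : f.ker =
      (V ⊓ Subgroup.centralizer ((Subgroup.zpowers a : Subgroup G) : Set G)).subgroupOf V := by
    ext v
    rw [MonoidHom.mem_ker, Subgroup.mem_subgroupOf, Subgroup.mem_inf]
    constructor
    · intro h
      have h1 : ⁅(v : G), a⁆ = 1 := by rw [← hf, h]; rfl
      have h2 : (v : G) * a = a * v := commutatorElement_eq_one_iff_mul_comm.mp h1
      refine ⟨v.2, ?_⟩
      rw [Subgroup.mem_centralizer_iff]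
      intro c hc
      rw [SetLike.mem_coe, Subgroup.mem_zpowers_iff] at hc
      obtain ⟨k, rfl⟩ := hc
      have h3 : Commute (v : G) a := h2
      exact (h3.zpow_right k).eq.symm
    · rintro ⟨-, h⟩
      rw [Subgroup.mem_centralizer_iff] at h
      have h2 := h a (Subgroup.mem_zpowers a)
      apply Subtype.ext
      rw [hf]
      exact commutatorElement_eq_one_iff_mul_comm.mpr h2.symm
  have hidx : (V ⊓ Subgroup.centralizer ((Subgroup.zpowers a : Subgroup G) : Set G)).relIndex V =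
      Nat.card f.range := by
    rw [← Subgroup.index_ker, hker]; rfl
  obtain ⟨W, hW⟩ : ∃ W : Subgroup G, W = f.range.map V.subtype := ⟨_, rfl⟩
  have hWcard : Nat.card W = Nat.card f.range := by
    rw [hW]; exact Subgroup.card_map_of_injective V.subtype_injective
  have hWmem : ∀ v ∈ V, ⁅v, a⁆ ∈ W := by
    intro v hv
    rw [hW]
    exact ⟨f ⟨v, hv⟩, ⟨⟨v, hv⟩, rfl⟩, rfl⟩
  have hWconj : ∀ w ∈ W, a * w * a⁻¹ ∈ W := by
    intro w hw
    rw [hW] at hw
    obtain ⟨y, ⟨v, rfl⟩, rfl⟩ := hw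
    have h1 : a * (V.subtype (f v)) * a⁻¹ = ⁅a * (v : G) * a⁻¹, a⁆ := by
      rw [Subgroup.coe_subtype, hf, commutatorElement_def, commutatorElement_def]; group
    rw [h1]
    exact hWmem _ (hconj _ v.2)
  have hpow : ∀ (k : ℕ), ∀ v ∈ V, ⁅v, a ^ k⁆ ∈ W := by
    intro k
    induction k with
    | zero =>
      intro v _
      rw [pow_zero, commutatorElement_one_right]
      exact W.one_mem
    | succ k ih =>
      intro v hv
      have h1 : ⁅v, a ^ (k + 1)⁆ = ⁅v, a⁆ * (a * ⁅v, a ^ k⁆ * a⁻¹) := by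
        simp only [commutatorElement_def, pow_succ]; group
      rw [h1]
      exact W.mul_mem (hWmem v hv) (hWconj _ (ih v hv))
  have hle : ⁅V, Subgroup.zpowers a⁆ ≤ W := by
    rw [Subgroup.commutator_le]
    intro v hv c hc
    obtain ⟨k, rfl⟩ := mem_powers_iff_mem_zpowers.mpr hc
    exact hpow k v hv
  rw [hidx, ← hWcard]
  exact Subgroup.card_dvd_of_le hle

/-- Minimal nontrivially acting best offenders. -/
theorem minimal_card (hS : Setting p V H Q) {A : Subgroup G} (hAH : A ≤ H)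
    (hA : IsBestOffenderOn p V A) (hAV : ⁅V, A⁆ ≠ ⊥)
    (hmin : ∀ B : Subgroup G, B ≤ A → IsBestOffenderOn p V B → ⁅V, B⁆ ≠ ⊥ → B = A) :
    Nat.card A = p ∧ Nat.card ↥(⁅V, A⁆) = p ∧
      (V ⊓ Subgroup.centralizer (A : Set G)).relIndex V = p := by
  have hpp : p.Prime := hp.out
  have hA1 : A ≠ ⊥ := by
    rintro rfl
    exact hAV (Subgroup.commutator_bot_right V)
  obtain ⟨B, hBA, ⟨a, ha, hBa⟩, hnc⟩ := exists_cocyclic hS hAH hA hA1
  obtain ⟨hne, hcard, hB, heq⟩ := hyperplane hS hAH hA hBA ha hBa hnc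
  have hVB : ⁅V, B⁆ = ⊥ := by
    by_contra h
    exact hne (hmin B hBA hB h)
  have hB1 : B = ⊥ := by
    have h1 : B ≤ Subgroup.centralizer (V : Set G) :=
      Subgroup.le_centralizer_iff.mp (Subgroup.commutator_eq_bot_iff_le_centralizer.mp hVB)
    exact le_bot_iff.mp (hS.hf ▸ le_inf (hBA.trans hAH) h1)
  rw [hB1, Subgroup.card_bot, mul_one] at hcard
  rw [hB1, inf_centralizer_bot, Subgroup.card_bot, one_mul, hcard] at heq
  rw [hB1, bot_sup_eq] at hBa
  have hrel : (V ⊓ Subgroup.centralizer (A : Set G)).relIndex V = p := by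
    have h1 := Subgroup.relIndex_mul_relIndex _ _ _
      (bot_le : (⊥ : Subgroup G) ≤ V ⊓ Subgroup.centralizer (A : Set G))
      (inf_le_left : V ⊓ Subgroup.centralizer (A : Set G) ≤ V)
    rw [Subgroup.relIndex_bot_left, Subgroup.relIndex_bot_left, heq, mul_comm] at h1
    exact Nat.eq_of_mul_eq_mul_right Nat.card_pos h1
  refine ⟨hcard, ?_, hrel⟩
  have hVc : ∀ x ∈ V, ∀ y ∈ V, x * y = y * x := by
    intro x hx y hy
    have := hS.hV.1
    exact congrArg Subtype.val (mul_comm' (⟨x, hx⟩ : V) ⟨y, hy⟩)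
  have hdvd := card_commutator_zpowers_dvd hVc (hS.hHV (hAH ha))
  rw [hBa, hrel] at hdvd
  rcases (Nat.dvd_prime hpp).mp hdvd with h | h
  · exact absurd (Subgroup.card_eq_one.mp h) hAV
  · exact h

/-- Every best offender is the direct product of best offenders of order `p`. -/
theorem decomp (hS : Setting p V H Q) :
    ∀ (n : ℕ) (A : Subgroup G), Nat.card A ≤ n → A ≤ H → IsBestOffenderOn p V A →
      ∃ (k : ℕ) (B : Fin k → Subgroup G),
        (∀ i, B i ≤ A ∧ IsBestOffenderOn p V (B i) ∧ Nat.card (B i) = p) ∧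
        iSupIndep B ∧ ⨆ i, B i = A := by
  have hpp : p.Prime := hp.out
  intro n
  induction n using Nat.strong_induction_on with
  | _ n ih =>
  intro A hn hAH hA
  by_cases hA1 : A = ⊥
  · refine ⟨0, fun i => i.elim0, fun i => i.elim0, fun i => i.elim0, ?_⟩
    rw [hA1]
    exact iSup_of_empty _
  · obtain ⟨B, hBA, ⟨a, ha, hBa⟩, hnc⟩ := exists_cocyclic hS hAH hA hA1
    obtain ⟨hne, hcard, hB, heq⟩ := hyperplane hS hAH hA hBA ha hBa hnc
    have hBpos : 0 < Nat.card B := Nat.card_pos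
    have hBlt : Nat.card B < Nat.card A := by
      rw [hcard]
      have h2 : 2 ≤ p := hpp.two_le
      nlinarith
    obtain ⟨k, Bf, hBf, hind, hsup⟩ :=
      ih (Nat.card B) (lt_of_lt_of_le hBlt hn) B le_rfl (hBA.trans hAH) hB
    have hclaim : ∃ C : Subgroup G, C ≤ A ∧ IsBestOffenderOn p V C ∧ Nat.card C = p ∧
        ¬ C ≤ B := by
      by_contra hcon
      push Not at hcon
      have hB1 : B = ⊥ := by
        apply eq_bot_of_centralizes hS hAH hA hBA
        rintro B' hB'A ⟨a', ha', hB'a⟩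
        by_cases hc : A ≤ Subgroup.centralizer
            ((Q ⊓ Subgroup.centralizer (B' : Set G) : Subgroup G) : Set G)
        · exact hBA.trans hc
        · obtain ⟨hne', hcard', hB', heq'⟩ := hyperplane hS hAH hA hB'A ha' hB'a hc
          have hB'pos : 0 < Nat.card B' := Nat.card_pos
          have hB'lt : Nat.card B' < Nat.card A := by
            rw [hcard']
            have h2 : 2 ≤ p := hpp.two_le
            nlinarith
          obtain ⟨k', Bf', hBf', -, hsup'⟩ :=
            ih (Nat.card B') (lt_of_lt_of_le hB'lt hn) B' le_rfl (hB'A.trans hAH) hB'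
          have hB'B : B' ≤ B := by
            rw [← hsup']
            exact iSup_le (fun i => hcon (Bf' i) ((hBf' i).1.trans hB'A) (hBf' i).2.1
              (hBf' i).2.2)
          have hBB' : B' = B := by
            refine Subgroup.eq_of_le_of_card_ge hB'B ?_
            have h3 : p * Nat.card B = p * Nat.card B' := by rw [← hcard, ← hcard']
            exact le_of_eq (Nat.eq_of_mul_eq_mul_left hpp.pos h3)
          rw [hBB']
          exact Subgroup.le_centralizer_iff.mp inf_le_right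
      have hAp : Nat.card A = p := by rw [hcard, hB1, Subgroup.card_bot, mul_one]
      exact hne (le_antisymm hBA (hcon A le_rfl hA hAp))
    obtain ⟨C, hCA, hC, hCp, hCB⟩ := hclaim
    have hdisj : Disjoint C B := by
      rw [disjoint_iff]
      have h1 : Nat.card ↥(C ⊓ B) ∣ p := hCp ▸ Subgroup.card_dvd_of_le inf_le_left
      rcases (Nat.dvd_prime hpp).mp h1 with h2 | h2
      · exact Subgroup.card_eq_one.mp h2
      · exfalso
        apply hCB
        have h3 : C ⊓ B = C := Subgroup.eq_of_le_of_card_ge inf_le_left (by rw [h2, hCp])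
        rw [← h3]
        exact inf_le_right
    have hsupCB : C ⊔ B = A := by
      have hle : C ⊔ B ≤ A := sup_le hCA hBA
      obtain ⟨t, ht⟩ := Subgroup.card_dvd_of_le (le_sup_right : B ≤ C ⊔ B)
      obtain ⟨s, hs⟩ := Subgroup.card_dvd_of_le hle
      have hts : t * s = p := by
        have h3 : Nat.card B * (t * s) = Nat.card B * p := by
          rw [← mul_assoc, ← ht, ← hs, hcard, mul_comm]
        exact Nat.eq_of_mul_eq_mul_left hBpos h3
      have htp : t ∣ p := Dvd.intro _ hts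
      rcases (Nat.dvd_prime hpp).mp htp with h2 | h2
      · exfalso
        apply hCB
        have h3 : B = C ⊔ B :=
          Subgroup.eq_of_le_of_card_ge le_sup_right (by rw [ht, h2, mul_one])
        rw [h3]
        exact le_sup_left
      · exact Subgroup.eq_of_le_of_card_ge hle (by rw [ht, h2, hcard, mul_comm])
    have hcomm := comm_of hS hAH hA
    refine ⟨k + 1, Fin.cons C Bf, ?_, ?_, ?_⟩
    · intro i
      refine Fin.cases ?_ (fun j => ?_) i
      · rw [Fin.cons_zero]
        exact ⟨hCA, hC, hCp⟩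
      · rw [Fin.cons_succ]
        exact ⟨(hBf j).1.trans hBA, (hBf j).2⟩
    · intro i
      refine Fin.cases ?_ (fun j => ?_) i
      · have h1 : (⨆ j, ⨆ (_ : j ≠ 0), (Fin.cons C Bf : Fin (k + 1) → Subgroup G) j) ≤ B := by
          refine iSup₂_le ?_
          intro j hj
          obtain ⟨j', rfl⟩ := Fin.exists_succ_eq_of_ne_zero hj
          rw [Fin.cons_succ, ← hsup]
          exact le_iSup Bf j'
        rw [Fin.cons_zero]
        exact hdisj.mono_right h1
      · obtain ⟨R, hR⟩ : ∃ R : Subgroup G, R = ⨆ l, ⨆ (_ : l ≠ j), Bf l := ⟨_, rfl⟩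
        have h1 : (⨆ l, ⨆ (_ : l ≠ j.succ), (Fin.cons C Bf : Fin (k + 1) → Subgroup G) l) ≤
            C ⊔ R := by
          refine iSup₂_le ?_
          intro l
          refine Fin.cases ?_ (fun l' => ?_) l
          · intro _
            rw [Fin.cons_zero]
            exact le_sup_left
          · intro hl
            rw [Fin.cons_succ]
            have hl' : l' ≠ j := fun h => hl (by rw [h])
            exact le_sup_of_le_right (hR ▸ le_iSup₂_of_le l' hl' le_rfl)
        have hRB : R ≤ B := by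
          rw [hR, ← hsup]
          exact iSup₂_le (fun l _ => le_iSup Bf l)
        have hdR : Disjoint (Bf j) R := hR ▸ hind j
        rw [Fin.cons_succ]
        refine Disjoint.mono_right h1 ?_
        rw [Subgroup.disjoint_def]
        intro x hx hxCR
        obtain ⟨c, hc, r, hr, rfl⟩ :=
          mem_sup_comm (fun c hc r hr => hcomm c (hCA hc) r (hBA (hRB hr))) hxCR
        have hxB : c * r ∈ B := by
          have h2 : Bf j ≤ B := hsup ▸ le_iSup Bf j
          exact h2 hx
        have hcB : c ∈ B := by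
          have h2 := B.mul_mem hxB (B.inv_mem (hRB hr))
          rwa [mul_inv_cancel_right] at h2
        have hc1 : c = 1 := Subgroup.disjoint_def.mp hdisj hc hcB
        rw [hc1, one_mul] at hx ⊢
        exact Subgroup.disjoint_def.mp hdR hx hr
    · rw [← hsupCB, ← hsup]
      apply le_antisymm
      · refine iSup_le ?_
        intro i
        refine Fin.cases ?_ (fun j => ?_) i
        · rw [Fin.cons_zero]
          exact le_sup_left
        · rw [Fin.cons_succ]
          exact le_sup_of_le_right (le_iSup Bf j)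
      · refine sup_le ?_ (iSup_le ?_)
        · have h2 := le_iSup (Fin.cons C Bf : Fin (k + 1) → Subgroup G) 0
          rwa [Fin.cons_zero] at h2
        · intro j
          have h2 := le_iSup (Fin.cons C Bf : Fin (k + 1) → Subgroup G) j.succ
          rwa [Fin.cons_succ] at h2

/-- Best offenders of order `p` act nontrivially and are minimal. -/
theorem minimal_of_card (hS : Setting p V H Q) {B : Subgroup G} (hBH : B ≤ H)
    (hBp : Nat.card B = p) :
    ⁅V, B⁆ ≠ ⊥ ∧ ∀ C : Subgroup G, C ≤ B → IsBestOffenderOn p V C → ⁅V, C⁆ ≠ ⊥ → C = B := by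
  have hpp : p.Prime := hp.out
  have hne : ∀ C : Subgroup G, C ≤ H → ⁅V, C⁆ = ⊥ → C = ⊥ := by
    intro C hCH h
    have h1 : C ≤ Subgroup.centralizer (V : Set G) :=
      Subgroup.le_centralizer_iff.mp (Subgroup.commutator_eq_bot_iff_le_centralizer.mp h)
    exact le_bot_iff.mp (hS.hf ▸ le_inf hCH h1)
  constructor
  · intro h
    have h1 := hne B hBH h
    rw [h1, Subgroup.card_bot] at hBp
    exact hpp.one_lt.ne hBp
  · intro C hCB _ hVC
    have h1 : Nat.card C ∣ p := hBp ▸ Subgroup.card_dvd_of_le hCB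
    rcases (Nat.dvd_prime hpp).mp h1 with h2 | h2
    · exfalso
      apply hVC
      rw [Subgroup.card_eq_one.mp h2]
      exact Subgroup.commutator_bot_right V
    · exact Subgroup.eq_of_le_of_card_ge hCB (by rw [h2, hBp])

end main

end Cfsg.Agent.Lib.Helper6.BestOff
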