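import Mathlib
import Cfsg.Prelude.Def_Transfer
import Cfsg.Prelude.Def_Solvable
import Cfsg.Agent.Lib.Helper1.Coprime
import Cfsg.Agent.Lib.Helper21.Subnormal
import Cfsg.Agent.Lib.Helper24.SubnormalRel

/-! Two subnormal subgroups acting irreducibly on their commutator modules in a faithful group
without normal `p`-subgroups commute, unless one commutator module contains the other. -/

set_option autoImplicit false
open Pointwise

namespace Cfsg.Agent.Lib.Helper6.SubPair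

open Cfsg
open Cfsg.Agent.Lib.Helper24

open scoped commutatorElement

universe u

variable {G : Type u} [Group G]

theorem le_normalizer_of_conj_mem {F P : Subgroup G}
    (h : ∀ g ∈ F, ∀ x ∈ P, g * x * g⁻¹ ∈ P) : F ≤ Subgroup.normalizer (P : Set G) := by
  intro g hg
  rw [Subgroup.mem_normalizer_iff]
  intro x
  constructor
  · exact h g hg x
  · intro hx
    have h1 := h g⁻¹ (F.inv_mem hg) _ hx
    have h2 : g⁻¹ * (g * x * g⁻¹) * g⁻¹⁻¹ = x := by group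
    rw [h2] at h1
    exact h1

theorem conj_mem_of_mem_normalizer {P : Subgroup G} {g x : G}
    (hg : g ∈ Subgroup.normalizer (P : Set G)) (hx : x ∈ P) : g * x * g⁻¹ ∈ P :=
  (Subgroup.mem_normalizer_iff.mp hg x).mp hx

theorem conj_inv_mem_of_mem_normalizer {P : Subgroup G} {g x : G}
    (hg : g ∈ Subgroup.normalizer (P : Set G)) (hx : x ∈ P) : g⁻¹ * x * g ∈ P := by
  have h1 := conj_mem_of_mem_normalizer ((Subgroup.normalizer (P : Set G)).inv_mem hg) hx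
  rwa [inv_inv] at h1

/-- The normalizers of `A` and `B` normalize `[A, B]`. -/
theorem mem_normalizer_commutator {A B : Subgroup G} {g : G}
    (hA : g ∈ Subgroup.normalizer (A : Set G)) (hB : g ∈ Subgroup.normalizer (B : Set G)) :
    g ∈ Subgroup.normalizer ((⁅A, B⁆ : Subgroup G) : Set G) := by
  have key : ∀ g : G, g ∈ Subgroup.normalizer (A : Set G) → g ∈ Subgroup.normalizer (B : Set G) →
      ⁅A, B⁆ ≤ (⁅A, B⁆ : Subgroup G).comap (MulAut.conj g).toMonoidHom := by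
    intro g hA hB
    rw [Subgroup.commutator_le]
    intro a ha b hb
    rw [Subgroup.mem_comap]
    have h1 : (MulAut.conj g).toMonoidHom ⁅a, b⁆ = ⁅g * a * g⁻¹, g * b * g⁻¹⁆ := by
      simp only [MulEquiv.coe_toMonoidHom, MulAut.conj_apply, commutatorElement_def]
      group
    rw [h1]
    exact Subgroup.commutator_mem_commutator (conj_mem_of_mem_normalizer hA ha)
      (conj_mem_of_mem_normalizer hB hb)
  rw [Subgroup.mem_normalizer_iff]
  intro x
  constructor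
  · intro hx
    have h1 := key g hA hB hx
    rw [Subgroup.mem_comap] at h1
    simpa using h1
  · intro hx
    have h1 := key g⁻¹ (inv_mem hA) (inv_mem hB) hx
    rw [Subgroup.mem_comap] at h1
    have h2 : (MulAut.conj g⁻¹).toMonoidHom (g * x * g⁻¹) = x := by
      simp only [MulEquiv.coe_toMonoidHom, MulAut.conj_apply]
      group
    rwa [h2] at h1

theorem le_normalizer_commutator {A B F : Subgroup G}
    (hA : F ≤ Subgroup.normalizer (A : Set G)) (hB : F ≤ Subgroup.normalizer (B : Set G)) :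
    F ≤ Subgroup.normalizer ((⁅A, B⁆ : Subgroup G) : Set G) :=
  fun _ hg => mem_normalizer_commutator (hA hg) (hB hg)

theorem mem_normalizer_inf {A B : Subgroup G} {g : G}
    (hA : g ∈ Subgroup.normalizer (A : Set G)) (hB : g ∈ Subgroup.normalizer (B : Set G)) :
    g ∈ Subgroup.normalizer ((A ⊓ B : Subgroup G) : Set G) := by
  rw [Subgroup.mem_normalizer_iff]
  intro x
  have h1 := Subgroup.mem_normalizer_iff.mp hA x
  have h2 := Subgroup.mem_normalizer_iff.mp hB x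
  constructor
  · rintro ⟨hx1, hx2⟩
    exact ⟨h1.mp hx1, h2.mp hx2⟩
  · rintro ⟨hx1, hx2⟩
    exact ⟨h1.mpr hx1, h2.mpr hx2⟩

theorem mem_normalizer_centralizer {W : Subgroup G} {g : G}
    (hW : g ∈ Subgroup.normalizer (W : Set G)) :
    g ∈ Subgroup.normalizer ((Subgroup.centralizer (W : Set G) : Subgroup G) : Set G) := by
  have key : ∀ g : G, g ∈ Subgroup.normalizer (W : Set G) →
      ∀ x ∈ Subgroup.centralizer (W : Set G), g * x * g⁻¹ ∈ Subgroup.centralizer (W : Set G) := by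
    intro g hg x hx
    rw [Subgroup.mem_centralizer_iff] at hx ⊢
    intro w hw
    have h1 := hx _ (conj_inv_mem_of_mem_normalizer hg hw)
    calc w * (g * x * g⁻¹) = g * ((g⁻¹ * w * g) * x) * g⁻¹ := by group
      _ = g * (x * (g⁻¹ * w * g)) * g⁻¹ := by rw [h1]
      _ = g * x * g⁻¹ * w := by group
  rw [Subgroup.mem_normalizer_iff]
  intro x
  constructor
  · exact key g hW x
  · intro hx
    have h1 := key g⁻¹ (inv_mem hW) _ hx
    have h2 : g⁻¹ * (g * x * g⁻¹) * g⁻¹⁻¹ = x := by group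
    rwa [h2] at h1

/-- The subgroup of elements normalizing `V` and `W` and acting trivially on `V / W`. -/
def stabSub (V W : Subgroup G) : Subgroup G where
  carrier := {g | g ∈ Subgroup.normalizer (V : Set G) ∧ g ∈ Subgroup.normalizer (W : Set G) ∧
    ∀ v ∈ V, ⁅v, g⁆ ∈ W}
  one_mem' := by
    refine ⟨Subgroup.one_mem _, Subgroup.one_mem _, ?_⟩
    intro v _
    rw [commutatorElement_one_right]
    exact W.one_mem
  mul_mem' := by
    rintro g h ⟨hg1, hg2, hg3⟩ ⟨hh1, hh2, hh3⟩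
    refine ⟨Subgroup.mul_mem _ hg1 hh1, Subgroup.mul_mem _ hg2 hh2, ?_⟩
    intro v hv
    have h1 : ⁅v, g * h⁆ = ⁅v, g⁆ * (g * ⁅v, h⁆ * g⁻¹) := by
      simp only [commutatorElement_def]; group
    rw [h1]
    exact W.mul_mem (hg3 v hv) (conj_mem_of_mem_normalizer hg2 (hh3 v hv))
  inv_mem' := by
    rintro g ⟨hg1, hg2, hg3⟩
    refine ⟨Subgroup.inv_mem _ hg1, Subgroup.inv_mem _ hg2, ?_⟩
    intro v hv
    have h1 : ⁅v, g⁻¹⁆ = g⁻¹ * (⁅v, g⁆)⁻¹ * g := by
      simp only [commutatorElement_def]; group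
    rw [h1]
    exact conj_inv_mem_of_mem_normalizer hg2 (W.inv_mem (hg3 v hv))

theorem mem_stabSub {V W : Subgroup G} {g : G} :
    g ∈ stabSub V W ↔ g ∈ Subgroup.normalizer (V : Set G) ∧
      g ∈ Subgroup.normalizer (W : Set G) ∧ ∀ v ∈ V, ⁅v, g⁆ ∈ W := Iff.rfl

theorem le_stabSub {V W A : Subgroup G} (hAV : A ≤ Subgroup.normalizer (V : Set G))
    (hAW : A ≤ Subgroup.normalizer (W : Set G)) (h : ⁅V, A⁆ ≤ W) : A ≤ stabSub V W :=
  fun _ ha => ⟨hAV ha, hAW ha, fun _ hv => h (Subgroup.commutator_mem_commutator hv ha)⟩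

theorem commutator_le_of_le_stabSub {V W A : Subgroup G} (h : A ≤ stabSub V W) : ⁅V, A⁆ ≤ W := by
  rw [Subgroup.commutator_le]
  intro v hv a ha
  exact (h ha).2.2 v hv

theorem stabSub_conj {V W : Subgroup G} {y g : G} (hyV : y ∈ Subgroup.normalizer (V : Set G))
    (hyW : y ∈ Subgroup.normalizer (W : Set G)) (hg : g ∈ stabSub V W) :
    y * g * y⁻¹ ∈ stabSub V W := by
  obtain ⟨hg1, hg2, hg3⟩ := hg
  refine ⟨?_, ?_, ?_⟩
  · exact Subgroup.mul_mem _ (Subgroup.mul_mem _ hyV hg1) (Subgroup.inv_mem _ hyV)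
  · exact Subgroup.mul_mem _ (Subgroup.mul_mem _ hyW hg2) (Subgroup.inv_mem _ hyW)
  · intro v hv
    have h1 : ⁅v, y * g * y⁻¹⁆ = y * ⁅y⁻¹ * v * y, g⁆ * y⁻¹ := by
      simp only [commutatorElement_def]; group
    rw [h1]
    exact conj_mem_of_mem_normalizer hyW (hg3 _ (conj_inv_mem_of_mem_normalizer hyV hv))

/-- `[V, A ⊔ B] ≤ W` as soon as `A` and `B` normalize `V` and `W` and move `V` into `W`. -/
theorem commutator_sup_le {V W A B : Subgroup G} (hAV : A ≤ Subgroup.normalizer (V : Set G))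
    (hAW : A ≤ Subgroup.normalizer (W : Set G)) (hA : ⁅V, A⁆ ≤ W)
    (hBV : B ≤ Subgroup.normalizer (V : Set G)) (hBW : B ≤ Subgroup.normalizer (W : Set G))
    (hB : ⁅V, B⁆ ≤ W) : ⁅V, A ⊔ B⁆ ≤ W :=
  commutator_le_of_le_stabSub (sup_le (le_stabSub hAV hAW hA) (le_stabSub hBV hBW hB))

/-- An element centralizing `W ≤ V` and `V / W` has `p`-th power centralizing `V`. -/
theorem pow_mem_centralizer_of_stab {p : ℕ} {V W : Subgroup G} (hV : IsElementaryAbelian p V)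
    (hWV : W ≤ V) {g : G} (hgW : g ∈ Subgroup.centralizer (W : Set G))
    (hg : ∀ v ∈ V, ⁅v, g⁆ ∈ W) : g ^ p ∈ Subgroup.centralizer (V : Set G) := by
  rw [Subgroup.mem_centralizer_iff]
  intro v hv
  obtain ⟨w, hw⟩ : ∃ w : G, w = ⁅v, g⁆ := ⟨_, rfl⟩
  have hwW : w ∈ W := hw ▸ hg v hv
  have hgw : g * w = w * g := (Subgroup.mem_centralizer_iff.mp hgW w hwW).symm
  have hgv : g * v * g⁻¹ = w⁻¹ * v := by
    rw [hw, commutatorElement_def]; group
  have key : ∀ n : ℕ, g ^ n * v * (g ^ n)⁻¹ = (w⁻¹) ^ n * v := by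
    intro n
    induction n with
    | zero => simp
    | succ n ih =>
      have hc : Commute g ((w⁻¹) ^ n) := ((show Commute g w from hgw).inv_right).pow_right n
      calc g ^ (n + 1) * v * (g ^ (n + 1))⁻¹ = g * (g ^ n * v * (g ^ n)⁻¹) * g⁻¹ := by
            rw [pow_succ']; group
        _ = g * ((w⁻¹) ^ n * v) * g⁻¹ := by rw [ih]
        _ = (g * (w⁻¹) ^ n) * v * g⁻¹ := by group
        _ = ((w⁻¹) ^ n * g) * v * g⁻¹ := by rw [hc.eq]
        _ = (w⁻¹) ^ n * (g * v * g⁻¹) := by group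
        _ = (w⁻¹) ^ n * (w⁻¹ * v) := by rw [hgv]
        _ = (w⁻¹) ^ (n + 1) * v := by rw [pow_succ]; group
  have h1 := key p
  have h2 : (w⁻¹) ^ p = 1 := by
    rw [inv_pow, hV.2 w (hWV hwW), inv_one]
  rw [h2, one_mul] at h1
  calc v * g ^ p = (g ^ p * v * (g ^ p)⁻¹) * g ^ p := by rw [h1]
    _ = g ^ p * v := by group

/-- `E` acts faithfully on `V` and has no nontrivial subnormal `p`-subgroup. -/
structure Good (p : ℕ) (V E : Subgroup G) : Prop where
  hV : IsElementaryAbelian p V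
  hEV : E ≤ Subgroup.normalizer (V : Set G)
  hf : E ⊓ Subgroup.centralizer (V : Set G) = ⊥
  hOp : ∀ P : Subgroup G, P ≤ E → IsPGroup p P → (P.subgroupOf E).IsSubnormal → P = ⊥

/-- Irreducibility of `F` on `[V, F]`. -/
def Irr (V F : Subgroup G) : Prop :=
  ∀ U : Subgroup G, U ≤ ⁅V, F⁆ → F ≤ Subgroup.normalizer (U : Set G) → U = ⊥ ∨ U = ⁅V, F⁆

/-- A subnormal subgroup of `E` of order more than 2 acting irreducibly on its commutator. -/
structure Piece (V E F : Subgroup G) : Prop where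
  le : F ≤ E
  sub : (F.subgroupOf E).IsSubnormal
  irr : Irr V F
  card : 2 < Nat.card F

theorem subnormal_trans_rel {P F E : Subgroup G} (hPF : P ≤ F)
    (h1 : (P.subgroupOf F).IsSubnormal) (h2 : (F.subgroupOf E).IsSubnormal) :
    (P.subgroupOf E).IsSubnormal := by
  have h3 : ((P.subgroupOf E).subgroupOf (F.subgroupOf E)).IsSubnormal :=
    isSubnormal_subgroupOf_comap E.subtype (F.subgroupOf E) F P le_rfl h1
  refine Subgroup.IsSubnormal.trans ?_ h3 h2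
  intro x hx
  exact hPF hx

theorem commutator_le_left_of_le_normalizer {V F : Subgroup G}
    (hFV : F ≤ Subgroup.normalizer (V : Set G)) : ⁅V, F⁆ ≤ V :=
  Cfsg.Agent.Lib.Helper1.commutator_le_of_le_normalizer hFV

section fin

variable [Finite G] {p : ℕ} [hp : Fact p.Prime] {V E : Subgroup G}

omit [Finite G] hp in
/-- A subnormal subgroup stabilizing the chain `V ≥ W ≥ 1` is trivial. -/
theorem stab_trivial (hE : Good p V E) {P W : Subgroup G} (hPE : P ≤ E)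
    (hs : (P.subgroupOf E).IsSubnormal) (hWV : W ≤ V)
    (hPW : P ≤ Subgroup.centralizer (W : Set G)) (hVP : ⁅V, P⁆ ≤ W) : P = ⊥ := by
  apply hE.hOp P hPE ?_ hs
  intro g
  refine ⟨1, ?_⟩
  apply Subtype.ext
  rw [pow_one]
  have h1 : (g : G) ^ p ∈ E ⊓ Subgroup.centralizer (V : Set G) :=
    ⟨E.pow_mem (hPE g.2) p, pow_mem_centralizer_of_stab hE.hV hWV (hPW g.2)
      (fun v hv => hVP (Subgroup.commutator_mem_commutator hv g.2))⟩
  rw [hE.hf, Subgroup.mem_bot] at h1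
  exact h1

omit [Finite G] hp in
/-- A subnormal subgroup acts faithfully on its commutator with `V`. -/
theorem faithful_comm (hE : Good p V E) {F : Subgroup G} (hFE : F ≤ E)
    (hs : (F.subgroupOf E).IsSubnormal) :
    F ⊓ Subgroup.centralizer ((⁅V, F⁆ : Subgroup G) : Set G) = ⊥ := by
  have hFV : F ≤ Subgroup.normalizer (V : Set G) := hFE.trans hE.hEV
  have hFW : F ≤ Subgroup.normalizer ((⁅V, F⁆ : Subgroup G) : Set G) :=
    le_normalizer_commutator hFV Subgroup.le_normalizer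
  have hN : F ≤ Subgroup.normalizer
      ((F ⊓ Subgroup.centralizer ((⁅V, F⁆ : Subgroup G) : Set G) : Subgroup G) : Set G) :=
    fun g hg => mem_normalizer_inf (Subgroup.le_normalizer hg)
      (mem_normalizer_centralizer (hFW hg))
  have h1 : ((F ⊓ Subgroup.centralizer ((⁅V, F⁆ : Subgroup G) : Set G)).subgroupOf F).Normal :=
    Subgroup.normal_subgroupOf_of_le_normalizer hN
  have h2 := subnormal_trans_rel inf_le_left h1.isSubnormal hs
  exact stab_trivial hE (inf_le_left.trans hFE) h2 (commutator_le_left_of_le_normalizer hFV)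
    inf_le_right (Subgroup.commutator_mono le_rfl inf_le_left)

omit [Finite G] hp in
/-- An irreducible faithful piece has no fixed points on its commutator. -/
theorem fix_eq_bot (hE : Good p V E) {F : Subgroup G} (hF : Piece V E F) :
    ⁅V, F⁆ ⊓ Subgroup.centralizer (F : Set G) = ⊥ := by
  have hFV : F ≤ Subgroup.normalizer (V : Set G) := hF.le.trans hE.hEV
  have hFW : F ≤ Subgroup.normalizer ((⁅V, F⁆ : Subgroup G) : Set G) :=
    le_normalizer_commutator hFV Subgroup.le_normalizer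
  have hN : F ≤ Subgroup.normalizer
      ((⁅V, F⁆ ⊓ Subgroup.centralizer (F : Set G) : Subgroup G) : Set G) :=
    fun g hg => mem_normalizer_inf (hFW hg) (mem_normalizer_centralizer (Subgroup.le_normalizer hg))
  rcases hF.irr _ inf_le_left hN with h | h
  · exact h
  · exfalso
    have h1 : ⁅V, F⁆ ≤ Subgroup.centralizer (F : Set G) := by
      rw [← h]; exact inf_le_right
    have h2 : F ≤ F ⊓ Subgroup.centralizer ((⁅V, F⁆ : Subgroup G) : Set G) :=
      le_inf le_rfl (Subgroup.le_centralizer_iff.mp h1)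
    rw [faithful_comm hE hF.le hF.sub] at h2
    have h3 : F = ⊥ := le_bot_iff.mp h2
    have h4 := hF.card
    rw [h3, Subgroup.card_bot] at h4
    omega

omit [Finite G] hp in
/-- Commuting pieces with independent commutators centralize each other's commutator. -/
theorem centralizes_of_comm (hE : Good p V E) {F₁ F₂ : Subgroup G} (h1 : F₁ ≤ E) (h2 : F₂ ≤ E)
    (hc : ⁅F₁, F₂⁆ = ⊥) (hW : ⁅V, F₁⁆ ⊓ ⁅V, F₂⁆ = ⊥) :
    F₁ ≤ Subgroup.centralizer ((⁅V, F₂⁆ : Subgroup G) : Set G) := by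
  have hF₁V : F₁ ≤ Subgroup.normalizer (V : Set G) := h1.trans hE.hEV
  have hF₂V : F₂ ≤ Subgroup.normalizer (V : Set G) := h2.trans hE.hEV
  have h3 : F₁ ≤ Subgroup.normalizer (F₂ : Set G) := by
    have h4 : F₁ ≤ Subgroup.centralizer (F₂ : Set G) :=
      Subgroup.commutator_eq_bot_iff_le_centralizer.mp hc
    exact h4.trans (Subgroup.centralizer_le_normalizer _)
  have h5 : F₁ ≤ Subgroup.normalizer ((⁅V, F₂⁆ : Subgroup G) : Set G) :=
    le_normalizer_commutator hF₁V h3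
  have h6 : ⁅⁅V, F₂⁆, F₁⁆ ≤ ⁅V, F₁⁆ ⊓ ⁅V, F₂⁆ :=
    le_inf (Subgroup.commutator_mono (commutator_le_left_of_le_normalizer hF₂V) le_rfl)
      (Cfsg.Agent.Lib.Helper1.commutator_le_of_le_normalizer h5)
  rw [hW] at h6
  exact Subgroup.le_centralizer_iff.mp
    (Subgroup.commutator_eq_bot_iff_le_centralizer.mp (le_bot_iff.mp h6))

omit [Finite G] hp in
theorem le_normalizer_commutator_left (A B : Subgroup G) :
    A ≤ Subgroup.normalizer ((⁅A, B⁆ : Subgroup G) : Set G) := by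
  apply le_normalizer_of_conj_mem
  intro x' hx' k hk
  have h1 : ⁅A, B⁆ ≤ (⁅A, B⁆ : Subgroup G).comap (MulAut.conj x').toMonoidHom := by
    rw [Subgroup.commutator_le]
    intro x hx y hy
    rw [Subgroup.mem_comap]
    have h2 : (MulAut.conj x').toMonoidHom ⁅x, y⁆ = ⁅x' * x, y⁆ * (⁅x', y⁆)⁻¹ := by
      simp only [MulEquiv.coe_toMonoidHom, MulAut.conj_apply, commutatorElement_def]
      group
    rw [h2]
    exact Subgroup.mul_mem _ (Subgroup.commutator_mem_commutator (A.mul_mem hx' hx) hy)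
      (Subgroup.inv_mem _ (Subgroup.commutator_mem_commutator hx' hy))
  have h3 := h1 hk
  rw [Subgroup.mem_comap] at h3
  simpa using h3

omit [Finite G] hp in
theorem le_normalizer_commutator_right (A B : Subgroup G) :
    B ≤ Subgroup.normalizer ((⁅A, B⁆ : Subgroup G) : Set G) := by
  rw [Subgroup.commutator_comm]
  exact le_normalizer_commutator_left B A

omit hp in
/-- Case A: `F₂` normalizes `[V, F₁]`. -/
theorem caseA (hE : Good p V E) {F₁ F₂ : Subgroup G} (hF₁ : Piece V E F₁) (hF₂ : Piece V E F₂)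
    (hN : F₂ ≤ Subgroup.normalizer ((⁅V, F₁⁆ : Subgroup G) : Set G))
    (h21 : ¬ ⁅V, F₂⁆ ≤ ⁅V, F₁⁆) :
    ⁅F₁, F₂⁆ = ⊥ ∧ ⁅V, F₁⁆ ⊓ ⁅V, F₂⁆ = ⊥ ∧
      F₂ ≤ Subgroup.centralizer ((⁅V, F₁⁆ : Subgroup G) : Set G) := by
  have hF₁V : F₁ ≤ Subgroup.normalizer (V : Set G) := hF₁.le.trans hE.hEV
  have hF₂V : F₂ ≤ Subgroup.normalizer (V : Set G) := hF₂.le.trans hE.hEV
  have hF₁W₁ : F₁ ≤ Subgroup.normalizer ((⁅V, F₁⁆ : Subgroup G) : Set G) :=
    le_normalizer_commutator hF₁V Subgroup.le_normalizer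
  have hF₂W₂ : F₂ ≤ Subgroup.normalizer ((⁅V, F₂⁆ : Subgroup G) : Set G) :=
    le_normalizer_commutator hF₂V Subgroup.le_normalizer
  have hW₁V : ⁅V, F₁⁆ ≤ V := commutator_le_left_of_le_normalizer hF₁V
  have hinf : ⁅V, F₁⁆ ⊓ ⁅V, F₂⁆ = ⊥ := by
    rcases hF₂.irr (⁅V, F₁⁆ ⊓ ⁅V, F₂⁆) inf_le_right
      (fun g hg => mem_normalizer_inf (hN hg) (hF₂W₂ hg)) with h | h
    · exact h
    · exact absurd (inf_eq_right.mp h) h21
  have hcent : F₂ ≤ Subgroup.centralizer ((⁅V, F₁⁆ : Subgroup G) : Set G) := by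
    have h6 : ⁅⁅V, F₁⁆, F₂⁆ ≤ ⁅V, F₁⁆ ⊓ ⁅V, F₂⁆ :=
      le_inf (Cfsg.Agent.Lib.Helper1.commutator_le_of_le_normalizer hN)
        (Subgroup.commutator_mono hW₁V le_rfl)
    rw [hinf] at h6
    exact Subgroup.le_centralizer_iff.mp
      (Subgroup.commutator_eq_bot_iff_le_centralizer.mp (le_bot_iff.mp h6))
  refine ⟨?_, hinf, hcent⟩
  have hKL : ⁅F₁, F₂⁆ ≤ F₁ ⊔ F₂ := by
    rw [Subgroup.commutator_le]
    intro x hx y hy
    rw [commutatorElement_def]
    have hx' : x ∈ F₁ ⊔ F₂ := Subgroup.mem_sup_left hx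
    have hy' : y ∈ F₁ ⊔ F₂ := Subgroup.mem_sup_right hy
    exact mul_mem (mul_mem (mul_mem hx' hy') (inv_mem hx')) (inv_mem hy')
  have hLE : F₁ ⊔ F₂ ≤ E := sup_le hF₁.le hF₂.le
  have hLs : ((F₁ ⊔ F₂).subgroupOf E).IsSubnormal :=
    isSubnormal_subgroupOf_sup hF₁.le hF₂.le hF₁.sub hF₂.sub
  have hKn : ((⁅F₁, F₂⁆ : Subgroup G).subgroupOf (F₁ ⊔ F₂)).Normal :=
    Subgroup.normal_subgroupOf_of_le_normalizer
      (sup_le (le_normalizer_commutator_left F₁ F₂) (le_normalizer_commutator_right F₁ F₂))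
  have hKs : ((⁅F₁, F₂⁆ : Subgroup G).subgroupOf E).IsSubnormal :=
    subnormal_trans_rel hKL hKn.isSubnormal hLs
  have hKC : ⁅F₁, F₂⁆ ≤ Subgroup.centralizer ((⁅V, F₁⁆ : Subgroup G) : Set G) := by
    rw [Subgroup.commutator_le]
    intro x hx y hy
    have h1 : ⁅x, y⁆ = (x * y * x⁻¹) * y⁻¹ := by rw [commutatorElement_def]
    rw [h1]
    exact Subgroup.mul_mem _
      (conj_mem_of_mem_normalizer (mem_normalizer_centralizer (hF₁W₁ hx)) (hcent hy))
      (Subgroup.inv_mem _ (hcent hy))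
  have hKst : ⁅F₁, F₂⁆ ≤ stabSub V ⁅V, F₁⁆ := by
    have hF₁st : F₁ ≤ stabSub V ⁅V, F₁⁆ := le_stabSub hF₁V hF₁W₁ le_rfl
    rw [Subgroup.commutator_le]
    intro x hx y hy
    have h1 : ⁅x, y⁆ = x * (y * x⁻¹ * y⁻¹) := by rw [commutatorElement_def]; group
    rw [h1]
    exact Subgroup.mul_mem _ (hF₁st hx)
      (stabSub_conj (hF₂V hy) (hN hy) (Subgroup.inv_mem _ (hF₁st hx)))
  exact stab_trivial hE (hKL.trans hLE) hKs hW₁V hKC (commutator_le_of_le_stabSub hKst)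

omit [Finite G] hp in
theorem conj_smul_commutator_eq (e : G) (A B : Subgroup G) :
    MulAut.conj e • ⁅A, B⁆ = ⁅MulAut.conj e • A, MulAut.conj e • B⁆ := by
  have h1 : MulAut.conj e • ⁅A, B⁆ = (⁅A, B⁆ : Subgroup G).map (MulAut.conj e).toMonoidHom := rfl
  have h2 : MulAut.conj e • A = A.map (MulAut.conj e).toMonoidHom := rfl
  have h3 : MulAut.conj e • B = B.map (MulAut.conj e).toMonoidHom := rfl
  rw [h1, Subgroup.map_commutator, ← h2, ← h3]

omit [Finite G] hp in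
theorem conj_smul_eq_of_mem_normalizer {S : Subgroup G} {e : G}
    (he : e ∈ Subgroup.normalizer (S : Set G)) : MulAut.conj e • S = S := by
  ext x
  rw [mem_conj_smul]
  constructor
  · intro h
    have h1 := conj_mem_of_mem_normalizer he h
    have h2 : e * (e⁻¹ * x * e) * e⁻¹ = x := by group
    rwa [h2] at h1
  · intro h
    exact conj_inv_mem_of_mem_normalizer he h

omit [Finite G] hp in
theorem commutator_conj (hE : Good p V E) (F : Subgroup G) {e : G} (he : e ∈ E) :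
    ⁅V, MulAut.conj e • F⁆ = MulAut.conj e • ⁅V, F⁆ := by
  rw [conj_smul_commutator_eq, conj_smul_eq_of_mem_normalizer (hE.hEV he)]

omit [Finite G] hp in
theorem card_conj_smul (e : G) (S : Subgroup G) :
    Nat.card ↥(MulAut.conj e • S) = Nat.card S :=
  (Nat.card_congr (Subgroup.equivSMul (MulAut.conj e) S).toEquiv).symm

omit [Finite G] hp in
theorem piece_conj (hE : Good p V E) {F : Subgroup G} (hF : Piece V E F) {e : G} (he : e ∈ E) :
    Piece V E (MulAut.conj e • F) := by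
  refine ⟨?_, ?_, ?_, ?_⟩
  · exact Subgroup.conj_smul_le_of_le hF.le ⟨e, he⟩
  · have h1 := isSubnormal_subgroupOf_conj e hF.sub
    rwa [Subgroup.conj_smul_eq_self_of_mem he] at h1
  · intro U hU hN
    rw [commutator_conj hE F he] at hU ⊢
    obtain ⟨U', hU'⟩ : ∃ U' : Subgroup G, U' = (MulAut.conj e)⁻¹ • U := ⟨_, rfl⟩
    have hmem : ∀ x : G, x ∈ U' ↔ e * x * e⁻¹ ∈ U := by
      intro x
      rw [hU', Subgroup.mem_inv_pointwise_smul_iff, MulAut.smul_def, MulAut.conj_apply]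
    have hUU' : U = MulAut.conj e • U' := by rw [hU', smul_inv_smul]
    have h1 : U' ≤ ⁅V, F⁆ := by
      intro x hx
      have h2 := hU ((hmem x).mp hx)
      rw [mem_conj_smul] at h2
      have h3 : e⁻¹ * (e * x * e⁻¹) * e = x := by group
      rwa [h3] at h2
    have h2 : F ≤ Subgroup.normalizer (U' : Set G) := by
      apply le_normalizer_of_conj_mem
      intro g hg x hx
      rw [hmem] at hx ⊢
      have h3 : e * g * e⁻¹ ∈ MulAut.conj e • F := conj_smul_mem F e hg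
      have h4 := conj_mem_of_mem_normalizer (hN h3) hx
      have h5 : e * g * e⁻¹ * (e * x * e⁻¹) * (e * g * e⁻¹)⁻¹ = e * (g * x * g⁻¹) * e⁻¹ := by
        group
      rwa [h5] at h4
    rcases hF.irr U' h1 h2 with h | h
    · left
      rw [hUU', h, Subgroup.smul_bot]
    · right
      rw [hUU', h]
  · rw [card_conj_smul]
    exact hF.card

omit hp in
theorem not_le_of_ne_of_card_eq {A B : Subgroup G} (hne : A ≠ B)
    (hc : Nat.card A = Nat.card B) : ¬ A ≤ B ∧ ¬ B ≤ A := by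
  constructor
  · intro h
    exact hne (Subgroup.eq_of_le_of_card_ge h (le_of_eq hc.symm))
  · intro h
    exact hne (Subgroup.eq_of_le_of_card_ge h (le_of_eq hc)).symm

omit [Finite G] hp in
theorem comm_map_injective {W W' : Subgroup G} {e : G} (hd : W ⊓ MulAut.conj e • W = ⊥)
    (hm : ∀ w ∈ W, ⁅w, e⁆ ∈ W') :
    Function.Injective (fun w : W => (⟨⁅(w : G), e⁆, hm w w.2⟩ : W')) := by
  intro w w' h
  have h' : ⁅(w : G), e⁆ = ⁅(w' : G), e⁆ := congrArg Subtype.val h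
  have hz : (w' : G)⁻¹ * w = e * ((w' : G)⁻¹ * w) * e⁻¹ := by
    calc (w' : G)⁻¹ * w = (w' : G)⁻¹ * ⁅(w : G), e⁆ * (e * w * e⁻¹) := by
          simp only [commutatorElement_def]; group
      _ = (w' : G)⁻¹ * ⁅(w' : G), e⁆ * (e * w * e⁻¹) := by rw [h']
      _ = e * ((w' : G)⁻¹ * w) * e⁻¹ := by
          simp only [commutatorElement_def]; group
  have hzW : (w' : G)⁻¹ * w ∈ W := W.mul_mem (W.inv_mem w'.2) w.2
  have hz2 : (w' : G)⁻¹ * w ∈ W ⊓ MulAut.conj e • W := by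
    refine ⟨hzW, ?_⟩
    rw [hz]
    exact conj_smul_mem W e hzW
  rw [hd, Subgroup.mem_bot] at hz2
  apply Subtype.ext
  exact (inv_mul_eq_one.mp hz2).symm

omit [Finite G] hp in
/-- A proper subnormal subgroup lies in a proper normal subgroup. -/
theorem exists_proper_normal [Finite G] {F L : Subgroup G} (hFL : F ≤ L)
    (hs : (F.subgroupOf L).IsSubnormal) (hne : F ≠ L) :
    ∃ M : Subgroup G, M ≤ L ∧ L ≤ Subgroup.normalizer (M : Set G) ∧ F ≤ M ∧
      Nat.card M < Nat.card L := by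
  rcases hs.lt_normal with h | ⟨K, hKn, hle, hlt⟩
  · exfalso
    apply hne
    exact le_antisymm hFL (Subgroup.subgroupOf_eq_top.mp h)
  · refine ⟨K.map L.subtype, Subgroup.map_subtype_le _, ?_, ?_, ?_⟩
    · have h1 := Subgroup.le_normalizer_map (H := K) L.subtype
      have h2 : Subgroup.normalizer ((K : Subgroup ↥L) : Set ↥L) = ⊤ :=
        Subgroup.normalizer_eq_top_iff.mpr hKn
      intro h hh
      apply h1
      rw [h2]
      exact ⟨⟨h, hh⟩, Subgroup.mem_top _, rfl⟩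
    · intro x hx
      exact ⟨⟨x, hFL hx⟩, hle (Subgroup.mem_subgroupOf.mpr hx), rfl⟩
    · rw [Subgroup.card_map_of_injective L.subtype_injective]
      have h3 := card_lt_card_of_lt' hlt
      rwa [Subgroup.card_top] at h3

omit hp in
/-- The main induction: pieces with incomparable commutators commute. -/
theorem pair_aux (hE : Good p V E) : ∀ (n : ℕ) (F₁ F₂ : Subgroup G), Nat.card ↥(F₁ ⊔ F₂) ≤ n →
    Piece V E F₁ → Piece V E F₂ → ¬ ⁅V, F₁⁆ ≤ ⁅V, F₂⁆ → ¬ ⁅V, F₂⁆ ≤ ⁅V, F₁⁆ →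
    ⁅F₁, F₂⁆ = ⊥ ∧ ⁅V, F₁⁆ ⊓ ⁅V, F₂⁆ = ⊥ := by
  intro n
  induction n using Nat.strong_induction_on with
  | _ n ih =>
  intro F₁ F₂ hn hF₁ hF₂ h12 h21
  by_cases hA : F₂ ≤ Subgroup.normalizer ((⁅V, F₁⁆ : Subgroup G) : Set G)
  · obtain ⟨a, b, -⟩ := caseA hE hF₁ hF₂ hA h21
    exact ⟨a, b⟩
  by_cases hB : F₁ ≤ Subgroup.normalizer ((⁅V, F₂⁆ : Subgroup G) : Set G)
  · obtain ⟨a, b, -⟩ := caseA hE hF₂ hF₁ hB h12
    exact ⟨by rw [Subgroup.commutator_comm]; exact a, by rw [inf_comm]; exact b⟩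
  exfalso
  have hF₁V : F₁ ≤ Subgroup.normalizer (V : Set G) := hF₁.le.trans hE.hEV
  have hF₂V : F₂ ≤ Subgroup.normalizer (V : Set G) := hF₂.le.trans hE.hEV
  have hF₁W₁ : F₁ ≤ Subgroup.normalizer ((⁅V, F₁⁆ : Subgroup G) : Set G) :=
    le_normalizer_commutator hF₁V Subgroup.le_normalizer
  have hF₂W₂ : F₂ ≤ Subgroup.normalizer ((⁅V, F₂⁆ : Subgroup G) : Set G) :=
    le_normalizer_commutator hF₂V Subgroup.le_normalizer
  have hW₁V : ⁅V, F₁⁆ ≤ V := commutator_le_left_of_le_normalizer hF₁V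
  have hW₂V : ⁅V, F₂⁆ ≤ V := commutator_le_left_of_le_normalizer hF₂V
  have hLE : F₁ ⊔ F₂ ≤ E := sup_le hF₁.le hF₂.le
  have step : ∀ F : Subgroup G, Piece V E F → F ≤ F₁ ⊔ F₂ → F ≠ F₁ ⊔ F₂ →
      ∀ e ∈ F₁ ⊔ F₂, ∀ e' ∈ F₁ ⊔ F₂, MulAut.conj e • ⁅V, F⁆ ≠ MulAut.conj e' • ⁅V, F⁆ →
        ⁅MulAut.conj e • F, MulAut.conj e' • F⁆ = ⊥ ∧
          MulAut.conj e • ⁅V, F⁆ ⊓ MulAut.conj e' • ⁅V, F⁆ = ⊥ := by
    intro F hF hFL hFne e he e' he' hne
    obtain ⟨M, hML, hLM, hFM, hMc⟩ :=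
      exists_proper_normal hFL (isSubnormal_subgroupOf_of_le hLE hF.sub) hFne
    have hc : ∀ e ∈ F₁ ⊔ F₂, MulAut.conj e • F ≤ M := by
      intro e he x hx
      rw [mem_conj_smul] at hx
      have h1 := conj_mem_of_mem_normalizer (hLM he) (hFM hx)
      have h2 : e * (e⁻¹ * x * e) * e⁻¹ = x := by group
      rwa [h2] at h1
    have hlt : Nat.card ↥(MulAut.conj e • F ⊔ MulAut.conj e' • F) < n :=
      lt_of_le_of_lt (Subgroup.card_le_of_le (sup_le (hc e he) (hc e' he')))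
        (lt_of_lt_of_le hMc hn)
    have hp1 := piece_conj hE hF (hLE he)
    have hp2 := piece_conj hE hF (hLE he')
    have hne' : ⁅V, MulAut.conj e • F⁆ ≠ ⁅V, MulAut.conj e' • F⁆ := by
      rw [commutator_conj hE F (hLE he), commutator_conj hE F (hLE he')]
      exact hne
    have hcard : Nat.card ↥(⁅V, MulAut.conj e • F⁆) = Nat.card ↥(⁅V, MulAut.conj e' • F⁆) := by
      rw [commutator_conj hE F (hLE he), commutator_conj hE F (hLE he'), card_conj_smul,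
        card_conj_smul]
    obtain ⟨hn1, hn2⟩ := not_le_of_ne_of_card_eq hne' hcard
    have h3 := ih _ hlt (MulAut.conj e • F) (MulAut.conj e' • F) le_rfl hp1 hp2 hn1 hn2
    rw [commutator_conj hE F (hLE he), commutator_conj hE F (hLE he')] at h3
    exact h3
  have h1smul : ∀ S : Subgroup G, MulAut.conj (1 : G) • S = S := by
    intro S
    rw [map_one, one_smul]
  have hF₁ne : F₁ ≠ F₁ ⊔ F₂ := by
    intro h
    apply hA
    have h2 : F₂ ≤ F₁ := le_sup_right.trans (le_of_eq h.symm)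
    exact h2.trans hF₁W₁
  have hF₂ne : F₂ ≠ F₁ ⊔ F₂ := by
    intro h
    apply hB
    have h2 : F₁ ≤ F₂ := le_sup_left.trans (le_of_eq h.symm)
    exact h2.trans hF₂W₂
  have D₁ : ∀ e ∈ F₂, e ∉ Subgroup.normalizer ((⁅V, F₁⁆ : Subgroup G) : Set G) →
      ⁅F₁, MulAut.conj e • F₁⁆ = ⊥ ∧ ⁅V, F₁⁆ ⊓ MulAut.conj e • ⁅V, F₁⁆ = ⊥ := by
    intro e he heN
    have hne : MulAut.conj (1 : G) • ⁅V, F₁⁆ ≠ MulAut.conj e • ⁅V, F₁⁆ := by
      rw [h1smul]
      intro h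
      exact heN (mem_normalizer_of_conj_smul_le (le_of_eq h.symm))
    have h3 := step F₁ hF₁ le_sup_left hF₁ne 1 (Subgroup.one_mem _) e
      (Subgroup.mem_sup_right he) hne
    rw [h1smul, h1smul] at h3
    exact h3
  have D₂ : ∀ e ∈ F₁, e ∉ Subgroup.normalizer ((⁅V, F₂⁆ : Subgroup G) : Set G) →
      ⁅F₂, MulAut.conj e • F₂⁆ = ⊥ ∧ ⁅V, F₂⁆ ⊓ MulAut.conj e • ⁅V, F₂⁆ = ⊥ := by
    intro e he heN
    have hne : MulAut.conj (1 : G) • ⁅V, F₂⁆ ≠ MulAut.conj e • ⁅V, F₂⁆ := by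
      rw [h1smul]
      intro h
      exact heN (mem_normalizer_of_conj_smul_le (le_of_eq h.symm))
    have h3 := step F₂ hF₂ le_sup_right hF₂ne 1 (Subgroup.one_mem _) e
      (Subgroup.mem_sup_left he) hne
    rw [h1smul, h1smul] at h3
    exact h3
  obtain ⟨e₂, he₂, he₂N⟩ := SetLike.not_le_iff_exists.mp hA
  obtain ⟨e₁, he₁, he₁N⟩ := SetLike.not_le_iff_exists.mp hB
  have hm₁ : ∀ e ∈ F₂, ∀ w ∈ ⁅V, F₁⁆, ⁅w, e⁆ ∈ ⁅V, F₂⁆ :=
    fun e he w hw => Subgroup.commutator_mem_commutator (hW₁V hw) he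
  have hm₂ : ∀ e ∈ F₁, ∀ w ∈ ⁅V, F₂⁆, ⁅w, e⁆ ∈ ⁅V, F₁⁆ :=
    fun e he w hw => Subgroup.commutator_mem_commutator (hW₂V hw) he
  have hc12 : Nat.card ↥(⁅V, F₁⁆) ≤ Nat.card ↥(⁅V, F₂⁆) :=
    Nat.card_le_card_of_injective _ (comm_map_injective (D₁ e₂ he₂ he₂N).2 (hm₁ e₂ he₂))
  have hc21 : Nat.card ↥(⁅V, F₂⁆) ≤ Nat.card ↥(⁅V, F₁⁆) :=
    Nat.card_le_card_of_injective _ (comm_map_injective (D₂ e₁ he₁ he₁N).2 (hm₂ e₁ he₁))
  have hsurj₁ : ∀ e ∈ F₂, e ∉ Subgroup.normalizer ((⁅V, F₁⁆ : Subgroup G) : Set G) →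
      ∀ y ∈ ⁅V, F₂⁆, ∃ w ∈ ⁅V, F₁⁆, ⁅w, e⁆ = y := by
    intro e he heN y hy
    have hinj := comm_map_injective (D₁ e he heN).2 (hm₁ e he)
    have hbij := hinj.bijective_of_nat_card_le hc21
    obtain ⟨w, hw⟩ := hbij.2 ⟨y, hy⟩
    exact ⟨w, w.2, congrArg Subtype.val hw⟩
  have hsurj₂ : ∀ e ∈ F₁, e ∉ Subgroup.normalizer ((⁅V, F₂⁆ : Subgroup G) : Set G) →
      ∀ y ∈ ⁅V, F₁⁆, ∃ w ∈ ⁅V, F₂⁆, ⁅w, e⁆ = y := by
    intro e he heN y hy
    have hinj := comm_map_injective (D₂ e he heN).2 (hm₂ e he)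
    have hbij := hinj.bijective_of_nat_card_le hc12
    obtain ⟨w, hw⟩ := hbij.2 ⟨y, hy⟩
    exact ⟨w, w.2, congrArg Subtype.val hw⟩
  have C3 : ∀ x ∈ F₁, x ∈ Subgroup.normalizer ((⁅V, F₂⁆ : Subgroup G) : Set G) → x = 1 := by
    intro x hx hxN
    have hd := D₁ e₂ he₂ he₂N
    have hcen : F₁ ≤ Subgroup.centralizer ((MulAut.conj e₂ • ⁅V, F₁⁆ : Subgroup G) : Set G) := by
      have h := centralizes_of_comm hE hF₁.le (piece_conj hE hF₁ (hF₂.le he₂)).le hd.1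
        (by rw [commutator_conj hE F₁ (hF₂.le he₂)]; exact hd.2)
      rwa [commutator_conj hE F₁ (hF₂.le he₂)] at h
    have hxC : x ∈ F₁ ⊓ Subgroup.centralizer ((⁅V, F₁⁆ : Subgroup G) : Set G) := by
      refine Subgroup.mem_inf.mpr ⟨hx, ?_⟩
      rw [Subgroup.mem_centralizer_iff]
      intro w hw
      obtain ⟨w', hw', hw'y⟩ := hsurj₁ e₂ he₂ he₂N (x * ⁅w, e₂⁆ * x⁻¹)
        (conj_mem_of_mem_normalizer hxN (hm₁ e₂ he₂ w hw))
      have hu : e₂ * w⁻¹ * e₂⁻¹ ∈ MulAut.conj e₂ • ⁅V, F₁⁆ :=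
        conj_smul_mem _ e₂ (inv_mem hw)
      have hu' : e₂ * w'⁻¹ * e₂⁻¹ ∈ MulAut.conj e₂ • ⁅V, F₁⁆ :=
        conj_smul_mem _ e₂ (inv_mem hw')
      have hxu : (e₂ * w⁻¹ * e₂⁻¹) * x = x * (e₂ * w⁻¹ * e₂⁻¹) :=
        Subgroup.mem_centralizer_iff.mp (hcen hx) _ hu
      have hxw : x * w * x⁻¹ ∈ ⁅V, F₁⁆ := conj_mem_of_mem_normalizer (hF₁W₁ hx) hw
      have heq : w' * (e₂ * w'⁻¹ * e₂⁻¹) = (x * w * x⁻¹) * (e₂ * w⁻¹ * e₂⁻¹) := by
        have h1 : ⁅w', e₂⁆ = w' * (e₂ * w'⁻¹ * e₂⁻¹) := by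
          rw [commutatorElement_def]; group
        have h2 : x * ⁅w, e₂⁆ * x⁻¹ = (x * w * x⁻¹) * ((x * (e₂ * w⁻¹ * e₂⁻¹)) * x⁻¹) := by
          rw [commutatorElement_def]; group
        rw [← h1, hw'y, h2, ← hxu]
        group
      have hz : w'⁻¹ * (x * w * x⁻¹) = (e₂ * w'⁻¹ * e₂⁻¹) * (e₂ * w⁻¹ * e₂⁻¹)⁻¹ := by
        calc w'⁻¹ * (x * w * x⁻¹)
            = w'⁻¹ * ((x * w * x⁻¹) * (e₂ * w⁻¹ * e₂⁻¹)) * (e₂ * w⁻¹ * e₂⁻¹)⁻¹ := by group
          _ = w'⁻¹ * (w' * (e₂ * w'⁻¹ * e₂⁻¹)) * (e₂ * w⁻¹ * e₂⁻¹)⁻¹ := by rw [heq]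
          _ = (e₂ * w'⁻¹ * e₂⁻¹) * (e₂ * w⁻¹ * e₂⁻¹)⁻¹ := by group
      have hz2 : w'⁻¹ * (x * w * x⁻¹) ∈ ⁅V, F₁⁆ ⊓ MulAut.conj e₂ • ⁅V, F₁⁆ := by
        refine Subgroup.mem_inf.mpr ⟨Subgroup.mul_mem _ (Subgroup.inv_mem _ hw') hxw, ?_⟩
        rw [hz]
        exact Subgroup.mul_mem _ hu' (Subgroup.inv_mem _ hu)
      rw [hd.2, Subgroup.mem_bot] at hz2
      have hw'eq : w' = x * w * x⁻¹ := inv_mul_eq_one.mp hz2
      have hu2 : e₂ * w'⁻¹ * e₂⁻¹ = e₂ * w⁻¹ * e₂⁻¹ := by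
        rw [hz2] at hz
        exact (mul_inv_eq_one.mp hz.symm)
      have hww : w' = w := by
        have h3 : w'⁻¹ = w⁻¹ := by
          have h4 : w'⁻¹ = e₂⁻¹ * (e₂ * w'⁻¹ * e₂⁻¹) * e₂ := by group
          rw [h4, hu2]; group
        exact inv_injective h3
      rw [hww] at hw'eq
      calc w * x = (x * w * x⁻¹) * x := by rw [← hw'eq]
        _ = x * w := by group
    rw [faithful_comm hE hF₁.le hF₁.sub, Subgroup.mem_bot] at hxC
    exact hxC
  have C4 : ∀ e ∈ F₁, ∀ e' ∈ F₁,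
      e ∉ Subgroup.normalizer ((⁅V, F₂⁆ : Subgroup G) : Set G) →
      e' ∉ Subgroup.normalizer ((⁅V, F₂⁆ : Subgroup G) : Set G) →
      MulAut.conj e • ⁅V, F₂⁆ = MulAut.conj e' • ⁅V, F₂⁆ := by
    intro e he e' he' heN he'N
    by_contra hne
    have hs := step F₂ hF₂ le_sup_right hF₂ne e (Subgroup.mem_sup_left he) e'
      (Subgroup.mem_sup_left he') hne
    have hd' := D₂ e' he' he'N
    have hp' := piece_conj hE hF₂ (hF₁.le he')
    have hpe := piece_conj hE hF₂ (hF₁.le he)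
    have hcen1 : MulAut.conj e' • F₂ ≤ Subgroup.centralizer ((⁅V, F₂⁆ : Subgroup G) : Set G) :=
      centralizes_of_comm hE hp'.le hF₂.le (by rw [Subgroup.commutator_comm]; exact hd'.1)
        (by rw [commutator_conj hE F₂ (hF₁.le he'), inf_comm]; exact hd'.2)
    have hcen2 : MulAut.conj e' • F₂ ≤
        Subgroup.centralizer ((MulAut.conj e • ⁅V, F₂⁆ : Subgroup G) : Set G) := by
      have h := centralizes_of_comm hE hp'.le hpe.le
        (by rw [Subgroup.commutator_comm]; exact hs.1)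
        (by rw [commutator_conj hE F₂ (hF₁.le he'), commutator_conj hE F₂ (hF₁.le he),
          inf_comm]; exact hs.2)
      rwa [commutator_conj hE F₂ (hF₁.le he)] at h
    have hfix := fix_eq_bot hE hp'
    rw [commutator_conj hE F₂ (hF₁.le he')] at hfix
    apply h12
    intro y hy
    obtain ⟨w, hw, rfl⟩ := hsurj₂ e he heN y hy
    obtain ⟨w', hw', hw'y⟩ := hsurj₂ e' he' he'N _ hy
    have ha' : e' * w'⁻¹ * e'⁻¹ ∈ MulAut.conj e' • ⁅V, F₂⁆ ⊓
        Subgroup.centralizer ((MulAut.conj e' • F₂ : Subgroup G) : Set G) := by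
      refine Subgroup.mem_inf.mpr ⟨conj_smul_mem _ e' (inv_mem hw'), ?_⟩
      rw [Subgroup.mem_centralizer_iff]
      intro g hg
      have h1 : Commute g w := (Subgroup.mem_centralizer_iff.mp (hcen1 hg) w hw).symm
      have h2 : Commute g w' := (Subgroup.mem_centralizer_iff.mp (hcen1 hg) w' hw').symm
      have h3 : Commute g (e * w⁻¹ * e⁻¹) :=
        (Subgroup.mem_centralizer_iff.mp (hcen2 hg) _ (conj_smul_mem _ e (inv_mem hw))).symm
      have h4 : e' * w'⁻¹ * e'⁻¹ = w'⁻¹ * (w * (e * w⁻¹ * e⁻¹)) := by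
        have h5 : ⁅w', e'⁆ = w' * (e' * w'⁻¹ * e'⁻¹) := by
          rw [commutatorElement_def]; group
        have h6 : ⁅w, e⁆ = w * (e * w⁻¹ * e⁻¹) := by
          rw [commutatorElement_def]; group
        rw [← h6, ← hw'y, h5]
        group
      rw [h4]
      exact (h2.inv_right.mul_right (h1.mul_right h3)).eq
    rw [hfix, Subgroup.mem_bot] at ha'
    have hw'1 : w' = 1 := by
      have h7 : w'⁻¹ = e'⁻¹ * (e' * w'⁻¹ * e'⁻¹) * e' := by group
      have h8 : w'⁻¹ = 1 := by rw [h7, ha']; group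
      exact inv_eq_one.mp h8
    rw [← hw'y, hw'1, commutatorElement_one_left]
    exact Subgroup.one_mem _
  have hsub : ∀ x ∈ F₁, x = 1 ∨ x = e₁ := by
    intro x hx
    by_cases hxN : x ∈ Subgroup.normalizer ((⁅V, F₂⁆ : Subgroup G) : Set G)
    · left
      exact C3 x hx hxN
    · right
      have h := C4 x hx e₁ he₁ hxN he₁N
      have h2 : e₁⁻¹ * x ∈ Subgroup.normalizer ((⁅V, F₂⁆ : Subgroup G) : Set G) := by
        apply mem_normalizer_of_conj_smul_le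
        have h4 : MulAut.conj (e₁⁻¹ * x) • ⁅V, F₂⁆ = ⁅V, F₂⁆ := by
          rw [map_mul, mul_smul, h, map_inv, inv_smul_smul]
        exact le_of_eq h4
      have h3 := C3 _ (F₁.mul_mem (F₁.inv_mem he₁) hx) h2
      exact (inv_mul_eq_one.mp h3).symm
  have hcard : Nat.card F₁ ≤ 2 := by
    have h1 : (F₁ : Set G) ⊆ {1, e₁} := by
      intro x hx
      rcases hsub x hx with h | h
      · left; exact h
      · right; exact h
    calc Nat.card F₁ = (F₁ : Set G).ncard := Nat.card_coe_set_eq (F₁ : Set G)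
      _ ≤ ({1, e₁} : Set G).ncard := Set.ncard_le_ncard h1 (Set.toFinite _)
      _ ≤ ({e₁} : Set G).ncard + 1 := Set.ncard_insert_le _ _
      _ = 2 := by rw [Set.ncard_singleton]
  have h3 := hF₁.card
  omega

omit [Finite G] hp in
theorem le_normalizer_sup {A B F : Subgroup G} (hA : F ≤ Subgroup.normalizer (A : Set G))
    (hB : F ≤ Subgroup.normalizer (B : Set G)) :
    F ≤ Subgroup.normalizer ((A ⊔ B : Subgroup G) : Set G) := by
  apply le_normalizer_of_conj_mem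
  intro g hg x hx
  have h1 : A ⊔ B ≤ (A ⊔ B).comap (MulAut.conj g).toMonoidHom := by
    refine sup_le ?_ ?_
    · intro a ha
      rw [Subgroup.mem_comap]
      have h2 := conj_mem_of_mem_normalizer (hA hg) ha
      exact Subgroup.mem_sup_left (by simpa using h2)
    · intro b hb
      rw [Subgroup.mem_comap]
      have h2 := conj_mem_of_mem_normalizer (hB hg) hb
      exact Subgroup.mem_sup_right (by simpa using h2)
  have h3 := h1 hx
  rw [Subgroup.mem_comap] at h3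
  simpa using h3

omit hp in
/-- Two pieces with incomparable commutators commute, meet trivially, and their commutators
form a direct sum. -/
theorem pair_main (hE : Good p V E) {F₁ F₂ : Subgroup G} (hF₁ : Piece V E F₁)
    (hF₂ : Piece V E F₂) (h12 : ¬ ⁅V, F₁⁆ ≤ ⁅V, F₂⁆) (h21 : ¬ ⁅V, F₂⁆ ≤ ⁅V, F₁⁆) :
    ⁅F₁, F₂⁆ = ⊥ ∧ F₁ ⊓ F₂ = ⊥ ∧ ⁅V, F₁⁆ ⊓ ⁅V, F₂⁆ = ⊥ ∧
      ⁅V, F₁ ⊔ F₂⁆ = ⁅V, F₁⁆ ⊔ ⁅V, F₂⁆ := by
  obtain ⟨hc, hW⟩ := pair_aux hE _ F₁ F₂ le_rfl hF₁ hF₂ h12 h21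
  have hF₁V : F₁ ≤ Subgroup.normalizer (V : Set G) := hF₁.le.trans hE.hEV
  have hF₂V : F₂ ≤ Subgroup.normalizer (V : Set G) := hF₂.le.trans hE.hEV
  have hF₁W₁ : F₁ ≤ Subgroup.normalizer ((⁅V, F₁⁆ : Subgroup G) : Set G) :=
    le_normalizer_commutator hF₁V Subgroup.le_normalizer
  have hF₂W₂ : F₂ ≤ Subgroup.normalizer ((⁅V, F₂⁆ : Subgroup G) : Set G) :=
    le_normalizer_commutator hF₂V Subgroup.le_normalizer
  have h12c : F₁ ≤ Subgroup.centralizer (F₂ : Set G) :=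
    Subgroup.commutator_eq_bot_iff_le_centralizer.mp hc
  have h21c : F₂ ≤ Subgroup.centralizer (F₁ : Set G) := Subgroup.le_centralizer_iff.mp h12c
  have hF₁W₂ : F₁ ≤ Subgroup.normalizer ((⁅V, F₂⁆ : Subgroup G) : Set G) :=
    le_normalizer_commutator hF₁V (h12c.trans (Subgroup.centralizer_le_normalizer _))
  have hF₂W₁ : F₂ ≤ Subgroup.normalizer ((⁅V, F₁⁆ : Subgroup G) : Set G) :=
    le_normalizer_commutator hF₂V (h21c.trans (Subgroup.centralizer_le_normalizer _))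
  have hcen := (caseA hE hF₁ hF₂ hF₂W₁ h21).2.2
  refine ⟨hc, ?_, hW, ?_⟩
  · have h1 := faithful_comm hE hF₁.le hF₁.sub
    have h2 : F₁ ⊓ F₂ ≤ F₁ ⊓ Subgroup.centralizer ((⁅V, F₁⁆ : Subgroup G) : Set G) :=
      le_inf inf_le_left (inf_le_right.trans hcen)
    rw [h1] at h2
    exact le_bot_iff.mp h2
  · apply le_antisymm
    · exact commutator_sup_le hF₁V (le_normalizer_sup hF₁W₁ hF₁W₂) le_sup_left hF₂V
        (le_normalizer_sup hF₂W₁ hF₂W₂) le_sup_right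
    · exact sup_le (Subgroup.commutator_mono le_rfl le_sup_left)
        (Subgroup.commutator_mono le_rfl le_sup_right)

end fin

end Cfsg.Agent.Lib.Helper6.SubPair
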