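import Mathlib
import Cfsg.Agent.Lib.Helper6.BestOff
import Cfsg.Agent.Lib.Helper6.SubPair
import Cfsg.Agent.Lib.Helper6.SL2Rec

/-! A minimal best offender and a conjugate of it under the `p'`-core generate `SL₂(p)`. -/

set_option autoImplicit false
open Pointwise

namespace Cfsg.Agent.Lib.Helper6.FFSL2

open Cfsg
open Cfsg.Agent.Lib.Helper6.BestOff
open Cfsg.Agent.Lib.Helper6.SubPair
open Cfsg.Agent.Lib.Helper6.SL2Rec
open Cfsg.Agent.Lib.Helper24

open scoped commutatorElement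

universe u

variable {G : Type u} [Group G]

/-- `a` generates a minimal best offender: it has order `p`, and `[V, a] = ⟨d⟩` has order `p`
and is centralized by `a`. -/
structure Transv (p : ℕ) (V H : Subgroup G) (a d : G) : Prop where
  haH : a ∈ H
  ha1 : a ≠ 1
  hap : a ^ p = 1
  hdV : d ∈ V
  hd1 : d ≠ 1
  hcomm : ⁅V, Subgroup.zpowers a⁆ = Subgroup.zpowers d
  hcent : a * d = d * a

theorem zpowers_le_centralizer_zpowers {a d : G} (h : a * d = d * a) :
    Subgroup.zpowers a ≤ Subgroup.centralizer ((Subgroup.zpowers d : Subgroup G) : Set G) := by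
  rw [Subgroup.zpowers_le]
  rw [Subgroup.mem_centralizer_iff]
  intro c hc
  rw [SetLike.mem_coe, Subgroup.mem_zpowers_iff] at hc
  obtain ⟨k, rfl⟩ := hc
  exact ((show Commute d a from h.symm).zpow_left k).eq

theorem card_zpowers_of_prime {p : ℕ} [hp : Fact p.Prime] {d : G} (hd1 : d ≠ 1)
    (hdp : d ^ p = 1) : Nat.card (Subgroup.zpowers d) = p := by
  rw [Nat.card_zpowers]
  exact orderOf_eq_prime hdp hd1

section main

variable [Finite G] {p : ℕ} [hp : Fact p.Prime] {V H Q : Subgroup G}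

/-- A minimal nontrivially acting best offender is generated by a transvection. -/
theorem exists_transv (hS : Setting p V H Q) {A : Subgroup G} (hAH : A ≤ H)
    (hA : IsBestOffenderOn p V A) (hAV : ⁅V, A⁆ ≠ ⊥)
    (hmin : ∀ B : Subgroup G, B ≤ A → IsBestOffenderOn p V B → ⁅V, B⁆ ≠ ⊥ → B = A) :
    ∃ a d : G, Transv p V H a d ∧ Subgroup.zpowers a = A := by
  have hpp : p.Prime := hp.out
  obtain ⟨hAc, hDc, -⟩ := minimal_card hS hAH hA hAV hmin
  have hA1 : A ≠ ⊥ := by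
    rintro rfl
    exact hAV (Subgroup.commutator_bot_right V)
  obtain ⟨⟨a, haA⟩, ha1⟩ := (Subgroup.ne_bot_iff_exists_ne_one).mp hA1
  have ha1' : a ≠ 1 := fun h => ha1 (Subtype.ext h)
  have hap : a ^ p = 1 := pow_of hS hAH hA a haA
  have hza : Subgroup.zpowers a = A :=
    Subgroup.eq_of_le_of_card_ge (Subgroup.zpowers_le.mpr haA)
      (by rw [card_zpowers_of_prime ha1' hap, hAc])
  obtain ⟨⟨d, hdD⟩, hd1⟩ := (Subgroup.ne_bot_iff_exists_ne_one).mp hAV
  have hd1' : d ≠ 1 := fun h => hd1 (Subtype.ext h)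
  have hAV' : A ≤ Subgroup.normalizer (V : Set G) := hAH.trans hS.hHV
  have hDV : ⁅V, A⁆ ≤ V := commutator_le_left_of_le_normalizer hAV'
  have hdp : d ^ p = 1 := hS.hV.2 d (hDV hdD)
  have hzd : Subgroup.zpowers d = ⁅V, A⁆ :=
    Subgroup.eq_of_le_of_card_ge (Subgroup.zpowers_le.mpr hdD)
      (by rw [card_zpowers_of_prime hd1' hdp, hDc])
  have hDp : IsPGroup p ↥(⁅V, A⁆) := (isPGroup_V hS).to_le hDV
  have hAD : A ≤ Subgroup.normalizer ((⁅V, A⁆ : Subgroup G) : Set G) :=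
    le_normalizer_commutator hAV' Subgroup.le_normalizer
  have hlt := Cfsg.Agent.Lib.Helper1.commutator_lt_of_pgroups hDp (isPGroup_of hS hAH hA) hAD hAV
  have hbot : ⁅⁅V, A⁆, A⁆ = ⊥ := by
    have h1 : Nat.card ↥(⁅⁅V, A⁆, A⁆) ∣ p := hDc ▸ Subgroup.card_dvd_of_le hlt.le
    rcases (Nat.dvd_prime hpp).mp h1 with h2 | h2
    · exact Subgroup.card_eq_one.mp h2
    · exfalso
      exact hlt.ne (Subgroup.eq_of_le_of_card_ge hlt.le (by rw [h2, hDc]))
  have hcen : ⁅V, A⁆ ≤ Subgroup.centralizer (A : Set G) :=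
    Subgroup.commutator_eq_bot_iff_le_centralizer.mp hbot
  refine ⟨a, d, ⟨hAH haA, ha1', hap, hDV hdD, hd1', ?_, ?_⟩, hza⟩
  · rw [hza, hzd]
  · exact Subgroup.mem_centralizer_iff.mp (hcen hdD) a haA

omit [Finite G] hp in
theorem comm_V (hS : Setting p V H Q) : ∀ x ∈ V, ∀ y ∈ V, x * y = y * x := by
  intro x hx y hy
  have := hS.hV.1
  exact congrArg Subtype.val (mul_comm' (⟨x, hx⟩ : V) ⟨y, hy⟩)

omit [Finite G] hp in
theorem transv_conj (hS : Setting p V H Q) {a d x : G} (hT : Transv p V H a d) (hx : x ∈ H) :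
    Transv p V H (x * a * x⁻¹) (x * d * x⁻¹) := by
  have hxV := hS.hHV hx
  refine ⟨H.mul_mem (H.mul_mem hx hT.haH) (H.inv_mem hx), ?_, ?_,
    conj_mem_of_mem_normalizer hxV hT.hdV, ?_, ?_, ?_⟩
  · intro h
    apply hT.ha1
    have h1 : a = x⁻¹ * (x * a * x⁻¹) * x := by group
    rw [h1, h]
    group
  · rw [conj_pow, hT.hap]
    group
  · intro h
    apply hT.hd1
    have h1 : d = x⁻¹ * (x * d * x⁻¹) * x := by group
    rw [h1, h]
    group
  · have h1 : ∀ c : G, Subgroup.zpowers (x * c * x⁻¹) = MulAut.conj x • Subgroup.zpowers c := by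
      intro c
      have h2 : MulAut.conj x • Subgroup.zpowers c =
          (Subgroup.zpowers c).map (MulAut.conj x).toMonoidHom := rfl
      rw [h2, MonoidHom.map_zpowers]
      rfl
    rw [h1 a, h1 d]
    calc ⁅V, MulAut.conj x • Subgroup.zpowers a⁆
        = ⁅MulAut.conj x • V, MulAut.conj x • Subgroup.zpowers a⁆ := by
          rw [conj_smul_eq_of_mem_normalizer hxV]
      _ = MulAut.conj x • ⁅V, Subgroup.zpowers a⁆ := (conj_smul_commutator_eq x V _).symm
      _ = MulAut.conj x • Subgroup.zpowers d := by rw [hT.hcomm]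
  · calc x * a * x⁻¹ * (x * d * x⁻¹) = x * (a * d) * x⁻¹ := by group
      _ = x * (d * a) * x⁻¹ := by rw [hT.hcent]
      _ = x * d * x⁻¹ * (x * a * x⁻¹) := by group

omit [Finite G] hp in
/-- The group generated by `a` and a conjugate under a non-centralizing element of the
`p'`-core is not a `p`-group. -/
theorem not_pgroup (hS : Setting p V H Q) {a x : G} (haH : a ∈ H) (hx : x ∈ Q)
    (hxa : x * a ≠ a * x) {L : Subgroup G} (haL : a ∈ L) (hbL : x * a * x⁻¹ ∈ L) :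
    ¬ IsPGroup p L := by
  intro hL
  apply hxa
  have hc : a⁻¹ * (x * a * x⁻¹) ∈ L := L.mul_mem (L.inv_mem haL) hbL
  have hcQ : a⁻¹ * (x * a * x⁻¹) ∈ Q := by
    have h1 : a⁻¹ * x * a ∈ Q := conj_inv_mem_of_mem_normalizer (hS.hHQ haH) hx
    have h2 : a⁻¹ * (x * a * x⁻¹) = (a⁻¹ * x * a) * x⁻¹ := by group
    rw [h2]
    exact Q.mul_mem h1 (Q.inv_mem hx)
  obtain ⟨k, hk⟩ := hL ⟨_, hc⟩
  have hk' : (a⁻¹ * (x * a * x⁻¹)) ^ (p ^ k) = 1 := congrArg Subtype.val hk
  have hq : (a⁻¹ * (x * a * x⁻¹)) ^ (Nat.card Q) = 1 := by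
    have h3 := pow_card_eq_one' (G := Q) (x := ⟨_, hcQ⟩)
    exact congrArg Subtype.val h3
  have hg := pow_gcd_eq_one.mpr ⟨hk', hq⟩
  have hcop : (p ^ k).gcd (Nat.card Q) = 1 := Nat.Coprime.pow_left k hS.hQp.symm
  rw [hcop, pow_one] at hg
  have h4 : x * a * x⁻¹ = a := by
    have h3 : x * a * x⁻¹ = a * (a⁻¹ * (x * a * x⁻¹)) := by group
    rw [h3, hg, mul_one]
  calc x * a = (x * a * x⁻¹) * x := by group
    _ = a * x := by rw [h4]

omit [Finite G] hp in
theorem isPGroup_of_stab (hS : Setting p V H Q) {L W : Subgroup G} (hLH : L ≤ H) (hWV : W ≤ V)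
    (hLW : L ≤ Subgroup.centralizer (W : Set G)) (hVL : ⁅V, L⁆ ≤ W) : IsPGroup p L := by
  intro g
  refine ⟨1, ?_⟩
  apply Subtype.ext
  rw [pow_one]
  have h1 : (g : G) ^ p ∈ H ⊓ Subgroup.centralizer (V : Set G) :=
    ⟨H.pow_mem (hLH g.2) p, pow_mem_centralizer_of_stab hS.hV hWV (hLW g.2)
      (fun v hv => hVL (Subgroup.commutator_mem_commutator hv g.2))⟩
  rw [hS.hf, Subgroup.mem_bot] at h1
  exact h1

omit [Finite G] hp in
theorem isPGroup_of_chain (hS : Setting p V H Q) {L W D : Subgroup G} (hLH : L ≤ H)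
    (hWV : W ≤ V) (hDW : D ≤ W) (hLD : L ≤ Subgroup.centralizer (D : Set G))
    (hWL : ⁅W, L⁆ ≤ D) (hVL : ⁅V, L⁆ ≤ W) : IsPGroup p L := by
  intro g
  refine ⟨2, ?_⟩
  apply Subtype.ext
  have hW : IsElementaryAbelian p W :=
    ⟨⟨⟨fun x y => Subtype.ext (comm_V hS x (hWV x.2) y (hWV y.2))⟩⟩,
      fun w hw => hS.hV.2 w (hWV hw)⟩
  have h1 : (g : G) ^ p ∈ Subgroup.centralizer (W : Set G) :=
    pow_mem_centralizer_of_stab hW hDW (hLD g.2)
      (fun w hw => hWL (Subgroup.commutator_mem_commutator hw g.2))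
  have h2 : ((g : G) ^ p) ^ p ∈ Subgroup.centralizer (V : Set G) :=
    pow_mem_centralizer_of_stab hS.hV hWV h1
      (fun v hv => hVL (Subgroup.commutator_mem_commutator hv (L.pow_mem g.2 p)))
  have h3 : ((g : G) ^ p) ^ p ∈ H ⊓ Subgroup.centralizer (V : Set G) :=
    ⟨H.pow_mem (H.pow_mem (hLH g.2) p) p, h2⟩
  rw [hS.hf, Subgroup.mem_bot] at h3
  rw [Subgroup.coe_pow, Subgroup.coe_one, pow_two, pow_mul]
  exact h3

omit [Finite G] hp in
theorem normalizer_of_commutator_le {K F : Subgroup G} (h : ⁅K, F⁆ ≤ K) :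
    F ≤ Subgroup.normalizer (K : Set G) := by
  apply le_normalizer_of_conj_mem
  intro g hg x hx
  have h1 : ⁅x, g⁆ ∈ K := h (Subgroup.commutator_mem_commutator hx hg)
  have h2 : g * x * g⁻¹ = (⁅x, g⁆)⁻¹ * x := by
    rw [commutatorElement_def]; group
  rw [h2]
  exact K.mul_mem (K.inv_mem h1) hx

/-- The transvection data of a minimal best offender generator and a conjugate. -/
theorem pair_core (hS : Setting p V H Q) {a d x : G} (hT : Transv p V H a d) (hx : x ∈ Q)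
    (hxa : x * a ≠ a * x) :
    ∃ α β : ZMod p, Pair p d (x * d * x⁻¹) a (x * a * x⁻¹) α β ∧
      ⁅V, Subgroup.zpowers a ⊔ Subgroup.zpowers (x * a * x⁻¹)⁆ =
        Subgroup.zpowers d ⊔ Subgroup.zpowers (x * d * x⁻¹) := by
  have hpp : p.Prime := hp.out
  have hT' := transv_conj hS hT (hS.hQH hx)
  obtain ⟨b, hb⟩ : ∃ b : G, b = x * a * x⁻¹ := ⟨_, rfl⟩
  obtain ⟨e, he⟩ : ∃ e : G, e = x * d * x⁻¹ := ⟨_, rfl⟩
  rw [← hb, ← he] at hT' ⊢
  have hdp : d ^ p = 1 := hS.hV.2 d hT.hdV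
  have hep : e ^ p = 1 := hS.hV.2 e hT'.hdV
  have hde : d * e = e * d := comm_V hS d hT.hdV e hT'.hdV
  have haL : a ∈ Subgroup.zpowers a ⊔ Subgroup.zpowers b :=
    Subgroup.mem_sup_left (Subgroup.mem_zpowers a)
  have hbL : b ∈ Subgroup.zpowers a ⊔ Subgroup.zpowers b :=
    Subgroup.mem_sup_right (Subgroup.mem_zpowers b)
  have hLH : Subgroup.zpowers a ⊔ Subgroup.zpowers b ≤ H :=
    sup_le (Subgroup.zpowers_le.mpr hT.haH) (Subgroup.zpowers_le.mpr hT'.haH)
  have hnp : ¬ IsPGroup p ↥(Subgroup.zpowers a ⊔ Subgroup.zpowers b) :=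
    not_pgroup hS hT.haH hx hxa haL (hb ▸ hbL)
  have hDaV : Subgroup.zpowers d ≤ V := Subgroup.zpowers_le.mpr hT.hdV
  have hDbV : Subgroup.zpowers e ≤ V := Subgroup.zpowers_le.mpr hT'.hdV
  have hWV : Subgroup.zpowers d ⊔ Subgroup.zpowers e ≤ V := sup_le hDaV hDbV
  have hZaV : Subgroup.zpowers a ≤ Subgroup.normalizer (V : Set G) :=
    Subgroup.zpowers_le.mpr (hS.hHV hT.haH)
  have hZbV : Subgroup.zpowers b ≤ Subgroup.normalizer (V : Set G) :=
    Subgroup.zpowers_le.mpr (hS.hHV hT'.haH)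
  have hZaDa := zpowers_le_centralizer_zpowers hT.hcent
  have hZbDb := zpowers_le_centralizer_zpowers hT'.hcent
  have hcardDa : Nat.card (Subgroup.zpowers d) = p := card_zpowers_of_prime hT.hd1 hdp
  have hcardDb : Nat.card (Subgroup.zpowers e) = p := card_zpowers_of_prime hT'.hd1 hep
  have hZaW : Subgroup.zpowers a ≤
      Subgroup.normalizer ((Subgroup.zpowers d ⊔ Subgroup.zpowers e : Subgroup G) : Set G) := by
    apply normalizer_of_commutator_le
    calc ⁅Subgroup.zpowers d ⊔ Subgroup.zpowers e, Subgroup.zpowers a⁆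
        ≤ ⁅V, Subgroup.zpowers a⁆ := Subgroup.commutator_mono hWV le_rfl
      _ = Subgroup.zpowers d := hT.hcomm
      _ ≤ _ := le_sup_left
  have hZbW : Subgroup.zpowers b ≤
      Subgroup.normalizer ((Subgroup.zpowers d ⊔ Subgroup.zpowers e : Subgroup G) : Set G) := by
    apply normalizer_of_commutator_le
    calc ⁅Subgroup.zpowers d ⊔ Subgroup.zpowers e, Subgroup.zpowers b⁆
        ≤ ⁅V, Subgroup.zpowers b⁆ := Subgroup.commutator_mono hWV le_rfl
      _ = Subgroup.zpowers e := hT'.hcomm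
      _ ≤ _ := le_sup_right
  have hVLW : ⁅V, Subgroup.zpowers a ⊔ Subgroup.zpowers b⁆ ≤
      Subgroup.zpowers d ⊔ Subgroup.zpowers e :=
    commutator_sup_le hZaV hZaW (hT.hcomm.le.trans le_sup_left) hZbV hZbW
      (hT'.hcomm.le.trans le_sup_right)
  -- distinct centres
  have hne : Subgroup.zpowers d ≠ Subgroup.zpowers e := by
    intro h
    apply hnp
    have hZbDa : Subgroup.zpowers b ≤
        Subgroup.centralizer ((Subgroup.zpowers d : Subgroup G) : Set G) := by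
      rw [h]; exact hZbDb
    refine isPGroup_of_stab hS hLH hDaV (sup_le hZaDa hZbDa) ?_
    exact commutator_sup_le hZaV (hZaDa.trans (Subgroup.centralizer_le_normalizer _))
      hT.hcomm.le hZbV (hZbDa.trans (Subgroup.centralizer_le_normalizer _))
      (hT'.hcomm.le.trans h.symm.le)
  have hinf : Subgroup.zpowers d ⊓ Subgroup.zpowers e = ⊥ := by
    have h1 : Nat.card ↥(Subgroup.zpowers d ⊓ Subgroup.zpowers e) ∣ p :=
      hcardDa ▸ Subgroup.card_dvd_of_le inf_le_left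
    rcases (Nat.dvd_prime hpp).mp h1 with h2 | h2
    · exact Subgroup.card_eq_one.mp h2
    · exfalso
      have h3 : Subgroup.zpowers d ⊓ Subgroup.zpowers e = Subgroup.zpowers d :=
        Subgroup.eq_of_le_of_card_ge inf_le_left (by rw [h2, hcardDa])
      have h4 : Subgroup.zpowers d ≤ Subgroup.zpowers e := by
        rw [← h3]; exact inf_le_right
      exact hne (Subgroup.eq_of_le_of_card_ge h4 (by rw [hcardDa, hcardDb]))
  have hind : ∀ i j : ZMod p, d ^ i.val * e ^ j.val = 1 → i = 0 ∧ j = 0 := by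
    intro i j hij
    have h1 : d ^ i.val ∈ Subgroup.zpowers d ⊓ Subgroup.zpowers e := by
      refine Subgroup.mem_inf.mpr ⟨Subgroup.pow_mem _ (Subgroup.mem_zpowers d) _, ?_⟩
      have h2 : d ^ i.val = (e ^ j.val)⁻¹ := eq_inv_of_mul_eq_one_left hij
      rw [h2]
      exact Subgroup.inv_mem _ (Subgroup.pow_mem _ (Subgroup.mem_zpowers e) _)
    rw [hinf, Subgroup.mem_bot] at h1
    have h4 : e ^ j.val = 1 := by
      rw [h1, one_mul] at hij; exact hij
    constructor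
    · have h2 : orderOf d ∣ i.val := orderOf_dvd_of_pow_eq_one h1
      rw [orderOf_eq_prime hdp hT.hd1] at h2
      exact (ZMod.val_eq_zero i).mp (Nat.eq_zero_of_dvd_of_lt h2 (ZMod.val_lt i))
    · have h2 : orderOf e ∣ j.val := orderOf_dvd_of_pow_eq_one h4
      rw [orderOf_eq_prime hep hT'.hd1] at h2
      exact (ZMod.val_eq_zero j).mp (Nat.eq_zero_of_dvd_of_lt h2 (ZMod.val_lt j))
  -- the off-diagonal entries
  have hα : ∃ m : ℕ, a * e * a⁻¹ = d ^ m * e := by
    have h2 : ⁅e, a⁆ ∈ ⁅V, Subgroup.zpowers a⁆ :=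
      Subgroup.commutator_mem_commutator hT'.hdV (Subgroup.mem_zpowers a)
    rw [hT.hcomm] at h2
    have h3 := Subgroup.inv_mem _ h2
    rw [commutatorElement_inv] at h3
    obtain ⟨m, hm⟩ := mem_powers_iff_mem_zpowers.mpr h3
    refine ⟨m, ?_⟩
    have hm' : d ^ m = ⁅a, e⁆ := hm
    rw [hm', commutatorElement_def]
    group
  have hβ : ∃ n : ℕ, b * d * b⁻¹ = d * e ^ n := by
    have h2 : ⁅d, b⁆ ∈ ⁅V, Subgroup.zpowers b⁆ :=
      Subgroup.commutator_mem_commutator hT.hdV (Subgroup.mem_zpowers b)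
    rw [hT'.hcomm] at h2
    have h3 := Subgroup.inv_mem _ h2
    rw [commutatorElement_inv] at h3
    obtain ⟨n, hn⟩ := mem_powers_iff_mem_zpowers.mpr h3
    refine ⟨n, ?_⟩
    have hn' : e ^ n = ⁅b, d⁆ := hn
    have hc : Commute d (e ^ n) := (show Commute d e from hde).pow_right n
    rw [hc.eq, hn', commutatorElement_def]
    group
  obtain ⟨m, hm⟩ := hα
  obtain ⟨n, hn⟩ := hβ
  have hDaC : Subgroup.zpowers d ≤
      Subgroup.centralizer ((Subgroup.zpowers a : Subgroup G) : Set G) :=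
    Subgroup.le_centralizer_iff.mp hZaDa
  have hDbC : Subgroup.zpowers e ≤
      Subgroup.centralizer ((Subgroup.zpowers b : Subgroup G) : Set G) :=
    Subgroup.le_centralizer_iff.mp hZbDb
  have hα0 : (m : ZMod p) ≠ 0 := by
    intro h0
    apply hnp
    have h1 : d ^ m = 1 := by
      rw [← pow_val_natCast hdp, h0, ZMod.val_zero, pow_zero]
    have hae : a * e = e * a := by
      rw [h1, one_mul] at hm
      calc a * e = (a * e * a⁻¹) * a := by group
        _ = e * a := by rw [hm]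
    have hZaDb := zpowers_le_centralizer_zpowers hae
    have hZaWc : Subgroup.zpowers a ≤ Subgroup.centralizer
        ((Subgroup.zpowers d ⊔ Subgroup.zpowers e : Subgroup G) : Set G) :=
      Subgroup.le_centralizer_iff.mp (sup_le hDaC (Subgroup.le_centralizer_iff.mp hZaDb))
    refine isPGroup_of_chain hS hLH hWV le_sup_right (sup_le hZaDb hZbDb) ?_ hVLW
    refine commutator_sup_le hZaW (hZaDb.trans (Subgroup.centralizer_le_normalizer _)) ?_ hZbW
      (hZbDb.trans (Subgroup.centralizer_le_normalizer _)) ?_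
    · have h2 : ⁅Subgroup.zpowers d ⊔ Subgroup.zpowers e, Subgroup.zpowers a⁆ = ⊥ :=
        Subgroup.commutator_eq_bot_iff_le_centralizer.mpr
          (Subgroup.le_centralizer_iff.mp hZaWc)
      rw [h2]
      exact bot_le
    · exact (Subgroup.commutator_mono hWV le_rfl).trans hT'.hcomm.le
  have hβ0 : (n : ZMod p) ≠ 0 := by
    intro h0
    apply hnp
    have h1 : e ^ n = 1 := by
      rw [← pow_val_natCast hep, h0, ZMod.val_zero, pow_zero]
    have hbd : b * d = d * b := by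
      rw [h1, mul_one] at hn
      calc b * d = (b * d * b⁻¹) * b := by group
        _ = d * b := by rw [hn]
    have hZbDa := zpowers_le_centralizer_zpowers hbd
    have hZbWc : Subgroup.zpowers b ≤ Subgroup.centralizer
        ((Subgroup.zpowers d ⊔ Subgroup.zpowers e : Subgroup G) : Set G) :=
      Subgroup.le_centralizer_iff.mp (sup_le (Subgroup.le_centralizer_iff.mp hZbDa) hDbC)
    refine isPGroup_of_chain hS hLH hWV le_sup_left (sup_le hZaDa hZbDa) ?_ hVLW
    refine commutator_sup_le hZaW (hZaDa.trans (Subgroup.centralizer_le_normalizer _)) ?_ hZbW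
      (hZbDa.trans (Subgroup.centralizer_le_normalizer _)) ?_
    · exact (Subgroup.commutator_mono hWV le_rfl).trans hT.hcomm.le
    · have h2 : ⁅Subgroup.zpowers d ⊔ Subgroup.zpowers e, Subgroup.zpowers b⁆ = ⊥ :=
        Subgroup.commutator_eq_bot_iff_le_centralizer.mpr
          (Subgroup.le_centralizer_iff.mp hZbWc)
      rw [h2]
      exact bot_le
  refine ⟨(m : ZMod p), (n : ZMod p), ⟨hdp, hep, hde, hind, hα0, hβ0, ?_, ?_, ?_, ?_⟩, ?_⟩
  · rw [hT.hcent]; group
  · rw [pow_val_natCast hdp]; exact hm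
  · rw [pow_val_natCast hep]; exact hn
  · rw [hT'.hcent]; group
  · exact le_antisymm hVLW (sup_le
      (hT.hcomm.symm.le.trans (Subgroup.commutator_mono le_rfl le_sup_left))
      (hT'.hcomm.symm.le.trans (Subgroup.commutator_mono le_rfl le_sup_right)))

omit [Finite G] hp in
/-- Commutators in `A' Q` lie in `Q` when `A'` is abelian and normalizes `Q`. -/
theorem commutator_mem_of_abelian_sup {A' K : Subgroup G}
    (hab : ∀ s ∈ A', ∀ t ∈ A', s * t = t * s)
    (hN : A' ≤ Subgroup.normalizer (K : Set G)) {g h : G} (hg : g ∈ A' ⊔ K)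
    (hh : h ∈ A' ⊔ K) : ⁅g, h⁆ ∈ K := by
  have hcoe := Subgroup.coe_mul_of_left_le_normalizer_right A' K hN
  have hg' : g ∈ ((A' ⊔ K : Subgroup G) : Set G) := hg
  have hh' : h ∈ ((A' ⊔ K : Subgroup G) : Set G) := hh
  rw [hcoe] at hg' hh'
  obtain ⟨s, hs, q, hq, rfl⟩ := Set.mem_mul.mp hg'
  obtain ⟨s', hs', q', hq', rfl⟩ := Set.mem_mul.mp hh'
  have h2 : s'⁻¹ * s⁻¹ * s' = s⁻¹ := by
    rw [← mul_inv_rev, hab s hs s' hs', mul_inv_rev, inv_mul_cancel_right]
  have h1 : ⁅s * q, s' * q'⁆ =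
      (s * q * s⁻¹) * ((s * s') * (q' * q⁻¹) * (s * s')⁻¹) * (s' * q'⁻¹ * s'⁻¹) := by
    calc ⁅s * q, s' * q'⁆ = s * q * s' * q' * q⁻¹ * s⁻¹ * q'⁻¹ * s'⁻¹ := by
          rw [commutatorElement_def]; group
      _ = s * q * s' * q' * q⁻¹ * (s'⁻¹ * s⁻¹ * s') * q'⁻¹ * s'⁻¹ := by rw [h2]
      _ = _ := by group
  rw [h1]
  exact K.mul_mem (K.mul_mem (conj_mem_of_mem_normalizer (hN hs) hq)
    (conj_mem_of_mem_normalizer (hN (A'.mul_mem hs hs')) (K.mul_mem hq' (K.inv_mem hq))))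
    (conj_mem_of_mem_normalizer (hN hs') (K.inv_mem hq'))

omit [Finite G] in
theorem conj_a_theta {d e a b : G} {α β : ZMod p} (hP : Pair p d e a b α β)
    (u : Fin 2 → ZMod p) : a * theta d e u * a⁻¹ = d ^ (α * u 1).val * theta d e u := by
  rw [acts_a hP u]
  have h1 : ((upper α : Matrix.SpecialLinearGroup (Fin 2) (ZMod p)) :
      Matrix (Fin 2) (Fin 2) (ZMod p)).mulVec u = ![α * u 1, 0] + u := by
    rw [upper_coe]
    funext i
    fin_cases i
    · simp [Matrix.mulVec, dotProduct, Fin.sum_univ_two]; ring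
    · simp [Matrix.mulVec, dotProduct, Fin.sum_univ_two]
  rw [h1, theta_add hP.hd₁ hP.hd₂ hP.hc]
  congr 1
  unfold theta
  simp

omit [Finite G] in
theorem conj_b_theta {d e a b : G} {α β : ZMod p} (hP : Pair p d e a b α β)
    (u : Fin 2 → ZMod p) : b * theta d e u * b⁻¹ = e ^ (β * u 0).val * theta d e u := by
  rw [acts_b hP u]
  have h1 : ((lower β : Matrix.SpecialLinearGroup (Fin 2) (ZMod p)) :
      Matrix (Fin 2) (Fin 2) (ZMod p)).mulVec u = ![0, β * u 0] + u := by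
    rw [lower_coe]
    funext i
    fin_cases i
    · simp [Matrix.mulVec, dotProduct, Fin.sum_univ_two]
    · simp [Matrix.mulVec, dotProduct, Fin.sum_univ_two]
  rw [h1, theta_add hP.hd₁ hP.hd₂ hP.hc]
  congr 1
  unfold theta
  simp

/-- Every element of `V` is, modulo the plane, centralized by both transvections. -/
theorem exists_fix (hS : Setting p V H Q) {a d b e : G} {α β : ZMod p}
    (hTa : Transv p V H a d) (hTb : Transv p V H b e) (hP : Pair p d e a b α β) {v : G}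
    (hv : v ∈ V) :
    ∃ u : Fin 2 → ZMod p, a * (v * (theta d e u)⁻¹) = (v * (theta d e u)⁻¹) * a ∧
      b * (v * (theta d e u)⁻¹) = (v * (theta d e u)⁻¹) * b := by
  have h1 : ∃ i : ZMod p, a * v * a⁻¹ = d ^ i.val * v := by
    have h2 : ⁅v, a⁆ ∈ ⁅V, Subgroup.zpowers a⁆ :=
      Subgroup.commutator_mem_commutator hv (Subgroup.mem_zpowers a)
    rw [hTa.hcomm] at h2
    have h3 := Subgroup.inv_mem _ h2
    rw [commutatorElement_inv] at h3
    obtain ⟨m, hm⟩ := mem_powers_iff_mem_zpowers.mpr h3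
    refine ⟨(m : ZMod p), ?_⟩
    have hm' : d ^ m = ⁅a, v⁆ := hm
    rw [pow_val_natCast hP.hd₁, hm', commutatorElement_def]
    group
  have h2 : ∃ j : ZMod p, b * v * b⁻¹ = e ^ j.val * v := by
    have h2 : ⁅v, b⁆ ∈ ⁅V, Subgroup.zpowers b⁆ :=
      Subgroup.commutator_mem_commutator hv (Subgroup.mem_zpowers b)
    rw [hTb.hcomm] at h2
    have h3 := Subgroup.inv_mem _ h2
    rw [commutatorElement_inv] at h3
    obtain ⟨m, hm⟩ := mem_powers_iff_mem_zpowers.mpr h3
    refine ⟨(m : ZMod p), ?_⟩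
    have hm' : e ^ m = ⁅b, v⁆ := hm
    rw [pow_val_natCast hP.hd₂, hm', commutatorElement_def]
    group
  obtain ⟨i, hi⟩ := h1
  obtain ⟨j, hj⟩ := h2
  have h3 := conj_a_theta hP ![j * β⁻¹, i * α⁻¹]
  have h4 : α * (![j * β⁻¹, i * α⁻¹] : Fin 2 → ZMod p) 1 = i := by
    show α * (i * α⁻¹) = i
    rw [mul_comm i, ← mul_assoc, mul_inv_cancel₀ hP.hα, one_mul]
  rw [h4] at h3
  have h5 := conj_b_theta hP ![j * β⁻¹, i * α⁻¹]
  have h6 : β * (![j * β⁻¹, i * α⁻¹] : Fin 2 → ZMod p) 0 = j := by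
    show β * (j * β⁻¹) = j
    rw [mul_comm j, ← mul_assoc, mul_inv_cancel₀ hP.hβ, one_mul]
  rw [h6] at h5
  refine ⟨![j * β⁻¹, i * α⁻¹], ?_, ?_⟩
  · obtain ⟨w, hw⟩ : ∃ w, w = theta d e ![j * β⁻¹, i * α⁻¹] := ⟨_, rfl⟩
    rw [← hw] at h3 ⊢
    have hwV : w ∈ V := by
      rw [hw]
      exact V.mul_mem (V.pow_mem hTa.hdV _) (V.pow_mem hTb.hdV _)
    have hc1 : d ^ i.val * (v * w⁻¹) = (v * w⁻¹) * d ^ i.val :=
      comm_V hS _ (V.pow_mem hTa.hdV _) _ (V.mul_mem hv (V.inv_mem hwV))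
    calc a * (v * w⁻¹) = (a * v * a⁻¹) * (a * w * a⁻¹)⁻¹ * a := by group
      _ = d ^ i.val * v * (d ^ i.val * w)⁻¹ * a := by rw [hi, h3]
      _ = (d ^ i.val * (v * w⁻¹)) * (d ^ i.val)⁻¹ * a := by group
      _ = (v * w⁻¹) * a := by rw [hc1]; group
  · obtain ⟨w, hw⟩ : ∃ w, w = theta d e ![j * β⁻¹, i * α⁻¹] := ⟨_, rfl⟩
    rw [← hw] at h5 ⊢
    have hwV : w ∈ V := by
      rw [hw]
      exact V.mul_mem (V.pow_mem hTa.hdV _) (V.pow_mem hTb.hdV _)
    have hc1 : e ^ j.val * (v * w⁻¹) = (v * w⁻¹) * e ^ j.val :=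
      comm_V hS _ (V.pow_mem hTb.hdV _) _ (V.mul_mem hv (V.inv_mem hwV))
    calc b * (v * w⁻¹) = (b * v * b⁻¹) * (b * w * b⁻¹)⁻¹ * b := by group
      _ = e ^ j.val * v * (e ^ j.val * w)⁻¹ * b := by rw [hj, h5]
      _ = (e ^ j.val * (v * w⁻¹)) * (e ^ j.val)⁻¹ * b := by group
      _ = (v * w⁻¹) * b := by rw [hc1]; group

/-- A minimal best offender generator `a` and its conjugate under a non-centralizing element
of `Q` generate `SL₂(p)` acting naturally on the plane `[V, L]`, and `p ≤ 3`. -/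
theorem sl2_main (hS : Setting p V H Q) {a d x : G} (hT : Transv p V H a d) (hx : x ∈ Q)
    (hxa : x * a ≠ a * x) :
    (p = 2 ∨ p = 3) ∧
    Nat.card ↥(⁅V, Subgroup.zpowers a ⊔ Subgroup.zpowers (x * a * x⁻¹)⁆) = p ^ 2 ∧
    (Subgroup.zpowers a ⊔ Subgroup.zpowers (x * a * x⁻¹)) ⊓ Subgroup.centralizer
      ((⁅V, Subgroup.zpowers a ⊔ Subgroup.zpowers (x * a * x⁻¹)⁆ : Subgroup G) : Set G) = ⊥ ∧
    Nonempty (↥(Subgroup.zpowers a ⊔ Subgroup.zpowers (x * a * x⁻¹)) ≃*
      Matrix.SpecialLinearGroup (Fin 2) (ZMod p)) := by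
  obtain ⟨α, β, hP, hW⟩ := pair_core hS hT hx hxa
  have hT' := transv_conj hS hT (hS.hQH hx)
  have hbQ : x * a * x⁻¹ ∈ Subgroup.zpowers a ⊔ Q :=
    Subgroup.mul_mem _ (Subgroup.mul_mem _ (Subgroup.mem_sup_right hx)
      (Subgroup.mem_sup_left (Subgroup.mem_zpowers a))) (Subgroup.mem_sup_right (Q.inv_mem hx))
  obtain ⟨b, hb⟩ : ∃ b : G, b = x * a * x⁻¹ := ⟨_, rfl⟩
  obtain ⟨e, he⟩ : ∃ e : G, e = x * d * x⁻¹ := ⟨_, rfl⟩
  rw [← hb, ← he] at hT' hP hW
  rw [← hb] at hbQ ⊢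
  rw [hW]
  have hLcl : Subgroup.zpowers a ⊔ Subgroup.zpowers b = Subgroup.closure {a, b} := by
    rw [Subgroup.zpowers_eq_closure, Subgroup.zpowers_eq_closure, ← Subgroup.closure_union]
    rfl
  have hLH : Subgroup.zpowers a ⊔ Subgroup.zpowers b ≤ H :=
    sup_le (Subgroup.zpowers_le.mpr hT.haH) (Subgroup.zpowers_le.mpr hT'.haH)
  have hWmem : ∀ w ∈ Subgroup.zpowers d ⊔ Subgroup.zpowers e,
      ∃ u : Fin 2 → ZMod p, w = theta d e u := by
    intro w hw
    have hcomm : ∀ c ∈ Subgroup.zpowers d, ∀ r ∈ Subgroup.zpowers e, c * r = r * c := by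
      intro c hc r hr
      obtain ⟨k, rfl⟩ := Subgroup.mem_zpowers_iff.mp hc
      obtain ⟨l, rfl⟩ := Subgroup.mem_zpowers_iff.mp hr
      exact ((show Commute d e from hP.hc).zpow_zpow k l).eq
    obtain ⟨c, hc, r, hr, rfl⟩ := mem_sup_comm hcomm hw
    obtain ⟨m, hm⟩ := mem_powers_iff_mem_zpowers.mpr hc
    obtain ⟨n, hn⟩ := mem_powers_iff_mem_zpowers.mpr hr
    refine ⟨![(m : ZMod p), (n : ZMod p)], ?_⟩
    have hm' : d ^ m = c := hm
    have hn' : e ^ n = r := hn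
    show c * r = d ^ ((m : ZMod p)).val * e ^ ((n : ZMod p)).val
    rw [pow_val_natCast hP.hd₁, pow_val_natCast hP.hd₂, hm', hn']
  have hthW : ∀ u : Fin 2 → ZMod p, theta d e u ∈ Subgroup.zpowers d ⊔ Subgroup.zpowers e := by
    intro u
    exact Subgroup.mul_mem _
      (Subgroup.mem_sup_left (Subgroup.pow_mem _ (Subgroup.mem_zpowers d) _))
      (Subgroup.mem_sup_right (Subgroup.pow_mem _ (Subgroup.mem_zpowers e) _))
  have hfaith : ∀ g ∈ Subgroup.zpowers a ⊔ Subgroup.zpowers b, g * d = d * g → g * e = e * g →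
      g = 1 := by
    intro g hg hgd hge
    have h1 : g ∈ H ⊓ Subgroup.centralizer (V : Set G) := by
      refine Subgroup.mem_inf.mpr ⟨hLH hg, ?_⟩
      rw [Subgroup.mem_centralizer_iff]
      intro v hv
      obtain ⟨u, hua, hub⟩ := exists_fix hS hT hT' hP hv
      have hc : g * (v * (theta d e u)⁻¹) = (v * (theta d e u)⁻¹) * g := by
        have hle : Subgroup.zpowers a ⊔ Subgroup.zpowers b ≤
            Subgroup.centralizer {v * (theta d e u)⁻¹} := by
          refine sup_le (Subgroup.zpowers_le.mpr ?_) (Subgroup.zpowers_le.mpr ?_)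
          · rw [Subgroup.mem_centralizer_iff]
            intro c hc
            rw [Set.mem_singleton_iff] at hc
            rw [hc]; exact hua.symm
          · rw [Subgroup.mem_centralizer_iff]
            intro c hc
            rw [Set.mem_singleton_iff] at hc
            rw [hc]; exact hub.symm
        exact (Subgroup.mem_centralizer_iff.mp (hle hg) _ (Set.mem_singleton _)).symm
      have hw : g * theta d e u = theta d e u * g := by
        have c1 : Commute g (d ^ (u 0).val) := (show Commute g d from hgd).pow_right _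
        have c2 : Commute g (e ^ (u 1).val) := (show Commute g e from hge).pow_right _
        exact (c1.mul_right c2).eq
      calc v * g = (v * (theta d e u)⁻¹) * (theta d e u * g) := by group
        _ = (v * (theta d e u)⁻¹) * (g * theta d e u) := by rw [hw]
        _ = ((v * (theta d e u)⁻¹) * g) * theta d e u := by group
        _ = (g * (v * (theta d e u)⁻¹)) * theta d e u := by rw [hc]
        _ = g * v := by group
    rw [hS.hf, Subgroup.mem_bot] at h1
    exact h1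
  obtain ⟨φ, hφ⟩ := exists_equiv hP _ hLcl hfaith
  have hLQ : Subgroup.zpowers a ⊔ Subgroup.zpowers b ≤ Subgroup.zpowers a ⊔ Q :=
    sup_le le_sup_left (Subgroup.zpowers_le.mpr hbQ)
  have hab : ∀ s ∈ Subgroup.zpowers a, ∀ t ∈ Subgroup.zpowers a, s * t = t * s := by
    intro s hs t ht
    obtain ⟨k, rfl⟩ := Subgroup.mem_zpowers_iff.mp hs
    obtain ⟨l, rfl⟩ := Subgroup.mem_zpowers_iff.mp ht
    exact ((Commute.refl a).zpow_zpow k l).eq
  have hNQ : Subgroup.zpowers a ≤ Subgroup.normalizer (Q : Set G) :=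
    Subgroup.zpowers_le.mpr (hS.hHQ hT.haH)
  refine ⟨?_, ?_, ?_, ⟨φ⟩⟩
  · apply prime_le_three
    intro X Y
    have h1 : ⁅X, Y⁆ = φ ⁅φ.symm X, φ.symm Y⁆ := by
      rw [map_commutatorElement, MulEquiv.apply_symm_apply, MulEquiv.apply_symm_apply]
    rw [h1, MulEquiv.orderOf_eq, ← Subgroup.orderOf_coe]
    have hQc : ⁅((φ.symm X : ↥(Subgroup.zpowers a ⊔ Subgroup.zpowers b)) : G),
        ((φ.symm Y : ↥(Subgroup.zpowers a ⊔ Subgroup.zpowers b)) : G)⁆ ∈ Q :=
      commutator_mem_of_abelian_sup hab hNQ (hLQ (φ.symm X).2) (hLQ (φ.symm Y).2)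
    exact Nat.Coprime.coprime_dvd_left (Subgroup.orderOf_dvd_natCard Q hQc) hS.hQp
  · have hbij : Function.Bijective (fun u : Fin 2 → ZMod p =>
        (⟨theta d e u, hthW u⟩ : ↥(Subgroup.zpowers d ⊔ Subgroup.zpowers e))) := by
      constructor
      · intro u u' h
        exact theta_injective hP.hd₁ hP.hd₂ hP.hc hP.hind (congrArg Subtype.val h)
      · rintro ⟨w, hw⟩
        obtain ⟨u, rfl⟩ := hWmem w hw
        exact ⟨u, rfl⟩
    rw [← Nat.card_congr (Equiv.ofBijective _ hbij), Nat.card_fun, Nat.card_zmod, Nat.card_fin]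
  · rw [eq_bot_iff]
    rintro g ⟨hgL, hgC⟩
    rw [Subgroup.mem_bot]
    have hd := Subgroup.mem_centralizer_iff.mp hgC d
      (Subgroup.mem_sup_left (Subgroup.mem_zpowers d))
    have he' := Subgroup.mem_centralizer_iff.mp hgC e
      (Subgroup.mem_sup_right (Subgroup.mem_zpowers e))
    exact hfaith g hgL hd.symm he'.symm

end main

end Cfsg.Agent.Lib.Helper6.FFSL2
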