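import Mathlib
import Cfsg.Agent.Lib.Helper6.FFSL2
import Cfsg.Agent.Lib.Helper1.CoprimeSylow
import Cfsg.Agent.Lib.Helper23.Coprime

/-! The commutator of the `p'`-core with a minimal best offender is a `3`-group (`p = 2`) or a
nonabelian `2`-group (`p = 3`). -/

set_option autoImplicit false
open Pointwise

namespace Cfsg.Agent.Lib.Helper6.FFComm

open Cfsg
open Cfsg.Agent.Lib.Helper6.BestOff
open Cfsg.Agent.Lib.Helper6.SubPair
open Cfsg.Agent.Lib.Helper6.SL2Rec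
open Cfsg.Agent.Lib.Helper6.FFSL2

open scoped commutatorElement

universe u

variable {G : Type u} [Group G]

/-- Coprime action of a cyclic group all of whose commutators with `K` are `q₀`-elements:
the commutator subgroup is a `q₀`-group. -/
theorem commutator_zpowers_isPGroup [Finite G] {K : Subgroup G} {a : G}
    (haK : a ∈ Subgroup.normalizer (K : Set G)) (hcop : (orderOf a).Coprime (Nat.card K))
    (q₀ : ℕ) [hq : Fact q₀.Prime] (k : ℕ) (h : ∀ x ∈ K, ⁅x, a⁆ ^ (q₀ ^ k) = 1) :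
    IsPGroup q₀ ↥(⁅K, Subgroup.zpowers a⁆) := by
  have hAK : Subgroup.zpowers a ≤ Subgroup.normalizer (K : Set G) := Subgroup.zpowers_le.mpr haK
  have hcop' : (Nat.card (Subgroup.zpowers a)).Coprime (Nat.card K) := by
    rw [Nat.card_zpowers]; exact hcop
  have hsolv : Group.IsSolvable (Subgroup.zpowers a) := by
    apply Group.isSolvable_of_comm
    rintro ⟨x, hx⟩ ⟨y, hy⟩
    obtain ⟨k, rfl⟩ := Subgroup.mem_zpowers_iff.mp hx
    obtain ⟨l, rfl⟩ := Subgroup.mem_zpowers_iff.mp hy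
    exact Subtype.ext ((Commute.refl a).zpow_zpow k l).eq
  obtain ⟨C, hC⟩ : ∃ C : Subgroup G,
      C = K ⊓ Subgroup.centralizer ((Subgroup.zpowers a : Subgroup G) : Set G) := ⟨_, rfl⟩
  have key : ∀ r : ℕ, r.Prime → r ≠ q₀ → ¬ r ∣ (C.subgroupOf K).index := by
    intro r hr hrq
    have : Fact r.Prime := ⟨hr⟩
    obtain ⟨P, hP⟩ := Cfsg.Agent.Lib.Helper1.exists_invariant_sylow (Subgroup.zpowers a) K hAK
      hcop' (Or.inl hsolv) r
    have hle : (P : Subgroup K) ≤ C.subgroupOf K := by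
      intro y hy
      rw [Subgroup.mem_subgroupOf, hC]
      refine Subgroup.mem_inf.mpr ⟨y.2, ?_⟩
      have hyR : (y : G) ∈ (P : Subgroup K).map K.subtype := ⟨y, hy, rfl⟩
      have haR : a ∈ Subgroup.normalizer
          (((P : Subgroup K).map K.subtype : Subgroup G) : Set G) := hP (Subgroup.mem_zpowers a)
      have hcR : ⁅(y : G), a⁆ ∈ (P : Subgroup K).map K.subtype := by
        have h1 : ⁅(y : G), a⁆ = (y : G) * (a * (y : G)⁻¹ * a⁻¹) := by
          rw [commutatorElement_def]; group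
        rw [h1]
        exact Subgroup.mul_mem _ hyR (conj_mem_of_mem_normalizer haR (Subgroup.inv_mem _ hyR))
      have hRp : IsPGroup r ↥((P : Subgroup K).map K.subtype) := P.2.map K.subtype
      obtain ⟨j, hj⟩ := hRp ⟨_, hcR⟩
      have hj' : ⁅(y : G), a⁆ ^ (r ^ j) = 1 := congrArg Subtype.val hj
      have hg := pow_gcd_eq_one.mpr ⟨hj', h (y : G) y.2⟩
      have hcopr : (r ^ j).gcd (q₀ ^ k) = 1 :=
        Nat.Coprime.pow j k ((Nat.coprime_primes hr hq.out).mpr hrq)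
      rw [hcopr, pow_one] at hg
      have hcomm : (y : G) * a = a * (y : G) := commutatorElement_eq_one_iff_mul_comm.mp hg
      rw [Subgroup.mem_centralizer_iff]
      intro c hc
      rw [SetLike.mem_coe, Subgroup.mem_zpowers_iff] at hc
      obtain ⟨l, rfl⟩ := hc
      exact ((show Commute a (y : G) from hcomm.symm).zpow_left l).eq
    intro hdvd
    exact P.not_dvd_index (hdvd.trans (Subgroup.index_dvd_of_le hle))
  obtain ⟨P₀, hP₀⟩ := Cfsg.Agent.Lib.Helper1.exists_invariant_sylow (Subgroup.zpowers a) K hAK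
    hcop' (Or.inl hsolv) q₀
  have hcopi : (C.subgroupOf K).index.Coprime (P₀ : Subgroup K).index := by
    apply Nat.Coprime.symm
    apply Nat.coprime_of_dvd
    intro r hr hr1 hr2
    have hrq : r ≠ q₀ := by
      rintro rfl
      exact P₀.not_dvd_index hr1
    exact key r hr hrq hr2
  have hle : ⁅K, Subgroup.zpowers a⁆ ≤ (P₀ : Subgroup K).map K.subtype := by
    rw [Subgroup.commutator_le]
    intro x hx g hg
    obtain ⟨β, hβ, γ, hγ, hxe⟩ := Cfsg.Agent.Lib.Helper23.exists_mul_of_coprime_index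
      (C.subgroupOf K) (P₀ : Subgroup K) hcopi ⟨x, hx⟩
    have hx' : x = (β : G) * (γ : G) := congrArg Subtype.val hxe
    have hγC : (γ : G) ∈ Subgroup.centralizer ((Subgroup.zpowers a : Subgroup G) : Set G) := by
      have h1 := Subgroup.mem_subgroupOf.mp hγ
      rw [hC] at h1
      exact h1.2
    have hγg : g * (γ : G) = (γ : G) * g := Subgroup.mem_centralizer_iff.mp hγC g hg
    have hβR : (β : G) ∈ (P₀ : Subgroup K).map K.subtype := ⟨β, hβ, rfl⟩
    have hgR : g ∈ Subgroup.normalizer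
        (((P₀ : Subgroup K).map K.subtype : Subgroup G) : Set G) := hP₀ hg
    have h1 : ⁅x, g⁆ = (β : G) * (g * (β : G)⁻¹ * g⁻¹) := by
      rw [hx', commutatorElement_def]
      calc (β : G) * γ * g * ((β : G) * γ)⁻¹ * g⁻¹
          = (β : G) * ((γ : G) * g) * (γ : G)⁻¹ * (β : G)⁻¹ * g⁻¹ := by group
        _ = (β : G) * (g * (γ : G)) * (γ : G)⁻¹ * (β : G)⁻¹ * g⁻¹ := by rw [hγg]
        _ = _ := by group
    rw [h1]
    exact Subgroup.mul_mem _ hβR (conj_mem_of_mem_normalizer hgR (Subgroup.inv_mem _ hβR))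
  exact (P₀.2.map K.subtype).to_le hle

theorem small_two : ∀ α β : ZMod 2, α ≠ 0 → β ≠ 0 → (lower β * upper (-α)) ^ 3 = 1 := by
  decide

theorem small_three : ∀ α β : ZMod 3, α ≠ 0 → β ≠ 0 →
    ((lower β * upper (-α)) ^ 4 = 1 ∧
      (lower β * upper (-α)) * (upper α * (lower β * upper (-α)) * upper (-α)) ≠
        (upper α * (lower β * upper (-α)) * upper (-α)) * (lower β * upper (-α))) ∨
    ((lower β * upper (-α)) ^ 6 = 1 ∧ (lower β * upper (-α)) ^ 2 ≠ 1) := by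
  decide

section main

variable [Finite G] {p : ℕ} [hp : Fact p.Prime] {V H Q : Subgroup G}

/-- The isomorphism with `SL₂(p)` sends the two generators to unitriangular matrices. -/
theorem sl2_data (hS : Setting p V H Q) {a d x : G} (hT : Transv p V H a d) (hx : x ∈ Q)
    (hxa : x * a ≠ a * x) :
    ∃ (α β : ZMod p) (φ : ↥(Subgroup.zpowers a ⊔ Subgroup.zpowers (x * a * x⁻¹)) ≃*
        Matrix.SpecialLinearGroup (Fin 2) (ZMod p)),
      α ≠ 0 ∧ β ≠ 0 ∧
      φ ⟨a, Subgroup.mem_sup_left (Subgroup.mem_zpowers a)⟩ = upper α ∧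
      φ ⟨x * a * x⁻¹, Subgroup.mem_sup_right (Subgroup.mem_zpowers _)⟩ = lower β := by
  obtain ⟨α, β, hP, hW⟩ := pair_core hS hT hx hxa
  obtain ⟨-, -, hbot, -⟩ := sl2_main hS hT hx hxa
  rw [hW] at hbot
  have hLcl : Subgroup.zpowers a ⊔ Subgroup.zpowers (x * a * x⁻¹) =
      Subgroup.closure {a, x * a * x⁻¹} := by
    rw [Subgroup.zpowers_eq_closure, Subgroup.zpowers_eq_closure, ← Subgroup.closure_union]
    rfl
  have hfaith : ∀ g ∈ Subgroup.zpowers a ⊔ Subgroup.zpowers (x * a * x⁻¹),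
      g * d = d * g → g * (x * d * x⁻¹) = (x * d * x⁻¹) * g → g = 1 := by
    intro g hg hgd hge
    have hgW : g ∈ Subgroup.centralizer
        ((Subgroup.zpowers d ⊔ Subgroup.zpowers (x * d * x⁻¹) : Subgroup G) : Set G) :=
      (Subgroup.le_centralizer_iff.mp (sup_le (zpowers_le_centralizer_zpowers hgd.symm)
        (zpowers_le_centralizer_zpowers hge.symm))) (Subgroup.mem_zpowers g)
    have h1 : g ∈ (Subgroup.zpowers a ⊔ Subgroup.zpowers (x * a * x⁻¹)) ⊓ Subgroup.centralizer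
        ((Subgroup.zpowers d ⊔ Subgroup.zpowers (x * d * x⁻¹) : Subgroup G) : Set G) :=
      Subgroup.mem_inf.mpr ⟨hg, hgW⟩
    rw [hbot, Subgroup.mem_bot] at h1
    exact h1
  obtain ⟨φ, hφ⟩ := exists_equiv hP _ hLcl hfaith
  exact ⟨α, β, φ, hP.hα, hP.hβ, Subtype.ext (acts_unique hP (hφ _) (acts_a hP)),
    Subtype.ext (acts_unique hP (hφ _) (acts_b hP))⟩

theorem upper_inv {F : Type*} [Field F] (t : F) : (upper t)⁻¹ = upper (-t) := by
  apply inv_eq_of_mul_eq_one_left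
  rw [upper_mul, neg_add_cancel, upper_zero]

/-- The commutator `[x, a]` corresponds to a product of two unitriangular matrices. -/
theorem comm_data (hS : Setting p V H Q) {a d x : G} (hT : Transv p V H a d) (hx : x ∈ Q)
    (hxa : x * a ≠ a * x) :
    ∃ α β : ZMod p, α ≠ 0 ∧ β ≠ 0 ∧
      (∀ n : ℕ, (lower β * upper (-α)) ^ n = 1 ↔ ⁅x, a⁆ ^ n = 1) ∧
      ((lower β * upper (-α)) * (upper α * (lower β * upper (-α)) * upper (-α)) =
          (upper α * (lower β * upper (-α)) * upper (-α)) * (lower β * upper (-α)) ↔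
        ⁅x, a⁆ * (a * ⁅x, a⁆ * a⁻¹) = (a * ⁅x, a⁆ * a⁻¹) * ⁅x, a⁆) := by
  obtain ⟨α, β, φ, hα, hβ, hφa, hφb⟩ := sl2_data hS hT hx hxa
  obtain ⟨aL, haL⟩ : ∃ aL : ↥(Subgroup.zpowers a ⊔ Subgroup.zpowers (x * a * x⁻¹)),
      aL = ⟨a, Subgroup.mem_sup_left (Subgroup.mem_zpowers a)⟩ := ⟨_, rfl⟩
  obtain ⟨bL, hbL⟩ : ∃ bL : ↥(Subgroup.zpowers a ⊔ Subgroup.zpowers (x * a * x⁻¹)),
      bL = ⟨x * a * x⁻¹, Subgroup.mem_sup_right (Subgroup.mem_zpowers _)⟩ := ⟨_, rfl⟩
  rw [← haL] at hφa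
  rw [← hbL] at hφb
  have haL' : (aL : G) = a := by rw [haL]
  have hbL' : (bL : G) = x * a * x⁻¹ := by rw [hbL]
  have hc : ((bL * aL⁻¹ : ↥(Subgroup.zpowers a ⊔ Subgroup.zpowers (x * a * x⁻¹))) : G) =
      ⁅x, a⁆ := by
    rw [Subgroup.coe_mul, Subgroup.coe_inv, haL', hbL', commutatorElement_def]
  have hφc : φ (bL * aL⁻¹) = lower β * upper (-α) := by
    rw [map_mul, map_inv, hφa, hφb, upper_inv]
  refine ⟨α, β, hα, hβ, ?_, ?_⟩
  · intro n
    rw [← hφc, ← map_pow, MulEquiv.map_eq_one_iff, ← hc, ← Subgroup.coe_pow,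
      OneMemClass.coe_eq_one]
  · have hconj : ((aL * (bL * aL⁻¹) * aL⁻¹ :
        ↥(Subgroup.zpowers a ⊔ Subgroup.zpowers (x * a * x⁻¹))) : G) = a * ⁅x, a⁆ * a⁻¹ := by
      rw [Subgroup.coe_mul, Subgroup.coe_mul, Subgroup.coe_inv, hc, haL']
    have hφconj : φ (aL * (bL * aL⁻¹) * aL⁻¹) =
        upper α * φ (bL * aL⁻¹) * upper (-α) := by
      rw [map_mul, map_mul, map_inv, hφa, upper_inv]
    rw [← hφc, ← hφconj, ← map_mul, ← map_mul, φ.injective.eq_iff, ← hconj, ← hc]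
    exact Subtype.ext_iff

/-- Commutators of elements of `Q` with a minimal best offender generator are `q₀`-elements. -/
theorem comm_pow (hS : Setting p V H Q) {a d x : G} (hT : Transv p V H a d) (hx : x ∈ Q) :
    (p = 2 → ⁅x, a⁆ ^ 3 = 1) ∧
    (p = 3 → ⁅x, a⁆ ^ 4 = 1 ∧ (x * a ≠ a * x →
      ⁅x, a⁆ * (a * ⁅x, a⁆ * a⁻¹) ≠ (a * ⁅x, a⁆ * a⁻¹) * ⁅x, a⁆)) := by
  by_cases hxa : x * a = a * x
  · have h1 : ⁅x, a⁆ = 1 := commutatorElement_eq_one_iff_mul_comm.mpr hxa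
    rw [h1]
    exact ⟨fun _ => one_pow _, fun _ => ⟨one_pow _, fun h => absurd hxa h⟩⟩
  · obtain ⟨α, β, hα, hβ, hpow, hcm⟩ := comm_data hS hT hx hxa
    constructor
    · intro h2
      subst h2
      exact (hpow 3).mp (small_two α β hα hβ)
    · intro h3
      subst h3
      rcases small_three α β hα hβ with ⟨h4, hnc⟩ | ⟨h6, h2⟩
      · exact ⟨(hpow 4).mp h4, fun _ hcomm => hnc (hcm.mpr hcomm)⟩
      · exfalso
        apply h2
        rw [hpow 2]
        have h6' := (hpow 6).mp h6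
        have hcQ : ⁅x, a⁆ ∈ Q := by
          have h1 : ⁅x, a⁆ = x * (a * x⁻¹ * a⁻¹) := by
            rw [commutatorElement_def]; group
          rw [h1]
          exact Q.mul_mem hx (conj_mem_of_mem_normalizer (hS.hHQ hT.haH) (Q.inv_mem hx))
        have hd1 : orderOf ⁅x, a⁆ ∣ 2 * 3 := orderOf_dvd_of_pow_eq_one h6'
        have hd2 : (orderOf ⁅x, a⁆).Coprime 3 :=
          Nat.Coprime.coprime_dvd_left (Subgroup.orderOf_dvd_natCard Q hcQ) hS.hQp
        exact orderOf_dvd_iff_pow_eq_one.mp (hd2.dvd_of_dvd_mul_right hd1)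

/-- The commutator of `Q` with a minimal best offender. -/
theorem comm_main (hS : Setting p V H Q) {A : Subgroup G} (hAH : A ≤ H)
    (hA : IsBestOffenderOn p V A) (hAV : ⁅V, A⁆ ≠ ⊥)
    (hmin : ∀ B : Subgroup G, B ≤ A → IsBestOffenderOn p V B → ⁅V, B⁆ ≠ ⊥ → B = A) :
    (p = 2 ∧ IsPGroup 3 ↥(⁅Q, A⁆)) ∨
      (p = 3 ∧ IsPGroup 2 ↥(⁅Q, A⁆) ∧ ¬ IsMulCommutative ↥(⁅Q, A⁆)) := by
  obtain ⟨a, d, hT, rfl⟩ := exists_transv hS hAH hA hAV hmin
  have hex : ∃ x ∈ Q, x * a ≠ a * x := by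
    by_contra hcon
    push Not at hcon
    have h1 : Subgroup.zpowers a ≤ Subgroup.centralizer (Q : Set G) := by
      rw [Subgroup.zpowers_le, Subgroup.mem_centralizer_iff]
      intro x hx
      exact hcon x hx
    have h2 := hS.hCQ _ (Subgroup.zpowers_le.mpr hT.haH) h1 (Subgroup.mem_zpowers a)
    have h3 : a ^ (Nat.card Q) = 1 := by
      have h4 := pow_card_eq_one' (G := Q) (x := ⟨a, h2⟩)
      exact congrArg Subtype.val h4
    have hg := pow_gcd_eq_one.mpr ⟨hT.hap, h3⟩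
    rw [show p.gcd (Nat.card Q) = 1 from hS.hQp.symm, pow_one] at hg
    exact hT.ha1 hg
  obtain ⟨x, hx, hxa⟩ := hex
  obtain ⟨hp23, -, -, -⟩ := sl2_main hS hT hx hxa
  have haQ : a ∈ Subgroup.normalizer (Q : Set G) := hS.hHQ hT.haH
  have hord : orderOf a = p := orderOf_eq_prime hT.hap hT.ha1
  have hcop : (orderOf a).Coprime (Nat.card Q) := by rw [hord]; exact hS.hQp.symm
  rcases hp23 with h2 | h3
  · left
    refine ⟨h2, ?_⟩
    have : Fact (Nat.Prime 3) := ⟨by norm_num⟩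
    exact commutator_zpowers_isPGroup haQ hcop 3 1
      (fun y hy => by rw [pow_one]; exact (comm_pow hS hT hy).1 h2)
  · right
    refine ⟨h3, ?_, ?_⟩
    · have : Fact (Nat.Prime 2) := ⟨by norm_num⟩
      exact commutator_zpowers_isPGroup haQ hcop 2 2
        (fun y hy => by
          rw [show (2 : ℕ) ^ 2 = 4 by norm_num]
          exact ((comm_pow hS hT hy).2 h3).1)
    · intro hcomm
      have hc : ⁅x, a⁆ ∈ ⁅Q, Subgroup.zpowers a⁆ :=
        Subgroup.commutator_mem_commutator hx (Subgroup.mem_zpowers a)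
      have hc' : a * ⁅x, a⁆ * a⁻¹ ∈ ⁅Q, Subgroup.zpowers a⁆ :=
        conj_mem_of_mem_normalizer
          (le_normalizer_commutator (Subgroup.zpowers_le.mpr haQ) Subgroup.le_normalizer
            (Subgroup.mem_zpowers a)) hc
      apply ((comm_pow hS hT hx).2 h3).2 hxa
      have := hcomm
      exact congrArg Subtype.val
        (mul_comm' (⟨_, hc⟩ : ↥(⁅Q, Subgroup.zpowers a⁆)) ⟨_, hc'⟩)

end main

end Cfsg.Agent.Lib.Helper6.FFComm
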