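import Mathlib
import Cfsg.Agent.Lib.Helper6.FFComm

/-! The structure of a faithful group generated by best offenders: each minimal best offender
spans with its commutator on the `p'`-core a direct factor isomorphic to `SL₂(p)`. -/

set_option autoImplicit false
open Pointwise

namespace Cfsg.Agent.Lib.Helper6.FFStruct

open Cfsg
open Cfsg.Agent.Lib.Helper6.BestOff
open Cfsg.Agent.Lib.Helper6.SubPair
open Cfsg.Agent.Lib.Helper6.SL2Rec
open Cfsg.Agent.Lib.Helper6.FFSL2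
open Cfsg.Agent.Lib.Helper6.FFComm

open scoped commutatorElement

universe u

/-- In a finite nilpotent group every subgroup is subnormal. -/
theorem isSubnormal_of_nilpotent {T : Type*} [Group T] [Finite T] [Group.IsNilpotent T] :
    ∀ (n : ℕ) (K : Subgroup T), Nat.card T - Nat.card K ≤ n → K.IsSubnormal := by
  intro n
  induction n with
  | zero =>
    intro K hK
    have h1 : Nat.card K ≤ Nat.card T := Subgroup.card_le_card_group K
    have h2 : K = ⊤ := Subgroup.eq_top_of_card_eq K (by omega)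
    rw [h2]
    exact Subgroup.IsSubnormal.top
  | succ n ih =>
    intro K hK
    by_cases hKt : K = ⊤
    · rw [hKt]; exact Subgroup.IsSubnormal.top
    · have hlt : K < Subgroup.normalizer (K : Set T) :=
        Group.normalizerCondition_of_isNilpotent K (lt_top_iff_ne_top.mpr hKt)
      have hcard : Nat.card K < Nat.card (Subgroup.normalizer (K : Set T)) := by
        by_contra hcon
        exact hlt.ne (Subgroup.eq_of_le_of_card_ge hlt.le (not_lt.mp hcon))
      have h1 : Nat.card (Subgroup.normalizer (K : Set T)) ≤ Nat.card T :=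
        Subgroup.card_le_card_group _
      have hN := ih (Subgroup.normalizer (K : Set T)) (by omega)
      exact Subgroup.IsSubnormal.trans hlt.le Subgroup.normal_in_normalizer.isSubnormal hN

/-- The matrix acts on the plane irreducibly and without fixed points. -/
def IrrMat {p : ℕ} [Fact p.Prime] (M : Matrix.SpecialLinearGroup (Fin 2) (ZMod p)) : Prop :=
  M ^ 2 ≠ 1 ∧ ∀ u : Fin 2 → ZMod p, u ≠ 0 →
    (M : Matrix (Fin 2) (Fin 2) (ZMod p)).mulVec u ≠ u ∧
    ∀ v : Fin 2 → ZMod p, ∃ s t : ZMod p,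
      v = s • u + t • (M : Matrix (Fin 2) (Fin 2) (ZMod p)).mulVec u

theorem irrMat_two : ∀ α β : ZMod 2, α ≠ 0 → β ≠ 0 → IrrMat (lower β * upper (-α)) := by
  unfold IrrMat
  decide

set_option maxRecDepth 100000 in
theorem irrMat_three : ∀ α β : ZMod 3, α ≠ 0 → β ≠ 0 → (lower β * upper (-α)) ^ 4 = 1 →
    IrrMat (lower β * upper (-α)) := by
  unfold IrrMat
  decide

variable {G : Type u} [Group G]

section rec

variable {p : ℕ} [hp : Fact p.Prime]

theorem acts_pow {d₁ d₂ g : G} {N : Matrix (Fin 2) (Fin 2) (ZMod p)} (h : Acts d₁ d₂ g N)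
    (n : ℕ) : Acts d₁ d₂ (g ^ n) (N ^ n) := by
  induction n with
  | zero =>
    rw [pow_zero, pow_zero]
    exact acts_one _ _
  | succ n ih =>
    rw [pow_succ, pow_succ]
    exact acts_mul ih h

/-- An element of order dividing `p` normalizing the plane acts through a matrix of `SL₂`. -/
theorem exists_acts_of_pow {d₁ d₂ a b : G} {α β : ZMod p} (h : Pair p d₁ d₂ a b α β) {g : G}
    (hg : g ^ p = 1)
    (hgW : ∀ u : Fin 2 → ZMod p, ∃ u' : Fin 2 → ZMod p,
      g * theta d₁ d₂ u * g⁻¹ = theta d₁ d₂ u') :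
    ∃ M : Matrix.SpecialLinearGroup (Fin 2) (ZMod p),
      Acts d₁ d₂ g (M : Matrix (Fin 2) (Fin 2) (ZMod p)) := by
  obtain ⟨c₀, hc₀⟩ := hgW ![1, 0]
  obtain ⟨c₁, hc₁⟩ := hgW ![0, 1]
  rw [theta_e0] at hc₀
  rw [theta_e1] at hc₁
  obtain ⟨N, hN⟩ : ∃ N : Matrix (Fin 2) (Fin 2) (ZMod p),
      N = Matrix.of (fun i j => if j = 0 then c₀ i else c₁ i) := ⟨_, rfl⟩
  have hA : Acts d₁ d₂ g N := by
    apply acts_of_cols h.hd₁ h.hd₂ h.hc
    · rw [hc₀]
      congr 1
      funext i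
      rw [hN]
      simp
    · rw [hc₁]
      congr 1
      funext i
      rw [hN]
      simp
  have hNp : N ^ p = 1 := by
    have h1 := acts_pow hA p
    rw [hg] at h1
    exact acts_unique h h1 (acts_one _ _)
  have hdet : N.det = 1 := by
    have h1 : N.det ^ p = 1 := by rw [← Matrix.det_pow, hNp, Matrix.det_one]
    rw [ZMod.pow_card] at h1
    exact h1
  exact ⟨⟨N, hdet⟩, hA⟩

/-- The action homomorphism of a subgroup generated by elements acting through `SL₂`. -/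
theorem exists_hom_of_gens {d₁ d₂ a b : G} {α β : ZMod p} (h : Pair p d₁ d₂ a b α β)
    (M : Subgroup G) (S : Set G) (hM : M = Subgroup.closure S)
    (hS : ∀ g ∈ S, ∃ N : Matrix.SpecialLinearGroup (Fin 2) (ZMod p),
      Acts d₁ d₂ g (N : Matrix (Fin 2) (Fin 2) (ZMod p))) :
    ∃ φ : M →* Matrix.SpecialLinearGroup (Fin 2) (ZMod p),
      ∀ g : M, Acts d₁ d₂ (g : G) ((φ g : Matrix.SpecialLinearGroup (Fin 2) (ZMod p)) :
        Matrix (Fin 2) (Fin 2) (ZMod p)) := by
  have hall : ∀ g ∈ M, ∃ N : Matrix.SpecialLinearGroup (Fin 2) (ZMod p),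
      Acts d₁ d₂ g (N : Matrix (Fin 2) (Fin 2) (ZMod p)) := by
    let T : Subgroup G :=
      { carrier := {g | ∃ N : Matrix.SpecialLinearGroup (Fin 2) (ZMod p),
          Acts d₁ d₂ g (N : Matrix (Fin 2) (Fin 2) (ZMod p))}
        one_mem' := ⟨1, by rw [Matrix.SpecialLinearGroup.coe_one]; exact acts_one _ _⟩
        mul_mem' := by
          rintro g g' ⟨N, hN⟩ ⟨N', hN'⟩
          exact ⟨N * N', by rw [Matrix.SpecialLinearGroup.coe_mul]; exact acts_mul hN hN'⟩
        inv_mem' := by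
          rintro g ⟨N, hN⟩
          refine ⟨N⁻¹, acts_inv hN ?_⟩
          rw [← Matrix.SpecialLinearGroup.coe_mul, mul_inv_cancel,
            Matrix.SpecialLinearGroup.coe_one] }
    have hMT : M ≤ T := by
      rw [hM, Subgroup.closure_le]
      exact hS
    exact fun g hg => hMT hg
  choose f hf using (fun g : M => hall g g.2)
  have hmul : ∀ g g' : M, f (g * g') = f g * f g' := by
    intro g g'
    apply Subtype.ext
    refine acts_unique h (hf (g * g')) ?_
    have h1 := acts_mul (hf g) (hf g')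
    rw [← Matrix.SpecialLinearGroup.coe_mul] at h1
    exact h1
  exact ⟨MonoidHom.mk' f hmul, hf⟩

/-- Trivial action on the coordinates means commuting with the basis. -/
theorem comm_of_acts_one {d₁ d₂ g : G}
    (h : Acts (p := p) d₁ d₂ g (1 : Matrix (Fin 2) (Fin 2) (ZMod p))) :
    g * d₁ = d₁ * g ∧ g * d₂ = d₂ * g := by
  have h2 := h ![1, 0]
  have h3 := h ![0, 1]
  rw [Matrix.one_mulVec, theta_e0] at h2
  rw [Matrix.one_mulVec, theta_e1] at h3
  constructor
  · calc g * d₁ = (g * d₁ * g⁻¹) * g := by group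
      _ = d₁ * g := by rw [h2]
  · calc g * d₂ = (g * d₂ * g⁻¹) * g := by group
      _ = d₂ * g := by rw [h3]

end rec

theorem mem_centralizer_sup_zpowers {a b f : G} (ha : a * f = f * a) (hb : b * f = f * b) :
    f ∈ Subgroup.centralizer ((Subgroup.zpowers a ⊔ Subgroup.zpowers b : Subgroup G) : Set G) :=
  (Subgroup.le_centralizer_iff.mp (sup_le (zpowers_le_centralizer_zpowers ha)
    (zpowers_le_centralizer_zpowers hb))) (Subgroup.mem_zpowers f)

theorem sup_zpowers_eq_closure (a b : G) :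
    Subgroup.zpowers a ⊔ Subgroup.zpowers b = Subgroup.closure {a, b} := by
  rw [Subgroup.zpowers_eq_closure, Subgroup.zpowers_eq_closure, ← Subgroup.closure_union]
  rfl

section pkg

variable [Finite G] {p : ℕ} [hp : Fact p.Prime] {V H Q : Subgroup G}

/-- The data attached to a minimal best offender generator `a` and a conjugate `b` of it under
an element of `Q` not commuting with `a`. -/
structure Pkg (p : ℕ) [Fact p.Prime] (V H Q : Subgroup G) (a d b e : G) (α β : ZMod p) :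
    Prop where
  hTa : Transv p V H a d
  hTb : Transv p V H b e
  hP : Pair p d e a b α β
  hW : ⁅V, Subgroup.zpowers a ⊔ Subgroup.zpowers b⁆ = Subgroup.zpowers d ⊔ Subgroup.zpowers e
  hfaith : ∀ g ∈ Subgroup.zpowers a ⊔ Subgroup.zpowers b, g * d = d * g → g * e = e * g → g = 1
  hcT : b * a⁻¹ ∈ ⁅Q, Subgroup.zpowers a⁆
  hp23 : p = 2 ∨ p = 3
  hirr : IrrMat (lower β * upper (-α))

omit [Finite G] in
theorem acts_c_of_pair {a d b e : G} {α β : ZMod p} (hP : Pair p d e a b α β) :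
    Acts d e (b * a⁻¹) ((lower β * upper (-α) : Matrix.SpecialLinearGroup (Fin 2) (ZMod p)) :
      Matrix (Fin 2) (Fin 2) (ZMod p)) := by
  rw [Matrix.SpecialLinearGroup.coe_mul]
  refine acts_mul (acts_b hP) (acts_inv (acts_a hP) ?_)
  rw [← Matrix.SpecialLinearGroup.coe_mul, upper_mul, add_neg_cancel, upper_zero,
    Matrix.SpecialLinearGroup.coe_one]

omit [Finite G] in
theorem mat_pow_eq_one {a d b e : G} {α β : ZMod p} (hP : Pair p d e a b α β) {n : ℕ}
    (h : (b * a⁻¹) ^ n = 1) : (lower β * upper (-α)) ^ n = 1 := by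
  have h1 := acts_pow (acts_c_of_pair hP) n
  rw [h] at h1
  have h2 := acts_unique hP h1 (acts_one _ _)
  apply Subtype.ext
  rw [Matrix.SpecialLinearGroup.coe_pow, h2, Matrix.SpecialLinearGroup.coe_one]

theorem exists_pkg (hS : Setting p V H Q) {a d x : G} (hT : Transv p V H a d) (hx : x ∈ Q)
    (hxa : x * a ≠ a * x) :
    ∃ α β : ZMod p, Pkg p V H Q a d (x * a * x⁻¹) (x * d * x⁻¹) α β := by
  obtain ⟨α, β, hP, hW⟩ := pair_core hS hT hx hxa
  obtain ⟨hp23, -, hbot, -⟩ := sl2_main hS hT hx hxa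
  rw [hW] at hbot
  have hfaith : ∀ g ∈ Subgroup.zpowers a ⊔ Subgroup.zpowers (x * a * x⁻¹),
      g * d = d * g → g * (x * d * x⁻¹) = (x * d * x⁻¹) * g → g = 1 := by
    intro g hg hgd hge
    have hgW : g ∈ Subgroup.centralizer
        ((Subgroup.zpowers d ⊔ Subgroup.zpowers (x * d * x⁻¹) : Subgroup G) : Set G) :=
      mem_centralizer_sup_zpowers hgd.symm hge.symm
    have h1 : g ∈ (Subgroup.zpowers a ⊔ Subgroup.zpowers (x * a * x⁻¹)) ⊓ Subgroup.centralizer
        ((Subgroup.zpowers d ⊔ Subgroup.zpowers (x * d * x⁻¹) : Subgroup G) : Set G) :=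
      Subgroup.mem_inf.mpr ⟨hg, hgW⟩
    rw [hbot, Subgroup.mem_bot] at h1
    exact h1
  have hcT : x * a * x⁻¹ * a⁻¹ ∈ ⁅Q, Subgroup.zpowers a⁆ := by
    have h := Subgroup.commutator_mem_commutator hx (Subgroup.mem_zpowers a)
    rw [commutatorElement_def] at h
    exact h
  have hpow := comm_pow hS hT hx
  rw [commutatorElement_def] at hpow
  refine ⟨α, β, hT, transv_conj hS hT (hS.hQH hx), hP, hW, hfaith, hcT, hp23, ?_⟩
  rcases hp23 with h2 | h3
  · subst h2
    exact irrMat_two α β hP.hα hP.hβ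
  · subst h3
    exact irrMat_three α β hP.hα hP.hβ (mat_pow_eq_one hP (hpow.2 rfl).1)

variable {a d b e : G} {α β : ZMod p}

omit [Finite G] hp in
theorem theta_mem (u : Fin 2 → ZMod p) :
    theta d e u ∈ Subgroup.zpowers d ⊔ Subgroup.zpowers e :=
  Subgroup.mul_mem _
    (Subgroup.mem_sup_left (Subgroup.pow_mem _ (Subgroup.mem_zpowers d) _))
    (Subgroup.mem_sup_right (Subgroup.pow_mem _ (Subgroup.mem_zpowers e) _))

theorem pkg_mem_theta (hK : Pkg p V H Q a d b e α β) {w : G}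
    (hw : w ∈ Subgroup.zpowers d ⊔ Subgroup.zpowers e) :
    ∃ u : Fin 2 → ZMod p, w = theta d e u := by
  have hP := hK.hP
  have hcomm : ∀ c ∈ Subgroup.zpowers d, ∀ r ∈ Subgroup.zpowers e, c * r = r * c := by
    intro c hc r hr
    obtain ⟨k, rfl⟩ := Subgroup.mem_zpowers_iff.mp hc
    obtain ⟨l, rfl⟩ := Subgroup.mem_zpowers_iff.mp hr
    exact ((show Commute d e from hP.hc).zpow_zpow k l).eq
  obtain ⟨c, hc, r, hr, rfl⟩ := mem_sup_comm hcomm hw
  obtain ⟨m, hm⟩ := mem_powers_iff_mem_zpowers.mpr hc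
  obtain ⟨n, hn⟩ := mem_powers_iff_mem_zpowers.mpr hr
  refine ⟨![(m : ZMod p), (n : ZMod p)], ?_⟩
  have hm' : d ^ m = c := hm
  have hn' : e ^ n = r := hn
  show c * r = d ^ ((m : ZMod p)).val * e ^ ((n : ZMod p)).val
  rw [pow_val_natCast hP.hd₁, pow_val_natCast hP.hd₂, hm', hn']

theorem pkg_card_W (hK : Pkg p V H Q a d b e α β) :
    Nat.card ↥(Subgroup.zpowers d ⊔ Subgroup.zpowers e) = p ^ 2 := by
  have hP := hK.hP
  have hbij : Function.Bijective (fun u : Fin 2 → ZMod p =>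
      (⟨theta d e u, theta_mem u⟩ : ↥(Subgroup.zpowers d ⊔ Subgroup.zpowers e))) := by
    constructor
    · intro u u' h
      exact theta_injective hP.hd₁ hP.hd₂ hP.hc hP.hind (congrArg Subtype.val h)
    · rintro ⟨w, hw⟩
      obtain ⟨u, rfl⟩ := pkg_mem_theta hK hw
      exact ⟨u, rfl⟩
  rw [← Nat.card_congr (Equiv.ofBijective _ hbij), Nat.card_fun, Nat.card_zmod, Nat.card_fin]

omit [Finite G] in
theorem pkg_LH (hK : Pkg p V H Q a d b e α β) :
    Subgroup.zpowers a ⊔ Subgroup.zpowers b ≤ H :=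
  sup_le (Subgroup.zpowers_le.mpr hK.hTa.haH) (Subgroup.zpowers_le.mpr hK.hTb.haH)

omit [Finite G] in
theorem pkg_WV (hK : Pkg p V H Q a d b e α β) :
    Subgroup.zpowers d ⊔ Subgroup.zpowers e ≤ V :=
  sup_le (Subgroup.zpowers_le.mpr hK.hTa.hdV) (Subgroup.zpowers_le.mpr hK.hTb.hdV)

omit [Finite G] in
theorem pkg_L_norm_W (hS : Setting p V H Q) (hK : Pkg p V H Q a d b e α β) :
    Subgroup.zpowers a ⊔ Subgroup.zpowers b ≤
      Subgroup.normalizer ((Subgroup.zpowers d ⊔ Subgroup.zpowers e : Subgroup G) : Set G) := by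
  rw [← hK.hW]
  exact le_normalizer_commutator ((pkg_LH hK).trans hS.hHV) Subgroup.le_normalizer

omit [Finite G] in
theorem pkg_equiv (hK : Pkg p V H Q a d b e α β) :
    ∃ φ : ↥(Subgroup.zpowers a ⊔ Subgroup.zpowers b) ≃*
        Matrix.SpecialLinearGroup (Fin 2) (ZMod p),
      ∀ g : ↥(Subgroup.zpowers a ⊔ Subgroup.zpowers b), Acts d e (g : G)
        ((φ g : Matrix.SpecialLinearGroup (Fin 2) (ZMod p)) :
          Matrix (Fin 2) (Fin 2) (ZMod p)) :=
  exists_equiv hK.hP _ (sup_zpowers_eq_closure a b) hK.hfaith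

omit [Finite G] in
theorem pkg_c_mem_L : b * a⁻¹ ∈ Subgroup.zpowers a ⊔ Subgroup.zpowers b :=
  Subgroup.mul_mem _ (Subgroup.mem_sup_right (Subgroup.mem_zpowers b))
    (Subgroup.inv_mem _ (Subgroup.mem_sup_left (Subgroup.mem_zpowers a)))

omit [Finite G] in
theorem pkg_TQ (hS : Setting p V H Q) (hK : Pkg p V H Q a d b e α β) :
    ⁅Q, Subgroup.zpowers a⁆ ≤ Q :=
  commutator_le_left_of_le_normalizer (Subgroup.zpowers_le.mpr (hS.hHQ hK.hTa.haH))

theorem pkg_irr (hK : Pkg p V H Q a d b e α β) (U : Subgroup G)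
    (hUW : U ≤ Subgroup.zpowers d ⊔ Subgroup.zpowers e)
    (hcU : b * a⁻¹ ∈ Subgroup.normalizer (U : Set G)) :
    U = ⊥ ∨ U = Subgroup.zpowers d ⊔ Subgroup.zpowers e := by
  have hP := hK.hP
  by_cases hU : U = ⊥
  · exact Or.inl hU
  · right
    obtain ⟨⟨w, hwU⟩, hw1⟩ := (Subgroup.ne_bot_iff_exists_ne_one).mp hU
    have hw1' : w ≠ 1 := fun h => hw1 (Subtype.ext h)
    obtain ⟨u, rfl⟩ := pkg_mem_theta hK (hUW hwU)
    have hu : u ≠ 0 := by
      rintro rfl
      exact hw1' (theta_zero d e)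
    obtain ⟨-, hspan⟩ := hK.hirr
    obtain ⟨-, hsp⟩ := hspan u hu
    have hMu : theta d e (((lower β * upper (-α) : Matrix.SpecialLinearGroup (Fin 2) (ZMod p)) :
        Matrix (Fin 2) (Fin 2) (ZMod p)).mulVec u) ∈ U := by
      rw [← acts_c_of_pair hP u]
      exact conj_mem_of_mem_normalizer hcU hwU
    apply le_antisymm hUW
    intro w' hw'
    obtain ⟨v, rfl⟩ := pkg_mem_theta hK hw'
    obtain ⟨s, t, rfl⟩ := hsp v
    rw [theta_add hP.hd₁ hP.hd₂ hP.hc, theta_smul hP.hd₁ hP.hd₂ hP.hc,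
      theta_smul hP.hd₁ hP.hd₂ hP.hc]
    exact U.mul_mem (U.pow_mem hwU _) (U.pow_mem hMu _)

omit [Finite G] in
theorem pkg_c_sq_ne (hK : Pkg p V H Q a d b e α β) : (b * a⁻¹) ^ 2 ≠ 1 :=
  fun h => hK.hirr.1 (mat_pow_eq_one hK.hP h)

theorem pkg_card_C (hK : Pkg p V H Q a d b e α β) :
    2 < Nat.card (Subgroup.zpowers (b * a⁻¹)) := by
  rw [Nat.card_zpowers]
  have h0 := orderOf_pos (b * a⁻¹)
  have h1 : orderOf (b * a⁻¹) ≠ 1 := by
    intro h
    apply pkg_c_sq_ne hK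
    rw [orderOf_eq_one_iff.mp h, one_pow]
  have h2 : orderOf (b * a⁻¹) ≠ 2 := by
    intro h
    apply pkg_c_sq_ne hK
    rw [← h]
    exact pow_orderOf_eq_one _
  omega

theorem pkg_comm_C (hS : Setting p V H Q) (hK : Pkg p V H Q a d b e α β) :
    ⁅V, Subgroup.zpowers (b * a⁻¹)⁆ = Subgroup.zpowers d ⊔ Subgroup.zpowers e := by
  have hCL : Subgroup.zpowers (b * a⁻¹) ≤ Subgroup.zpowers a ⊔ Subgroup.zpowers b :=
    Subgroup.zpowers_le.mpr pkg_c_mem_L
  have hle : ⁅V, Subgroup.zpowers (b * a⁻¹)⁆ ≤ Subgroup.zpowers d ⊔ Subgroup.zpowers e := by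
    rw [← hK.hW]
    exact Subgroup.commutator_mono le_rfl hCL
  have hCV : Subgroup.zpowers (b * a⁻¹) ≤ Subgroup.normalizer (V : Set G) :=
    hCL.trans ((pkg_LH hK).trans hS.hHV)
  have hN : Subgroup.zpowers (b * a⁻¹) ≤ Subgroup.normalizer
      ((⁅V, Subgroup.zpowers (b * a⁻¹)⁆ : Subgroup G) : Set G) :=
    le_normalizer_commutator hCV Subgroup.le_normalizer
  rcases pkg_irr hK _ hle (hN (Subgroup.mem_zpowers _)) with h | h
  · exfalso
    have h1 : Subgroup.zpowers (b * a⁻¹) ≤ Subgroup.centralizer (V : Set G) :=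
      Subgroup.le_centralizer_iff.mp (Subgroup.commutator_eq_bot_iff_le_centralizer.mp h)
    have h2 : b * a⁻¹ ∈ H ⊓ Subgroup.centralizer (V : Set G) :=
      Subgroup.mem_inf.mpr ⟨pkg_LH hK pkg_c_mem_L, h1 (Subgroup.mem_zpowers _)⟩
    rw [hS.hf, Subgroup.mem_bot] at h2
    apply pkg_c_sq_ne hK
    rw [h2, one_pow]
  · exact h

theorem transv_pgroup (hS : Setting p V H Q) (hT : Transv p V H a d) (hp23 : p = 2 ∨ p = 3) :
    ∃ q₀ : ℕ, q₀.Prime ∧ IsPGroup q₀ ↥(⁅Q, Subgroup.zpowers a⁆) := by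
  have haQ : a ∈ Subgroup.normalizer (Q : Set G) := hS.hHQ hT.haH
  have hord : orderOf a = p := orderOf_eq_prime hT.hap hT.ha1
  have hcop : (orderOf a).Coprime (Nat.card Q) := by rw [hord]; exact hS.hQp.symm
  rcases hp23 with h2 | h3
  · have : Fact (Nat.Prime 3) := ⟨by norm_num⟩
    exact ⟨3, by norm_num, commutator_zpowers_isPGroup haQ hcop 3 1
      (fun y hy => by rw [pow_one]; exact (comm_pow hS hT hy).1 h2)⟩
  · have : Fact (Nat.Prime 2) := ⟨by norm_num⟩
    exact ⟨2, by norm_num, commutator_zpowers_isPGroup haQ hcop 2 2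
      (fun y hy => by
        rw [show (2 : ℕ) ^ 2 = 4 by norm_num]
        exact ((comm_pow hS hT hy).2 h3).1)⟩

omit [Finite G] hp in
theorem eq_one_of_pow_of_mem_Q (hS : Setting p V H Q) {g : G} (hgQ : g ∈ Q) {j : ℕ}
    (hj : g ^ (p ^ j) = 1) : g = 1 := by
  have hq : g ^ (Nat.card Q) = 1 := by
    have h3 := pow_card_eq_one' (G := Q) (x := ⟨g, hgQ⟩)
    exact congrArg Subtype.val h3
  have hg' := pow_gcd_eq_one.mpr ⟨hj, hq⟩
  have hcop : (p ^ j).gcd (Nat.card Q) = 1 := Nat.Coprime.pow_left j hS.hQp.symm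
  rwa [hcop, pow_one] at hg'

omit [Finite G] hp in
theorem good_Q (hS : Setting p V H Q) : Good p V Q := by
  refine ⟨hS.hV, hS.hQH.trans hS.hHV, ?_, ?_⟩
  · exact le_bot_iff.mp (hS.hf ▸ inf_le_inf_right _ hS.hQH)
  · intro P hPQ hP _
    rw [eq_bot_iff]
    intro g hg
    rw [Subgroup.mem_bot]
    obtain ⟨j, hj⟩ := hP ⟨g, hg⟩
    exact eq_one_of_pow_of_mem_Q hS (hPQ hg) (congrArg Subtype.val hj)

theorem pkg_piece (hS : Setting p V H Q) (hK : Pkg p V H Q a d b e α β) :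
    Piece V Q (Subgroup.zpowers (b * a⁻¹)) := by
  obtain ⟨q₀, hq₀, hTp⟩ := transv_pgroup hS hK.hTa hK.hp23
  have : Fact q₀.Prime := ⟨hq₀⟩
  have hnil : Group.IsNilpotent ↥(⁅Q, Subgroup.zpowers a⁆) := hTp.isNilpotent
  have hCT : Subgroup.zpowers (b * a⁻¹) ≤ ⁅Q, Subgroup.zpowers a⁆ :=
    Subgroup.zpowers_le.mpr hK.hcT
  have hTQ := pkg_TQ hS hK
  have hs1 : ((Subgroup.zpowers (b * a⁻¹)).subgroupOf ⁅Q, Subgroup.zpowers a⁆).IsSubnormal :=
    isSubnormal_of_nilpotent _ _ le_rfl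
  have hs2 : ((⁅Q, Subgroup.zpowers a⁆).subgroupOf Q).IsSubnormal := by
    have hn : ((⁅Q, Subgroup.zpowers a⁆).subgroupOf Q).Normal :=
      (Subgroup.normal_subgroupOf_iff_le_normalizer hTQ).mpr (le_normalizer_commutator_left Q _)
    exact hn.isSubnormal
  refine ⟨hCT.trans hTQ, subnormal_trans_rel hCT hs1 hs2, ?_, pkg_card_C hK⟩
  intro U hU hCU
  rw [pkg_comm_C hS hK] at hU ⊢
  exact pkg_irr hK U hU (hCU (Subgroup.mem_zpowers _))

/-- Fixed points of the commutator element are fixed by the whole `SL₂`. -/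
theorem pkg_fix (hS : Setting p V H Q) (hK : Pkg p V H Q a d b e α β) {v : G} (hv : v ∈ V)
    (hcv : (b * a⁻¹) * v = v * (b * a⁻¹)) :
    v ∈ Subgroup.centralizer ((Subgroup.zpowers a ⊔ Subgroup.zpowers b : Subgroup G) : Set G) := by
  have hP := hK.hP
  obtain ⟨u, hua, hub⟩ := exists_fix hS hK.hTa hK.hTb hP hv
  obtain ⟨f, hf⟩ : ∃ f, f = v * (theta d e u)⁻¹ := ⟨_, rfl⟩
  rw [← hf] at hua hub
  have c1 : Commute a f := hua
  have c2 : Commute b f := hub
  have hfc : Commute (b * a⁻¹) f := c2.mul_left c1.inv_left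
  have hth : theta d e u = f⁻¹ * v := by rw [hf]; group
  have hcth : Commute (b * a⁻¹) (theta d e u) := by
    rw [hth]
    exact hfc.inv_right.mul_right hcv
  have h1 : theta d e (((lower β * upper (-α) : Matrix.SpecialLinearGroup (Fin 2) (ZMod p)) :
      Matrix (Fin 2) (Fin 2) (ZMod p)).mulVec u) = theta d e u := by
    rw [← acts_c_of_pair hP u, hcth.eq]
    group
  have h2 := theta_injective hP.hd₁ hP.hd₂ hP.hc hP.hind h1
  have hu : u = 0 := by
    by_contra hu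
    exact (hK.hirr.2 u hu).1 h2
  have hfv : f = v := by
    rw [hf, hu, theta_zero, inv_one, mul_one]
  rw [← hfv]
  exact mem_centralizer_sup_zpowers hua hub

theorem pkg_decomp (hS : Setting p V H Q) (hK : Pkg p V H Q a d b e α β) {v : G} (hv : v ∈ V) :
    ∃ f ∈ V ⊓ Subgroup.centralizer
        ((Subgroup.zpowers a ⊔ Subgroup.zpowers b : Subgroup G) : Set G),
      ∃ w ∈ Subgroup.zpowers d ⊔ Subgroup.zpowers e, v = f * w := by
  obtain ⟨u, hua, hub⟩ := exists_fix hS hK.hTa hK.hTb hK.hP hv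
  have hwV : theta d e u ∈ V := pkg_WV hK (theta_mem u)
  exact ⟨v * (theta d e u)⁻¹, Subgroup.mem_inf.mpr ⟨V.mul_mem hv (V.inv_mem hwV),
    mem_centralizer_sup_zpowers hua hub⟩, theta d e u, theta_mem u, by group⟩

/-- Two packages either have the same plane, or their commutator elements commute and the
planes meet trivially. -/
theorem pkg_dichotomy (hS : Setting p V H Q) {a' d' b' e' : G} {α' β' : ZMod p}
    (hK : Pkg p V H Q a d b e α β) (hK' : Pkg p V H Q a' d' b' e' α' β') :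
    Subgroup.zpowers d ⊔ Subgroup.zpowers e = Subgroup.zpowers d' ⊔ Subgroup.zpowers e' ∨
    (⁅Subgroup.zpowers (b * a⁻¹), Subgroup.zpowers (b' * a'⁻¹)⁆ = ⊥ ∧
      (Subgroup.zpowers d ⊔ Subgroup.zpowers e) ⊓
        (Subgroup.zpowers d' ⊔ Subgroup.zpowers e') = ⊥) := by
  by_cases hne : Subgroup.zpowers d ⊔ Subgroup.zpowers e =
      Subgroup.zpowers d' ⊔ Subgroup.zpowers e'
  · exact Or.inl hne
  · right
    have hF := pkg_piece hS hK
    have hF' := pkg_piece hS hK'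
    have h12 : ¬ ⁅V, Subgroup.zpowers (b * a⁻¹)⁆ ≤ ⁅V, Subgroup.zpowers (b' * a'⁻¹)⁆ := by
      rw [pkg_comm_C hS hK, pkg_comm_C hS hK']
      intro hle
      exact hne (Subgroup.eq_of_le_of_card_ge hle (by rw [pkg_card_W hK, pkg_card_W hK']))
    have h21 : ¬ ⁅V, Subgroup.zpowers (b' * a'⁻¹)⁆ ≤ ⁅V, Subgroup.zpowers (b * a⁻¹)⁆ := by
      rw [pkg_comm_C hS hK, pkg_comm_C hS hK']
      intro hle
      exact hne (Subgroup.eq_of_le_of_card_ge hle
        (by rw [pkg_card_W hK, pkg_card_W hK'])).symm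
    obtain ⟨hc, -, hbot, -⟩ := pair_main (good_Q hS) hF hF' h12 h21
    rw [pkg_comm_C hS hK, pkg_comm_C hS hK'] at hbot
    exact ⟨hc, hbot⟩

/-- Two packages for the same `a` have the same plane. -/
theorem pkg_same (hS : Setting p V H Q) {b' e' : G} {α' β' : ZMod p}
    (hK : Pkg p V H Q a d b e α β) (hK' : Pkg p V H Q a d b' e' α' β') :
    Subgroup.zpowers d ⊔ Subgroup.zpowers e = Subgroup.zpowers d ⊔ Subgroup.zpowers e' := by
  rcases pkg_dichotomy hS hK hK' with h | ⟨-, hbot⟩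
  · exact h
  · exfalso
    have hd : d ∈ (Subgroup.zpowers d ⊔ Subgroup.zpowers e) ⊓
        (Subgroup.zpowers d ⊔ Subgroup.zpowers e') :=
      Subgroup.mem_inf.mpr ⟨Subgroup.mem_sup_left (Subgroup.mem_zpowers d),
        Subgroup.mem_sup_left (Subgroup.mem_zpowers d)⟩
    rw [hbot, Subgroup.mem_bot] at hd
    exact hK.hTa.hd1 hd

/-- Conjugates of `a` under `Q` act on the plane. -/
theorem pkg_conj (hS : Setting p V H Q) (hK : Pkg p V H Q a d b e α β) {y : G} (hy : y ∈ Q) :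
    y * a * y⁻¹ ∈ H ∧ (y * a * y⁻¹) ^ p = 1 ∧
    y * a * y⁻¹ ∈ Subgroup.normalizer
      ((Subgroup.zpowers d ⊔ Subgroup.zpowers e : Subgroup G) : Set G) ∧
    ⁅V, Subgroup.zpowers (y * a * y⁻¹)⁆ ≤ Subgroup.zpowers d ⊔ Subgroup.zpowers e := by
  by_cases hya : y * a = a * y
  · have h1 : y * a * y⁻¹ = a := by rw [hya]; group
    rw [h1]
    exact ⟨hK.hTa.haH, hK.hTa.hap,
      pkg_L_norm_W hS hK (Subgroup.mem_sup_left (Subgroup.mem_zpowers a)),
      hK.hTa.hcomm.le.trans le_sup_left⟩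
  · obtain ⟨α', β', hK'⟩ := exists_pkg hS hK.hTa hy hya
    have hW := pkg_same hS hK hK'
    rw [hW]
    exact ⟨hK'.hTb.haH, hK'.hTb.hap,
      pkg_L_norm_W hS hK' (Subgroup.mem_sup_right (Subgroup.mem_zpowers _)),
      hK'.hTb.hcomm.le.trans le_sup_right⟩

/-- The subgroup `[Q, A] A` coincides with the `SL₂` generated by `a` and `b`, and is
normalized by `Q`. -/
theorem pkg_E (hS : Setting p V H Q) (hK : Pkg p V H Q a d b e α β) :
    ⁅Q, Subgroup.zpowers a⁆ ⊔ Subgroup.zpowers a = Subgroup.zpowers a ⊔ Subgroup.zpowers b ∧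
    Q ≤ Subgroup.normalizer
      ((Subgroup.zpowers a ⊔ Subgroup.zpowers b : Subgroup G) : Set G) := by
  have hP := hK.hP
  obtain ⟨M, hM⟩ : ∃ M : Subgroup G,
      M = Subgroup.closure {g | ∃ y ∈ Q, g = y * a * y⁻¹} := ⟨_, rfl⟩
  have haM : a ∈ M := by
    rw [hM]
    exact Subgroup.subset_closure ⟨1, Q.one_mem, by group⟩
  have hconjM : ∀ y ∈ Q, y * a * y⁻¹ ∈ M := fun y hy => by
    rw [hM]
    exact Subgroup.subset_closure ⟨y, hy, rfl⟩
  have hgens : ∀ g ∈ {g | ∃ y ∈ Q, g = y * a * y⁻¹},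
      ∃ N : Matrix.SpecialLinearGroup (Fin 2) (ZMod p),
        Acts d e g (N : Matrix (Fin 2) (Fin 2) (ZMod p)) := by
    rintro g ⟨y, hy, rfl⟩
    obtain ⟨-, hpow, hN, -⟩ := pkg_conj hS hK hy
    apply exists_acts_of_pow hP hpow
    intro u
    exact pkg_mem_theta hK (conj_mem_of_mem_normalizer hN (theta_mem u))
  obtain ⟨φ, hφ⟩ := exists_hom_of_gens hP M _ hM hgens
  have hMH : M ≤ H := by
    rw [hM, Subgroup.closure_le]
    rintro g ⟨y, hy, rfl⟩
    exact (pkg_conj hS hK hy).1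
  have hMst : M ≤ stabSub V (Subgroup.zpowers d ⊔ Subgroup.zpowers e) := by
    rw [hM, Subgroup.closure_le]
    rintro g ⟨y, hy, rfl⟩
    obtain ⟨hH, -, hN, hc⟩ := pkg_conj hS hK hy
    exact ⟨hS.hHV hH, hN, fun v hv =>
      hc (Subgroup.commutator_mem_commutator hv (Subgroup.mem_zpowers _))⟩
  have hMQ : M ≤ Subgroup.zpowers a ⊔ Q := by
    rw [hM, Subgroup.closure_le]
    rintro g ⟨y, hy, rfl⟩
    exact Subgroup.mul_mem _ (Subgroup.mul_mem _ (Subgroup.mem_sup_right hy)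
      (Subgroup.mem_sup_left (Subgroup.mem_zpowers a))) (Subgroup.mem_sup_right (Q.inv_mem hy))
  have hNQ : Subgroup.zpowers a ≤ Subgroup.normalizer (Q : Set G) :=
    Subgroup.zpowers_le.mpr (hS.hHQ hK.hTa.haH)
  have hKp : IsPGroup p ↥(M ⊓ Subgroup.centralizer
      ((Subgroup.zpowers d ⊔ Subgroup.zpowers e : Subgroup G) : Set G)) :=
    isPGroup_of_stab hS (inf_le_left.trans hMH) (pkg_WV hK) inf_le_right
      ((Subgroup.commutator_mono le_rfl inf_le_left).trans (commutator_le_of_le_stabSub hMst))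
  have hinj : Function.Injective φ := by
    rw [injective_iff_map_eq_one]
    intro g hg
    have h1 := hφ g
    rw [hg, Matrix.SpecialLinearGroup.coe_one] at h1
    obtain ⟨hgd, hge⟩ := comm_of_acts_one h1
    have hgW : (g : G) ∈ Subgroup.centralizer
        ((Subgroup.zpowers d ⊔ Subgroup.zpowers e : Subgroup G) : Set G) :=
      mem_centralizer_sup_zpowers hgd.symm hge.symm
    obtain ⟨j, hj⟩ := hKp ⟨(g : G), Subgroup.mem_inf.mpr ⟨g.2, hgW⟩⟩
    have hj' : (g : G) ^ (p ^ j) = 1 := congrArg Subtype.val hj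
    have hcoe := Subgroup.coe_mul_of_left_le_normalizer_right (Subgroup.zpowers a) Q hNQ
    have hg' : (g : G) ∈ ((Subgroup.zpowers a ⊔ Q : Subgroup G) : Set G) := hMQ g.2
    rw [hcoe] at hg'
    obtain ⟨s, hs, q, hq, hsq⟩ := Set.mem_mul.mp hg'
    have hsM : s ∈ M := (Subgroup.zpowers_le.mpr haM) hs
    have hqM : q ∈ M := by
      have h2 : q = s⁻¹ * (g : G) := by rw [← hsq]; group
      rw [h2]
      exact M.mul_mem (M.inv_mem hsM) g.2
    have hgsq : g = (⟨s, hsM⟩ : M) * ⟨q, hqM⟩ := Subtype.ext hsq.symm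
    have hsp : s ^ p = 1 := by
      obtain ⟨k, rfl⟩ := Subgroup.mem_zpowers_iff.mp hs
      rw [← zpow_natCast, ← zpow_mul, mul_comm, zpow_mul, zpow_natCast, hK.hTa.hap, one_zpow]
    have hqq : q ^ (Nat.card Q) = 1 := by
      have h3 := pow_card_eq_one' (G := Q) (x := ⟨q, hq⟩)
      exact congrArg Subtype.val h3
    have h2 : φ ⟨s, hsM⟩ * φ ⟨q, hqM⟩ = 1 := by rw [← map_mul, ← hgsq, hg]
    have h3 : φ ⟨s, hsM⟩ ^ p = 1 := by
      rw [← map_pow]
      have h4 : (⟨s, hsM⟩ : M) ^ p = 1 := Subtype.ext hsp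
      rw [h4, map_one]
    have h4 : φ ⟨s, hsM⟩ ^ (Nat.card Q) = 1 := by
      have h5 : φ ⟨s, hsM⟩ = (φ ⟨q, hqM⟩)⁻¹ := eq_inv_of_mul_eq_one_left h2
      rw [h5, inv_pow, ← map_pow]
      have h6 : (⟨q, hqM⟩ : M) ^ (Nat.card Q) = 1 := Subtype.ext hqq
      rw [h6, map_one, inv_one]
    have h5 := pow_gcd_eq_one.mpr ⟨h3, h4⟩
    rw [show p.gcd (Nat.card Q) = 1 from hS.hQp.symm, pow_one] at h5
    have h6 := hφ ⟨s, hsM⟩
    rw [h5, Matrix.SpecialLinearGroup.coe_one] at h6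
    obtain ⟨hsd, hse⟩ := comm_of_acts_one h6
    have hs1 : s = 1 := hK.hfaith s (Subgroup.mem_sup_left hs) hsd hse
    have hgq : (g : G) = q := by rw [← hsq, hs1, one_mul]
    apply Subtype.ext
    rw [Subgroup.coe_one]
    exact eq_one_of_pow_of_mem_Q hS (hgq ▸ hq) hj'
  obtain ⟨ψ, -⟩ := pkg_equiv hK
  have hLE : Subgroup.zpowers a ⊔ Subgroup.zpowers b ≤
      ⁅Q, Subgroup.zpowers a⁆ ⊔ Subgroup.zpowers a := by
    refine sup_le le_sup_right (Subgroup.zpowers_le.mpr ?_)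
    have h1 : b = (b * a⁻¹) * a := by group
    rw [h1]
    exact Subgroup.mul_mem _ (Subgroup.mem_sup_left hK.hcT)
      (Subgroup.mem_sup_right (Subgroup.mem_zpowers a))
  have hEM : ⁅Q, Subgroup.zpowers a⁆ ⊔ Subgroup.zpowers a ≤ M := by
    refine sup_le ?_ (Subgroup.zpowers_le.mpr haM)
    rw [Subgroup.commutator_le]
    intro y hy g hg
    have h1 : ⁅y, g⁆ = (y * g * y⁻¹) * g⁻¹ := by rw [commutatorElement_def]
    rw [h1]
    have hgM : g ∈ M := (Subgroup.zpowers_le.mpr haM) hg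
    refine M.mul_mem ?_ (M.inv_mem hgM)
    obtain ⟨k, rfl⟩ := Subgroup.mem_zpowers_iff.mp hg
    rw [← conj_zpow]
    exact M.zpow_mem (hconjM y hy) k
  have : Finite (Matrix.SpecialLinearGroup (Fin 2) (ZMod p)) := Finite.of_equiv _ ψ.toEquiv
  have hcard : Nat.card M ≤ Nat.card ↥(Subgroup.zpowers a ⊔ Subgroup.zpowers b) := by
    rw [Nat.card_congr ψ.toEquiv]
    exact Nat.card_le_card_of_injective φ hinj
  have hLM : Subgroup.zpowers a ⊔ Subgroup.zpowers b = M :=
    Subgroup.eq_of_le_of_card_ge (hLE.trans hEM) hcard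
  constructor
  · exact le_antisymm (hEM.trans hLM.ge) hLE
  · rw [hLM, hM]
    apply le_normalizer_of_conj_mem
    intro z hz x hx
    have h1 : Subgroup.closure {g | ∃ y ∈ Q, g = y * a * y⁻¹} ≤
        (Subgroup.closure {g | ∃ y ∈ Q, g = y * a * y⁻¹}).comap
          (MulAut.conj z).toMonoidHom := by
      rw [Subgroup.closure_le]
      rintro g ⟨y, hy, rfl⟩
      rw [SetLike.mem_coe, Subgroup.mem_comap]
      apply Subgroup.subset_closure
      refine ⟨z * y, Q.mul_mem hz hy, ?_⟩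
      simp only [MulEquiv.coe_toMonoidHom, MulAut.conj_apply]
      group
    have h2 := h1 hx
    rw [Subgroup.mem_comap] at h2
    simpa using h2

omit [Finite G] hp in
theorem exists_noncomm (hS : Setting p V H Q) (hT : Transv p V H a d) :
    ∃ x ∈ Q, x * a ≠ a * x := by
  by_contra hcon
  push Not at hcon
  have h1 : Subgroup.zpowers a ≤ Subgroup.centralizer (Q : Set G) := by
    rw [Subgroup.zpowers_le, Subgroup.mem_centralizer_iff]
    intro x hx
    exact hcon x hx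
  have h2 := hS.hCQ _ (Subgroup.zpowers_le.mpr hT.haH) h1 (Subgroup.mem_zpowers a)
  have h3 : a ^ (p ^ 1) = 1 := by rw [pow_one]; exact hT.hap
  exact hT.ha1 (eq_one_of_pow_of_mem_Q hS h2 h3)

/-- If the commutator elements commute and the planes meet trivially, the first plane is
centralized by the second `SL₂`. -/
theorem pkg_cent (hS : Setting p V H Q) {a' d' b' e' : G} {α' β' : ZMod p}
    (hK : Pkg p V H Q a d b e α β) (hK' : Pkg p V H Q a' d' b' e' α' β')
    (hc : ⁅Subgroup.zpowers (b * a⁻¹), Subgroup.zpowers (b' * a'⁻¹)⁆ = ⊥)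
    (hbot : (Subgroup.zpowers d ⊔ Subgroup.zpowers e) ⊓
      (Subgroup.zpowers d' ⊔ Subgroup.zpowers e') = ⊥) :
    Subgroup.zpowers d ⊔ Subgroup.zpowers e ≤ Subgroup.centralizer
      ((Subgroup.zpowers a' ⊔ Subgroup.zpowers b' : Subgroup G) : Set G) := by
  have h1 : Subgroup.zpowers (b' * a'⁻¹) ≤
      Subgroup.centralizer ((Subgroup.zpowers (b * a⁻¹) : Subgroup G) : Set G) := by
    rw [Subgroup.commutator_comm] at hc
    exact Subgroup.commutator_eq_bot_iff_le_centralizer.mp hc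
  have hC'V : Subgroup.zpowers (b' * a'⁻¹) ≤ Subgroup.normalizer (V : Set G) :=
    (Subgroup.zpowers_le.mpr pkg_c_mem_L).trans ((pkg_LH hK').trans hS.hHV)
  have hC'W : Subgroup.zpowers (b' * a'⁻¹) ≤ Subgroup.normalizer
      ((Subgroup.zpowers d ⊔ Subgroup.zpowers e : Subgroup G) : Set G) := by
    rw [← pkg_comm_C hS hK]
    exact le_normalizer_commutator hC'V (h1.trans (Subgroup.centralizer_le_normalizer _))
  have h2 : ⁅Subgroup.zpowers d ⊔ Subgroup.zpowers e, Subgroup.zpowers (b' * a'⁻¹)⁆ = ⊥ := by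
    rw [eq_bot_iff, ← hbot]
    refine le_inf (commutator_le_left_of_le_normalizer hC'W) ?_
    rw [← pkg_comm_C hS hK']
    exact Subgroup.commutator_mono (pkg_WV hK) le_rfl
  have h3 := Subgroup.commutator_eq_bot_iff_le_centralizer.mp h2
  intro w hw
  have h4 := Subgroup.mem_centralizer_iff.mp (h3 hw) (b' * a'⁻¹) (Subgroup.mem_zpowers _)
  exact pkg_fix hS hK' (pkg_WV hK hw) h4

/-- Two packages: the second `SL₂` is contained in the first, or centralizes it and its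
plane. -/
theorem pkg_pair (hS : Setting p V H Q) {a' d' b' e' : G} {α' β' : ZMod p}
    (hK : Pkg p V H Q a d b e α β) (hK' : Pkg p V H Q a' d' b' e' α' β') :
    Subgroup.zpowers a' ⊔ Subgroup.zpowers b' ≤ Subgroup.zpowers a ⊔ Subgroup.zpowers b ∨
    (Subgroup.zpowers a' ⊔ Subgroup.zpowers b' ≤ Subgroup.centralizer
        ((Subgroup.zpowers a ⊔ Subgroup.zpowers b : Subgroup G) : Set G) ∧
     Subgroup.zpowers a' ⊔ Subgroup.zpowers b' ≤ Subgroup.centralizer
        ((Subgroup.zpowers d ⊔ Subgroup.zpowers e : Subgroup G) : Set G)) := by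
  have hP := hK.hP
  have hLH := pkg_LH hK
  have hL'H := pkg_LH hK'
  rcases pkg_dichotomy hS hK hK' with hW | ⟨hc, hbot⟩
  · left
    obtain ⟨X, hX⟩ : ∃ X : Subgroup G, X = (Subgroup.zpowers a ⊔ Subgroup.zpowers b) ⊔
        (Subgroup.zpowers a' ⊔ Subgroup.zpowers b') := ⟨_, rfl⟩
    have hXcl : X = Subgroup.closure ({a, b} ∪ {a', b'}) := by
      rw [hX, sup_zpowers_eq_closure, sup_zpowers_eq_closure, Subgroup.closure_union]
    have hLW := pkg_L_norm_W hS hK
    have hL'W : Subgroup.zpowers a' ⊔ Subgroup.zpowers b' ≤ Subgroup.normalizer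
        ((Subgroup.zpowers d ⊔ Subgroup.zpowers e : Subgroup G) : Set G) := by
      rw [hW]
      exact pkg_L_norm_W hS hK'
    have hgens : ∀ g ∈ (({a, b} ∪ {a', b'} : Set G)),
        ∃ N : Matrix.SpecialLinearGroup (Fin 2) (ZMod p),
          Acts d e g (N : Matrix (Fin 2) (Fin 2) (ZMod p)) := by
      have key : ∀ g : G, g ^ p = 1 → g ∈ Subgroup.normalizer
          ((Subgroup.zpowers d ⊔ Subgroup.zpowers e : Subgroup G) : Set G) →
          ∃ N : Matrix.SpecialLinearGroup (Fin 2) (ZMod p),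
            Acts d e g (N : Matrix (Fin 2) (Fin 2) (ZMod p)) := by
        intro g hpow hN
        apply exists_acts_of_pow hP hpow
        intro u
        exact pkg_mem_theta hK (conj_mem_of_mem_normalizer hN (theta_mem u))
      rintro g ((rfl | rfl) | (rfl | rfl))
      · exact key _ hK.hTa.hap (hLW (Subgroup.mem_sup_left (Subgroup.mem_zpowers _)))
      · exact key _ hK.hTb.hap (hLW (Subgroup.mem_sup_right (Subgroup.mem_zpowers _)))
      · exact key _ hK'.hTa.hap (hL'W (Subgroup.mem_sup_left (Subgroup.mem_zpowers _)))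
      · exact key _ hK'.hTb.hap (hL'W (Subgroup.mem_sup_right (Subgroup.mem_zpowers _)))
    obtain ⟨φ, hφ⟩ := exists_hom_of_gens hP X _ hXcl hgens
    have hXH : X ≤ H := hX ▸ sup_le hLH hL'H
    have hXW : ⁅V, X⁆ ≤ Subgroup.zpowers d ⊔ Subgroup.zpowers e := by
      rw [hX]
      exact commutator_sup_le (hLH.trans hS.hHV) hLW hK.hW.le (hL'H.trans hS.hHV) hL'W
        (hK'.hW.le.trans hW.ge)
    obtain ⟨P, hPdef⟩ : ∃ P : Subgroup G, P = X ⊓ Subgroup.centralizer
        ((Subgroup.zpowers d ⊔ Subgroup.zpowers e : Subgroup G) : Set G) := ⟨_, rfl⟩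
    have hPH : P ≤ H := hPdef ▸ inf_le_left.trans hXH
    have hPp : IsPGroup p ↥P := by
      rw [hPdef]
      exact isPGroup_of_stab hS (inf_le_left.trans hXH) (pkg_WV hK) inf_le_right
        ((Subgroup.commutator_mono le_rfl inf_le_left).trans hXW)
    have hQL := (pkg_E hS hK).2
    have hQL' := (pkg_E hS hK').2
    have hQX : Q ≤ Subgroup.normalizer (X : Set G) := by
      rw [hX]
      exact le_normalizer_sup hQL hQL'
    have hQW : Q ≤ Subgroup.normalizer
        ((Subgroup.zpowers d ⊔ Subgroup.zpowers e : Subgroup G) : Set G) := by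
      rw [← hK.hW]
      exact le_normalizer_commutator (hS.hQH.trans hS.hHV) hQL
    have hQP : Q ≤ Subgroup.normalizer (P : Set G) := by
      rw [hPdef]
      exact fun z hz => mem_normalizer_inf (hQX hz) (mem_normalizer_centralizer (hQW hz))
    have hPQbot : P ⊓ Q = ⊥ := by
      rw [eq_bot_iff]
      rintro g ⟨hgP, hgQ⟩
      rw [Subgroup.mem_bot]
      obtain ⟨j, hj⟩ := hPp ⟨g, hgP⟩
      exact eq_one_of_pow_of_mem_Q hS hgQ (congrArg Subtype.val hj)
    have hPQ : ⁅P, Q⁆ = ⊥ := by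
      rw [eq_bot_iff, ← hPQbot]
      refine le_inf (commutator_le_left_of_le_normalizer hQP) ?_
      rw [Subgroup.commutator_comm]
      exact commutator_le_left_of_le_normalizer (hPH.trans hS.hHQ)
    have hP1 : P = ⊥ := by
      have h1 := hS.hCQ P hPH (Subgroup.commutator_eq_bot_iff_le_centralizer.mp hPQ)
      rw [eq_bot_iff, ← hPQbot]
      exact le_inf le_rfl h1
    have hinj : Function.Injective φ := by
      rw [injective_iff_map_eq_one]
      intro g hg
      have h1 := hφ g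
      rw [hg, Matrix.SpecialLinearGroup.coe_one] at h1
      obtain ⟨hgd, hge⟩ := comm_of_acts_one h1
      have hgP : (g : G) ∈ P := by
        rw [hPdef]
        exact Subgroup.mem_inf.mpr ⟨g.2, mem_centralizer_sup_zpowers hgd.symm hge.symm⟩
      rw [hP1, Subgroup.mem_bot] at hgP
      exact Subtype.ext hgP
    obtain ⟨ψ, -⟩ := pkg_equiv hK
    have : Finite (Matrix.SpecialLinearGroup (Fin 2) (ZMod p)) := Finite.of_equiv _ ψ.toEquiv
    have hcard : Nat.card X ≤ Nat.card ↥(Subgroup.zpowers a ⊔ Subgroup.zpowers b) := by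
      rw [Nat.card_congr ψ.toEquiv]
      exact Nat.card_le_card_of_injective φ hinj
    have hLX : Subgroup.zpowers a ⊔ Subgroup.zpowers b = X :=
      Subgroup.eq_of_le_of_card_ge (hX ▸ le_sup_left) hcard
    rw [hLX, hX]
    exact le_sup_right
  · right
    have hWL' := pkg_cent hS hK hK' hc hbot
    have hW'L := pkg_cent hS hK' hK (by rw [Subgroup.commutator_comm]; exact hc)
      (by rw [inf_comm]; exact hbot)
    refine ⟨?_, Subgroup.le_centralizer_iff.mp hWL'⟩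
    have h1 : ⁅⁅Subgroup.zpowers a' ⊔ Subgroup.zpowers b', V⁆,
        Subgroup.zpowers a ⊔ Subgroup.zpowers b⁆ = ⊥ := by
      rw [Subgroup.commutator_comm (Subgroup.zpowers a' ⊔ Subgroup.zpowers b') V, hK'.hW]
      exact Subgroup.commutator_eq_bot_iff_le_centralizer.mpr hW'L
    have h2 : ⁅⁅V, Subgroup.zpowers a ⊔ Subgroup.zpowers b⁆,
        Subgroup.zpowers a' ⊔ Subgroup.zpowers b'⁆ = ⊥ := by
      rw [hK.hW]
      exact Subgroup.commutator_eq_bot_iff_le_centralizer.mpr hWL'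
    have h3 := Subgroup.commutator_commutator_eq_bot_of_rotate h1 h2
    have h4 : ⁅Subgroup.zpowers a ⊔ Subgroup.zpowers b,
        Subgroup.zpowers a' ⊔ Subgroup.zpowers b'⁆ ≤ H ⊓ Subgroup.centralizer (V : Set G) := by
      refine le_inf ?_ (Subgroup.commutator_eq_bot_iff_le_centralizer.mp h3)
      exact (Subgroup.commutator_mono hLH hL'H).trans
        (commutator_le_left_of_le_normalizer Subgroup.le_normalizer)
    rw [hS.hf, le_bot_iff] at h4
    exact Subgroup.le_centralizer_iff.mp (Subgroup.commutator_eq_bot_iff_le_centralizer.mp h4)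

/-- The structure of the subgroup spanned by a minimal best offender. -/
theorem struct_main (hS : Setting p V H Q)
    (hS3 : H = ⨆ A : {A : Subgroup G // A ≤ H ∧ IsBestOffenderOn p V A}, (A : Subgroup G))
    {A : Subgroup G} (hAH : A ≤ H) (hA : IsBestOffenderOn p V A) (hAV : ⁅V, A⁆ ≠ ⊥)
    (hmin : ∀ B : Subgroup G, B ≤ A → IsBestOffenderOn p V B → ⁅V, B⁆ ≠ ⊥ → B = A) :
    (p = 2 ∨ p = 3) ∧
    Nonempty (↥(⁅Q, A⁆ ⊔ A) ≃* Matrix.SpecialLinearGroup (Fin 2) (ZMod p)) ∧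
    Nat.card ↥(⁅V, ⁅Q, A⁆ ⊔ A⁆) = p ^ 2 ∧
    ⁅V, ⁅Q, A⁆ ⊔ A⁆ ⊓ (V ⊓ Subgroup.centralizer ((⁅Q, A⁆ ⊔ A : Subgroup G) : Set G)) = ⊥ ∧
    ⁅V, ⁅Q, A⁆ ⊔ A⁆ ⊔ (V ⊓ Subgroup.centralizer ((⁅Q, A⁆ ⊔ A : Subgroup G) : Set G)) = V ∧
    ⁅⁅Q, A⁆ ⊔ A, H ⊓ Subgroup.centralizer ((⁅V, ⁅Q, A⁆ ⊔ A⁆ : Subgroup G) : Set G)⁆ = ⊥ ∧
    (⁅Q, A⁆ ⊔ A) ⊓ (H ⊓ Subgroup.centralizer ((⁅V, ⁅Q, A⁆ ⊔ A⁆ : Subgroup G) : Set G)) = ⊥ ∧
    (⁅Q, A⁆ ⊔ A) ⊔ (H ⊓ Subgroup.centralizer ((⁅V, ⁅Q, A⁆ ⊔ A⁆ : Subgroup G) : Set G)) = H ∧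
    ⁅V, H ⊓ Subgroup.centralizer ((⁅V, ⁅Q, A⁆ ⊔ A⁆ : Subgroup G) : Set G)⁆ ≤
      V ⊓ Subgroup.centralizer ((⁅Q, A⁆ ⊔ A : Subgroup G) : Set G) := by
  obtain ⟨a, d, hT, rfl⟩ := exists_transv hS hAH hA hAV hmin
  obtain ⟨x, hx, hxa⟩ := exists_noncomm hS hT
  obtain ⟨α, β, hK⟩ := exists_pkg hS hT hx hxa
  obtain ⟨b, hb⟩ : ∃ b, b = x * a * x⁻¹ := ⟨_, rfl⟩
  obtain ⟨e, he⟩ : ∃ e, e = x * d * x⁻¹ := ⟨_, rfl⟩
  rw [← hb, ← he] at hK
  rw [(pkg_E hS hK).1, hK.hW]
  have hgen : H ≤ (Subgroup.zpowers a ⊔ Subgroup.zpowers b) ⊔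
      (H ⊓ (Subgroup.centralizer ((Subgroup.zpowers a ⊔ Subgroup.zpowers b : Subgroup G) : Set G) ⊓
        Subgroup.centralizer ((Subgroup.zpowers d ⊔ Subgroup.zpowers e : Subgroup G) : Set G))) := by
    have h1 : ∀ B : {B : Subgroup G // B ≤ H ∧ IsBestOffenderOn p V B}, (B : Subgroup G) ≤
        (Subgroup.zpowers a ⊔ Subgroup.zpowers b) ⊔
        (H ⊓ (Subgroup.centralizer
          ((Subgroup.zpowers a ⊔ Subgroup.zpowers b : Subgroup G) : Set G) ⊓
          Subgroup.centralizer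
            ((Subgroup.zpowers d ⊔ Subgroup.zpowers e : Subgroup G) : Set G))) := by
      rintro ⟨B, hBH, hB⟩
      obtain ⟨k, Bi, hBi, -, hsup⟩ := decomp hS (Nat.card B) B le_rfl hBH hB
      show B ≤ _
      rw [← hsup]
      apply iSup_le
      intro i
      obtain ⟨hBiB, hBio, hBic⟩ := hBi i
      have hBiH := hBiB.trans hBH
      obtain ⟨hBiV, hBimin⟩ := minimal_of_card hS hBiH hBic
      obtain ⟨a', d', hT', hza'⟩ := exists_transv hS hBiH hBio hBiV hBimin
      obtain ⟨x', hx', hxa'⟩ := exists_noncomm hS hT'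
      obtain ⟨α', β', hK'⟩ := exists_pkg hS hT' hx' hxa'
      rw [← hza']
      rcases pkg_pair hS hK hK' with h | ⟨h1, h2⟩
      · exact (le_sup_left.trans h).trans le_sup_left
      · refine le_trans ?_ le_sup_right
        exact le_inf (le_sup_left.trans (pkg_LH hK')) (le_inf (le_sup_left.trans h1)
          (le_sup_left.trans h2))
    exact hS3.le.trans (iSup_le h1)
  have hCW : H ⊓ Subgroup.centralizer
      ((Subgroup.zpowers d ⊔ Subgroup.zpowers e : Subgroup G) : Set G) ≤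
      Subgroup.centralizer ((Subgroup.zpowers a ⊔ Subgroup.zpowers b : Subgroup G) : Set G) := by
    intro h hh
    obtain ⟨hhH, hhW⟩ := Subgroup.mem_inf.mp hh
    have hcm : ∀ g ∈ Subgroup.zpowers a ⊔ Subgroup.zpowers b,
        ∀ c ∈ H ⊓ (Subgroup.centralizer
          ((Subgroup.zpowers a ⊔ Subgroup.zpowers b : Subgroup G) : Set G) ⊓
          Subgroup.centralizer
            ((Subgroup.zpowers d ⊔ Subgroup.zpowers e : Subgroup G) : Set G)),
        g * c = c * g := by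
      intro g hg c hc
      exact Subgroup.mem_centralizer_iff.mp hc.2.1 g hg
    obtain ⟨g, hg, c, hc, rfl⟩ := mem_sup_comm hcm (hgen hhH)
    have hgW : g ∈ Subgroup.centralizer
        ((Subgroup.zpowers d ⊔ Subgroup.zpowers e : Subgroup G) : Set G) := by
      have h1 := Subgroup.mul_mem _ hhW (Subgroup.inv_mem _ hc.2.2)
      rwa [mul_inv_cancel_right] at h1
    have hg1 : g = 1 := hK.hfaith g hg
      (Subgroup.mem_centralizer_iff.mp hgW d
        (Subgroup.mem_sup_left (Subgroup.mem_zpowers d))).symm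
      (Subgroup.mem_centralizer_iff.mp hgW e
        (Subgroup.mem_sup_right (Subgroup.mem_zpowers e))).symm
    rw [hg1, one_mul]
    exact hc.2.1
  refine ⟨hK.hp23, ?_, pkg_card_W hK, ?_, ?_, ?_, ?_, ?_, ?_⟩
  · obtain ⟨ψ, -⟩ := pkg_equiv hK
    exact ⟨ψ⟩
  · rw [eq_bot_iff]
    rintro w ⟨hwW, -, hwL⟩
    rw [Subgroup.mem_bot]
    obtain ⟨u, rfl⟩ := pkg_mem_theta hK hwW
    have ha := Subgroup.mem_centralizer_iff.mp hwL a
      (Subgroup.mem_sup_left (Subgroup.mem_zpowers a))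
    have hb' := Subgroup.mem_centralizer_iff.mp hwL b
      (Subgroup.mem_sup_right (Subgroup.mem_zpowers b))
    rw [fix_trivial hK.hP u ha hb']
    exact theta_zero d e
  · apply le_antisymm (sup_le (pkg_WV hK) inf_le_left)
    intro v hv
    obtain ⟨f, hf, w, hw, rfl⟩ := pkg_decomp hS hK hv
    exact Subgroup.mul_mem _ (Subgroup.mem_sup_right hf) (Subgroup.mem_sup_left hw)
  · exact Subgroup.commutator_eq_bot_iff_le_centralizer.mpr (Subgroup.le_centralizer_iff.mp hCW)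
  · rw [eq_bot_iff]
    rintro g ⟨hgL, -, hgW⟩
    rw [Subgroup.mem_bot]
    exact hK.hfaith g hgL
      (Subgroup.mem_centralizer_iff.mp hgW d
        (Subgroup.mem_sup_left (Subgroup.mem_zpowers d))).symm
      (Subgroup.mem_centralizer_iff.mp hgW e
        (Subgroup.mem_sup_right (Subgroup.mem_zpowers e))).symm
  · exact le_antisymm (sup_le (pkg_LH hK) inf_le_left)
      (hgen.trans (sup_le_sup_left (inf_le_inf_left _ inf_le_right) _))
  · rw [Subgroup.commutator_le]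
    intro v hv h hh
    obtain ⟨hhH, hhW⟩ := Subgroup.mem_inf.mp hh
    have hhL := hCW hh
    refine Subgroup.mem_inf.mpr ⟨?_, ?_⟩
    · have h1 : ⁅v, h⁆ = v * (h * v⁻¹ * h⁻¹) := by rw [commutatorElement_def]; group
      rw [h1]
      exact V.mul_mem hv (conj_mem_of_mem_normalizer (hS.hHV hhH) (V.inv_mem hv))
    · obtain ⟨f, hf, w, hw, rfl⟩ := pkg_decomp hS hK hv
      have hwh : w * h = h * w := Subgroup.mem_centralizer_iff.mp hhW w hw
      have h1 : ⁅f * w, h⁆ = ⁅f, h⁆ := by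
        rw [commutatorElement_def, commutatorElement_def]
        calc f * w * h * (f * w)⁻¹ * h⁻¹ = f * (w * h) * w⁻¹ * f⁻¹ * h⁻¹ := by group
          _ = f * (h * w) * w⁻¹ * f⁻¹ * h⁻¹ := by rw [hwh]
          _ = f * h * f⁻¹ * h⁻¹ := by group
      rw [h1, commutatorElement_def]
      exact Subgroup.mul_mem _ (Subgroup.mul_mem _ (Subgroup.mul_mem _ hf.2 hhL)
        (Subgroup.inv_mem _ hf.2)) (Subgroup.inv_mem _ hhL)

end pkg

end Cfsg.Agent.Lib.Helper6.FFStruct
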