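import Mathlib
import Cfsg.Agent.Lib.Helper6.FFStruct

/-! The structure theorem for failure of factorization: a faithful group generated by best
offenders with self-centralizing `p'`-core is a direct product of copies of `SL₂(p)`, each
acting on its own plane. -/

set_option autoImplicit false
open Pointwise

namespace Cfsg.Agent.Lib.Helper6.FFAll

open Cfsg
open Cfsg.Agent.Lib.Helper6.BestOff
open Cfsg.Agent.Lib.Helper6.SubPair
open Cfsg.Agent.Lib.Helper6.SL2Rec
open Cfsg.Agent.Lib.Helper6.FFSL2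
open Cfsg.Agent.Lib.Helper6.FFComm
open Cfsg.Agent.Lib.Helper6.FFStruct

open scoped commutatorElement

universe u

variable {G : Type u} [Group G]

/-- Independence of the planes from the common fixed points. -/
theorem indep_aux {ι : Type*} [DecidableEq ι] (W L : ι → Subgroup G) {V : Subgroup G}
    (hVc : ∀ x ∈ V, ∀ y ∈ V, x * y = y * x) (hWV : ∀ i, W i ≤ V)
    (hWL : ∀ i j, i ≠ j → W j ≤ Subgroup.centralizer ((L i : Subgroup G) : Set G))
    (hbot : ∀ i, W i ⊓ Subgroup.centralizer ((L i : Subgroup G) : Set G) = ⊥)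
    (F : Finset ι) :
    ∀ v : G, v ∈ ⨆ i ∈ F, W i →
      (∀ i ∈ F, v ∈ Subgroup.centralizer ((L i : Subgroup G) : Set G)) → v = 1 := by
  induction F using Finset.induction_on with
  | empty =>
    intro v hv _
    simpa using hv
  | insert i₀ F hi₀ ih =>
    intro v hv hc
    rw [Finset.iSup_insert] at hv
    have hFV : ⨆ i ∈ F, W i ≤ V := iSup₂_le (fun i _ => hWV i)
    have hcomm : ∀ c ∈ W i₀, ∀ r ∈ ⨆ i ∈ F, W i, c * r = r * c :=
      fun c hc r hr => hVc c (hWV i₀ hc) r (hFV hr)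
    obtain ⟨w₀, hw₀, s, hs, rfl⟩ := mem_sup_comm hcomm hv
    have hsC : s ∈ Subgroup.centralizer ((L i₀ : Subgroup G) : Set G) :=
      (iSup₂_le (fun i hi => hWL i₀ i (by rintro rfl; exact hi₀ hi)) :
        ⨆ i ∈ F, W i ≤ Subgroup.centralizer ((L i₀ : Subgroup G) : Set G)) hs
    have hw₀C : w₀ ∈ Subgroup.centralizer ((L i₀ : Subgroup G) : Set G) := by
      have h1 := Subgroup.mul_mem _ (hc i₀ (Finset.mem_insert_self _ _)) (Subgroup.inv_mem _ hsC)
      rwa [mul_inv_cancel_right] at h1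
    have hw₀1 : w₀ = 1 := by
      have h1 : w₀ ∈ W i₀ ⊓ Subgroup.centralizer ((L i₀ : Subgroup G) : Set G) :=
        Subgroup.mem_inf.mpr ⟨hw₀, hw₀C⟩
      rwa [hbot, Subgroup.mem_bot] at h1
    rw [hw₀1, one_mul] at hc ⊢
    exact ih s hs (fun i hi => hc i (Finset.mem_insert_of_mem hi))

/-- Splitting off the planes one at a time. -/
theorem decomp_aux {ι : Type*} [DecidableEq ι] (W L : ι → Subgroup G) {V : Subgroup G}
    (hWL : ∀ i j, i ≠ j → W j ≤ Subgroup.centralizer ((L i : Subgroup G) : Set G))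
    (hdec : ∀ i, ∀ v ∈ V, ∃ f ∈ V ⊓ Subgroup.centralizer ((L i : Subgroup G) : Set G),
      ∃ w ∈ W i, v = f * w)
    (F : Finset ι) :
    ∀ v ∈ V, ∃ f ∈ V, (∀ i ∈ F, f ∈ Subgroup.centralizer ((L i : Subgroup G) : Set G)) ∧
      ∃ s ∈ ⨆ i ∈ F, W i, v = f * s := by
  induction F using Finset.induction_on with
  | empty =>
    intro v hv
    exact ⟨v, hv, by simp, 1, Subgroup.one_mem _, by simp⟩
  | insert i₀ F hi₀ ih =>
    intro v hv
    obtain ⟨f, hfV, hfC, s, hs, rfl⟩ := ih v hv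
    obtain ⟨f', hf', w₀, hw₀, rfl⟩ := hdec i₀ f hfV
    refine ⟨f', hf'.1, ?_, w₀ * s, ?_, by group⟩
    · intro i hi
      rcases Finset.mem_insert.mp hi with h | h
      · rw [h]
        exact hf'.2
      · have hne : i ≠ i₀ := by
          rintro rfl
          exact hi₀ h
        have h1 := Subgroup.mul_mem _ (hfC i h) (Subgroup.inv_mem _ (hWL i i₀ hne hw₀))
        rwa [mul_inv_cancel_right] at h1
    · rw [Finset.iSup_insert]
      exact Subgroup.mul_mem _ (Subgroup.mem_sup_left hw₀) (Subgroup.mem_sup_right hs)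

section main

variable [Finite G] {p : ℕ} [hp : Fact p.Prime] {V H Q : Subgroup G}

/-- The factors: subgroups spanned by a minimal nontrivially acting best offender and its
commutator with `Q`. -/
def IsFac (p : ℕ) (V H Q E : Subgroup G) : Prop :=
  ∃ A : Subgroup G, A ≤ H ∧ IsBestOffenderOn p V A ∧ ⁅V, A⁆ ≠ ⊥ ∧
    (∀ B : Subgroup G, B ≤ A → IsBestOffenderOn p V B → ⁅V, B⁆ ≠ ⊥ → B = A) ∧ E = ⁅Q, A⁆ ⊔ A

theorem offender_pkg (hS : Setting p V H Q) {A : Subgroup G} (hAH : A ≤ H)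
    (hA : IsBestOffenderOn p V A) (hAV : ⁅V, A⁆ ≠ ⊥)
    (hmin : ∀ B : Subgroup G, B ≤ A → IsBestOffenderOn p V B → ⁅V, B⁆ ≠ ⊥ → B = A) :
    ∃ a d b e : G, ∃ α β : ZMod p, Pkg p V H Q a d b e α β ∧
      ⁅Q, A⁆ ⊔ A = Subgroup.zpowers a ⊔ Subgroup.zpowers b := by
  obtain ⟨a, d, hT, rfl⟩ := exists_transv hS hAH hA hAV hmin
  obtain ⟨x, hx, hxa⟩ := exists_noncomm hS hT
  obtain ⟨α, β, hK⟩ := exists_pkg hS hT hx hxa
  exact ⟨a, d, _, _, α, β, hK, (pkg_E hS hK).1⟩

/-- Facts about a single factor. -/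
theorem fac_facts (hS : Setting p V H Q)
    (hS3 : H = ⨆ A : {A : Subgroup G // A ≤ H ∧ IsBestOffenderOn p V A}, (A : Subgroup G))
    {E : Subgroup G} (hE : IsFac p V H Q E) :
    (p = 2 ∨ p = 3) ∧ H ≤ Subgroup.normalizer (E : Set G) ∧
    Nonempty (↥E ≃* Matrix.SpecialLinearGroup (Fin 2) (ZMod p)) ∧
    Nat.card ↥(⁅V, E⁆) = p ^ 2 ∧ E ≤ H ∧ ⁅V, E⁆ ≤ V ∧
    ⁅V, E⁆ ⊓ Subgroup.centralizer (E : Set G) = ⊥ ∧
    E ⊓ (H ⊓ Subgroup.centralizer ((⁅V, E⁆ : Subgroup G) : Set G)) = ⊥ ∧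
    (∀ v ∈ V, ∃ f ∈ V ⊓ Subgroup.centralizer (E : Set G), ∃ w ∈ ⁅V, E⁆, v = f * w) := by
  obtain ⟨A, hAH, hA, hAV, hmin, rfl⟩ := hE
  obtain ⟨h1, h2, h3, h4, h5, h6, h7, h8, -⟩ := struct_main hS hS3 hAH hA hAV hmin
  have hEH : ⁅Q, A⁆ ⊔ A ≤ H := by
    conv_rhs => rw [← h8]
    exact le_sup_left
  have hWV : ⁅V, ⁅Q, A⁆ ⊔ A⁆ ≤ V := commutator_le_left_of_le_normalizer (hEH.trans hS.hHV)
  have hCE : H ⊓ Subgroup.centralizer ((⁅V, ⁅Q, A⁆ ⊔ A⁆ : Subgroup G) : Set G) ≤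
      Subgroup.centralizer ((⁅Q, A⁆ ⊔ A : Subgroup G) : Set G) :=
    Subgroup.le_centralizer_iff.mp (Subgroup.commutator_eq_bot_iff_le_centralizer.mp h6)
  refine ⟨h1, ?_, h2, h3, hEH, hWV, ?_, h7, ?_⟩
  · conv_lhs => rw [← h8]
    exact sup_le Subgroup.le_normalizer (hCE.trans (Subgroup.centralizer_le_normalizer _))
  · rw [eq_bot_iff, ← h4]
    exact le_inf inf_le_left (le_inf (inf_le_left.trans hWV) inf_le_right)
  · intro v hv
    have hv' : v ∈ ⁅V, ⁅Q, A⁆ ⊔ A⁆ ⊔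
        (V ⊓ Subgroup.centralizer ((⁅Q, A⁆ ⊔ A : Subgroup G) : Set G)) := by
      rw [h5]; exact hv
    have hVc := comm_V hS
    have hcomm : ∀ c ∈ ⁅V, ⁅Q, A⁆ ⊔ A⁆,
        ∀ r ∈ V ⊓ Subgroup.centralizer ((⁅Q, A⁆ ⊔ A : Subgroup G) : Set G), c * r = r * c :=
      fun c hc r hr => hVc c (hWV hc) r hr.1
    obtain ⟨w, hw, f, hf, rfl⟩ := mem_sup_comm hcomm hv'
    exact ⟨f, hf, w, hw, hcomm w hw f hf⟩

/-- Two distinct factors centralize each other, and each centralizes the plane of the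
other. -/
theorem fac_pair (hS : Setting p V H Q) {E E' : Subgroup G} (hE : IsFac p V H Q E)
    (hE' : IsFac p V H Q E') (hne : E ≠ E') :
    E' ≤ Subgroup.centralizer (E : Set G) ∧
      E' ≤ Subgroup.centralizer ((⁅V, E⁆ : Subgroup G) : Set G) := by
  obtain ⟨A, hAH, hA, hAV, hmin, rfl⟩ := hE
  obtain ⟨A', hAH', hA', hAV', hmin', rfl⟩ := hE'
  obtain ⟨a, d, b, e, α, β, hK, hEL⟩ := offender_pkg hS hAH hA hAV hmin
  obtain ⟨a', d', b', e', α', β', hK', hEL'⟩ := offender_pkg hS hAH' hA' hAV' hmin'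
  rw [hEL, hEL'] at hne ⊢
  rw [hK.hW]
  rcases pkg_pair hS hK hK' with h | h
  · exfalso
    obtain ⟨ψ, -⟩ := pkg_equiv hK
    obtain ⟨ψ', -⟩ := pkg_equiv hK'
    have hcard : Nat.card ↥(Subgroup.zpowers a ⊔ Subgroup.zpowers b) ≤
        Nat.card ↥(Subgroup.zpowers a' ⊔ Subgroup.zpowers b') := by
      rw [Nat.card_congr ψ.toEquiv, Nat.card_congr ψ'.toEquiv]
    exact hne (Subgroup.eq_of_le_of_card_ge h hcard).symm
  · exact h

/-- The structure theorem. -/
theorem struct_all (hS : Setting p V H Q)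
    (hS3 : H = ⨆ A : {A : Subgroup G // A ≤ H ∧ IsBestOffenderOn p V A}, (A : Subgroup G))
    (hH1 : H ≠ ⊥) :
    (p = 2 ∨ p = 3) ∧
    (∀ E : {E : Subgroup G // IsFac p V H Q E},
      H ≤ Subgroup.normalizer ((E : Subgroup G) : Set G) ∧
      Nonempty (↥(E : Subgroup G) ≃* Matrix.SpecialLinearGroup (Fin 2) (ZMod p)) ∧
      Nat.card ↥(⁅V, (E : Subgroup G)⁆) = p ^ 2) ∧
    iSupIndep (fun E : {E : Subgroup G // IsFac p V H Q E} => (E : Subgroup G)) ∧
    (⨆ E : {E : Subgroup G // IsFac p V H Q E}, (E : Subgroup G)) = H ∧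
    iSupIndep (fun o : Option {E : Subgroup G // IsFac p V H Q E} =>
      o.elim (V ⊓ Subgroup.centralizer (H : Set G)) (fun E => ⁅V, (E : Subgroup G)⁆)) ∧
    (V ⊓ Subgroup.centralizer (H : Set G)) ⊔
      (⨆ E : {E : Subgroup G // IsFac p V H Q E}, ⁅V, (E : Subgroup G)⁆) = V := by
  classical
  have hVc := comm_V hS
  have hfac := fun (E : {E : Subgroup G // IsFac p V H Q E}) => fac_facts hS hS3 E.2
  have hpair : ∀ E E' : {E : Subgroup G // IsFac p V H Q E}, E ≠ E' →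
      (E' : Subgroup G) ≤ Subgroup.centralizer ((E : Subgroup G) : Set G) ∧
      (E' : Subgroup G) ≤ Subgroup.centralizer ((⁅V, (E : Subgroup G)⁆ : Subgroup G) : Set G) :=
    fun E E' hne => fac_pair hS E.2 E'.2 (fun h => hne (Subtype.ext h))
  -- every best offender lies in the join of the factors
  have hcover : H ≤ ⨆ E : {E : Subgroup G // IsFac p V H Q E}, (E : Subgroup G) := by
    have h1 : ∀ B : {B : Subgroup G // B ≤ H ∧ IsBestOffenderOn p V B}, (B : Subgroup G) ≤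
        ⨆ E : {E : Subgroup G // IsFac p V H Q E}, (E : Subgroup G) := by
      rintro ⟨B, hBH, hB⟩
      obtain ⟨k, Bi, hBi, -, hsup⟩ := decomp hS (Nat.card B) B le_rfl hBH hB
      show B ≤ _
      rw [← hsup]
      apply iSup_le
      intro i
      obtain ⟨hBiB, hBio, hBic⟩ := hBi i
      have hBiH := hBiB.trans hBH
      obtain ⟨hBiV, hBimin⟩ := minimal_of_card hS hBiH hBic
      exact le_iSup_of_le (⟨⁅Q, Bi i⁆ ⊔ Bi i, Bi i, hBiH, hBio, hBiV, hBimin, rfl⟩ :
        {E : Subgroup G // IsFac p V H Q E}) le_sup_right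
    exact hS3.le.trans (iSup_le h1)
  have hsupE : (⨆ E : {E : Subgroup G // IsFac p V H Q E}, (E : Subgroup G)) = H :=
    le_antisymm (iSup_le (fun E => (hfac E).2.2.2.2.1)) hcover
  have hne : Nonempty {E : Subgroup G // IsFac p V H Q E} := by
    by_contra hcon
    rw [not_nonempty_iff] at hcon
    apply hH1
    rw [← hsupE, iSup_of_empty]
  obtain ⟨E₀⟩ := hne
  have hWL : ∀ E E' : {E : Subgroup G // IsFac p V H Q E}, E ≠ E' →
      ⁅V, (E' : Subgroup G)⁆ ≤ Subgroup.centralizer ((E : Subgroup G) : Set G) :=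
    fun E E' hne => Subgroup.le_centralizer_iff.mp (hpair E' E (Ne.symm hne)).2
  have hfin : Fintype {E : Subgroup G // IsFac p V H Q E} := Fintype.ofFinite _
  have huniv : (⨆ E : {E : Subgroup G // IsFac p V H Q E}, ⁅V, (E : Subgroup G)⁆) =
      ⨆ E ∈ (Finset.univ : Finset {E : Subgroup G // IsFac p V H Q E}),
        ⁅V, (E : Subgroup G)⁆ := by
    simp
  refine ⟨(hfac E₀).1, fun E => ⟨(hfac E).2.1, (hfac E).2.2.1, (hfac E).2.2.2.1⟩, ?_, hsupE,
    ?_, ?_⟩
  · intro E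
    rw [disjoint_iff_inf_le, ← (hfac E).2.2.2.2.2.2.2.1]
    refine le_inf inf_le_left (inf_le_right.trans ?_)
    exact iSup₂_le (fun E' hE' => le_inf (hfac E').2.2.2.2.1 (hpair E E' (Ne.symm hE')).2)
  · intro o
    cases o with
    | none =>
      rw [disjoint_iff_inf_le]
      intro v hv
      rw [Subgroup.mem_bot]
      obtain ⟨hv1, hv2⟩ := Subgroup.mem_inf.mp hv
      have hle : (⨆ (j : Option {E : Subgroup G // IsFac p V H Q E}) (_ : j ≠ none),
          j.elim (V ⊓ Subgroup.centralizer (H : Set G)) (fun E => ⁅V, (E : Subgroup G)⁆)) ≤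
          ⨆ E : {E : Subgroup G // IsFac p V H Q E}, ⁅V, (E : Subgroup G)⁆ := by
        apply iSup₂_le
        intro j hj
        cases j with
        | none => exact absurd rfl hj
        | some E => exact le_iSup (fun E : {E : Subgroup G // IsFac p V H Q E} =>
            ⁅V, (E : Subgroup G)⁆) E
      have hv3 := hle hv2
      rw [huniv] at hv3
      refine indep_aux (fun E : {E : Subgroup G // IsFac p V H Q E} => ⁅V, (E : Subgroup G)⁆)
        (fun E => (E : Subgroup G)) hVc (fun E => (hfac E).2.2.2.2.2.1) hWL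
        (fun E => (hfac E).2.2.2.2.2.2.1) Finset.univ v hv3 ?_
      intro E _
      exact Subgroup.centralizer_le (hfac E).2.2.2.2.1 hv1.2
    | some E =>
      rw [disjoint_iff_inf_le, ← (hfac E).2.2.2.2.2.2.1]
      refine le_inf inf_le_left (inf_le_right.trans ?_)
      apply iSup₂_le
      intro j hj
      cases j with
      | none =>
        exact inf_le_right.trans (Subgroup.centralizer_le (hfac E).2.2.2.2.1)
      | some E' =>
        exact hWL E E' (fun h => hj (by rw [h]))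
  · apply le_antisymm (sup_le inf_le_left (iSup_le (fun E => (hfac E).2.2.2.2.2.1)))
    intro v hv
    obtain ⟨f, hfV, hfC, s, hs, rfl⟩ := decomp_aux
      (fun E : {E : Subgroup G // IsFac p V H Q E} => ⁅V, (E : Subgroup G)⁆)
      (fun E => (E : Subgroup G)) hWL (fun E => (hfac E).2.2.2.2.2.2.2.2) Finset.univ v hv
    rw [← huniv] at hs
    refine Subgroup.mul_mem _ (Subgroup.mem_sup_left (Subgroup.mem_inf.mpr ⟨hfV, ?_⟩))
      (Subgroup.mem_sup_right hs)
    have hK : (⨆ E : {E : Subgroup G // IsFac p V H Q E}, (E : Subgroup G)) ≤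
        Subgroup.centralizer ((Subgroup.zpowers f : Subgroup G) : Set G) :=
      iSup_le (fun E => Subgroup.le_centralizer_iff.mp
        (Subgroup.zpowers_le.mpr (hfC E (Finset.mem_univ E))))
    rw [hsupE] at hK
    exact Subgroup.le_centralizer_iff.mp hK (Subgroup.mem_zpowers f)

end main

end Cfsg.Agent.Lib.Helper6.FFAll
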