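import Mathlib
import Cfsg.Prelude.Def_PLocal
import Cfsg.Prelude.Def_Transfer

/-! The faithful realization of the action of `G` on a normal abelian subgroup `V`: the
semidirect product of `V` with `G / C_G(V)`, and the transfer of best offenders to it. -/

set_option autoImplicit false

namespace Cfsg.Agent.Lib.Helper6.FFReal

open Cfsg

open scoped commutatorElement

universe u

variable {G : Type u} [Group G] (V : Subgroup G) [hVn : V.Normal]

/-- The conjugation action of `G / C_G(V)` on `V`. -/
noncomputable def actHom : G ⧸ Subgroup.centralizer (V : Set G) →* MulAut ↥V :=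
  QuotientGroup.lift (Subgroup.centralizer (V : Set G)) (MulAut.conjNormal (H := V)) (by
    intro g hg
    rw [MonoidHom.mem_ker]
    apply MulEquiv.ext
    intro v
    apply Subtype.ext
    rw [MulAut.conjNormal_apply, MulAut.one_apply]
    have h := Subgroup.mem_centralizer_iff.mp hg (v : G) v.2
    calc g * (v : G) * g⁻¹ = ((v : G) * g) * g⁻¹ := by rw [h]
      _ = v := by group)

/-- The faithful realization: the semidirect product of `V` with `G / C_G(V)`. -/
abbrev Real : Type u := ↥V ⋊[actHom V] (G ⧸ Subgroup.centralizer (V : Set G))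

/-- The canonical map from `G` to the realization. -/
noncomputable def rho : G →* Real V :=
  (SemidirectProduct.inr : (G ⧸ Subgroup.centralizer (V : Set G)) →* Real V).comp
    (QuotientGroup.mk' (Subgroup.centralizer (V : Set G)))

/-- The image of `V` in the realization. -/
noncomputable def Vimg : Subgroup (Real V) := (SemidirectProduct.inl : ↥V →* Real V).range

theorem finite_real [Finite G] : Finite (Real V) :=
  Finite.of_equiv _ (SemidirectProduct.equivProd (φ := actHom V)).symm

theorem rho_conj (g : G) (v : ↥V) :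
    rho V g * (SemidirectProduct.inl v : Real V) * (rho V g)⁻¹ =
      SemidirectProduct.inl (⟨g * (v : G) * g⁻¹, hVn.conj_mem _ v.2 g⟩ : ↥V) := by
  have h1 := SemidirectProduct.inl_aut (φ := actHom V)
    (QuotientGroup.mk' (Subgroup.centralizer (V : Set G)) g) v
  have h2 : (actHom V) (QuotientGroup.mk' (Subgroup.centralizer (V : Set G)) g) v =
      ⟨g * (v : G) * g⁻¹, hVn.conj_mem _ v.2 g⟩ := by
    apply Subtype.ext
    have h3 : (actHom V) (QuotientGroup.mk' (Subgroup.centralizer (V : Set G)) g) =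
        MulAut.conjNormal (H := V) g := by
      unfold actHom
      exact QuotientGroup.lift_mk _ _ g
    rw [h3, MulAut.conjNormal_apply]
  rw [← h2, h1]
  show SemidirectProduct.inr _ * _ * (SemidirectProduct.inr _)⁻¹ = _
  rw [map_inv]

theorem ker_rho : (rho V).ker = Subgroup.centralizer (V : Set G) := by
  ext g
  rw [MonoidHom.mem_ker]
  show (SemidirectProduct.inr (QuotientGroup.mk' (Subgroup.centralizer (V : Set G)) g) :
    Real V) = 1 ↔ _
  rw [map_eq_one_iff _ SemidirectProduct.inr_injective]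
  exact QuotientGroup.eq_one_iff g

theorem rho_eq_one {g : G} (hg : g ∈ Subgroup.centralizer (V : Set G)) : rho V g = 1 := by
  have h : g ∈ (rho V).ker := by rw [ker_rho]; exact hg
  exact h

theorem rho_comm_iff (k : G) (v : ↥V) :
    rho V k * (SemidirectProduct.inl v : Real V) = SemidirectProduct.inl v * rho V k ↔
      k * (v : G) = (v : G) * k := by
  constructor
  · intro h
    have h1 : rho V k * (SemidirectProduct.inl v : Real V) * (rho V k)⁻¹ =
        SemidirectProduct.inl v := by
      rw [h]; group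
    rw [rho_conj] at h1
    have h2 : k * (v : G) * k⁻¹ = v := congrArg Subtype.val (SemidirectProduct.inl_injective h1)
    calc k * (v : G) = (k * (v : G) * k⁻¹) * k := by group
      _ = (v : G) * k := by rw [h2]
  · intro h
    have h1 : rho V k * (SemidirectProduct.inl v : Real V) * (rho V k)⁻¹ =
        SemidirectProduct.inl v := by
      rw [rho_conj]
      congr 1
      apply Subtype.ext
      show k * (v : G) * k⁻¹ = v
      rw [h]; group
    calc rho V k * (SemidirectProduct.inl v : Real V)
        = (rho V k * (SemidirectProduct.inl v : Real V) * (rho V k)⁻¹) * rho V k := by group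
      _ = SemidirectProduct.inl v * rho V k := by rw [h1]

theorem Vimg_normal : (Vimg V).Normal := by
  unfold Vimg
  rw [SemidirectProduct.range_inl_eq_ker_rightHom]
  exact MonoidHom.normal_ker _

theorem Vimg_elementary {p : ℕ} (hV : IsElementaryAbelian p V) :
    IsElementaryAbelian p (Vimg V) := by
  have hc := hV.1
  refine ⟨⟨⟨?_⟩⟩, ?_⟩
  · rintro ⟨_, v, rfl⟩ ⟨_, w, rfl⟩
    apply Subtype.ext
    show (SemidirectProduct.inl v : Real V) * SemidirectProduct.inl w =
      SemidirectProduct.inl w * SemidirectProduct.inl v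
    rw [← map_mul, ← map_mul, mul_comm' v w]
  · rintro _ ⟨v, rfl⟩
    rw [← map_pow]
    have h1 : v ^ p = 1 := Subtype.ext (hV.2 v v.2)
    rw [h1, map_one]

/-- The image of any subgroup of `G` acts faithfully on the image of `V`. -/
theorem faithful (K : Subgroup G) :
    (K.map (rho V)) ⊓ Subgroup.centralizer ((Vimg V : Subgroup (Real V)) : Set (Real V)) = ⊥ := by
  rw [eq_bot_iff]
  rintro _ ⟨⟨g, hg, rfl⟩, hc⟩
  rw [Subgroup.mem_bot]
  apply rho_eq_one
  rw [Subgroup.mem_centralizer_iff]
  intro v hv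
  have h1 := Subgroup.mem_centralizer_iff.mp hc
    (SemidirectProduct.inl (⟨v, hv⟩ : ↥V)) ⟨_, rfl⟩
  exact ((rho_comm_iff V g ⟨v, hv⟩).mp h1.symm).symm

/-- Fixed points of the image of `K` on the image of `V`. -/
theorem card_fix (K : Subgroup G) :
    Nat.card ↥(Vimg V ⊓ Subgroup.centralizer
      ((K.map (rho V) : Subgroup (Real V)) : Set (Real V))) =
      Nat.card ↥(V ⊓ Subgroup.centralizer (K : Set G)) := by
  symm
  have hmem : ∀ x : ↥(V ⊓ Subgroup.centralizer (K : Set G)),
      (SemidirectProduct.inl (⟨(x : G), x.2.1⟩ : ↥V) : Real V) ∈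
        Vimg V ⊓ Subgroup.centralizer ((K.map (rho V) : Subgroup (Real V)) : Set (Real V)) := by
    intro x
    refine Subgroup.mem_inf.mpr ⟨⟨_, rfl⟩, ?_⟩
    rw [Subgroup.mem_centralizer_iff]
    rintro _ ⟨k, hk, rfl⟩
    rw [rho_comm_iff]
    exact Subgroup.mem_centralizer_iff.mp x.2.2 k hk
  apply Nat.card_eq_of_bijective (fun x => (⟨_, hmem x⟩ :
    ↥(Vimg V ⊓ Subgroup.centralizer ((K.map (rho V) : Subgroup (Real V)) : Set (Real V)))))
  constructor
  · intro x y h
    have h1 : (SemidirectProduct.inl (⟨(x : G), x.2.1⟩ : ↥V) : Real V) =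
        SemidirectProduct.inl (⟨(y : G), y.2.1⟩ : ↥V) := congrArg Subtype.val h
    have h2 : (⟨(x : G), x.2.1⟩ : ↥V) = ⟨(y : G), y.2.1⟩ :=
      SemidirectProduct.inl_injective (φ := actHom V) h1
    have h3 : (x : G) = (y : G) := congrArg (fun t : ↥V => (t : G)) h2
    exact Subtype.ext h3
  · rintro ⟨y, hy⟩
    obtain ⟨⟨v, rfl⟩, hyc⟩ := Subgroup.mem_inf.mp hy
    refine ⟨⟨(v : G), Subgroup.mem_inf.mpr ⟨v.2, ?_⟩⟩, ?_⟩
    · rw [Subgroup.mem_centralizer_iff]
      intro k hk
      have h1 := Subgroup.mem_centralizer_iff.mp hyc (rho V k) (Subgroup.mem_map_of_mem _ hk)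
      exact (rho_comm_iff V k v).mp h1
    · rfl

theorem card_map_rho [Finite G] (K : Subgroup G) :
    Nat.card ↥(K.map (rho V)) * Nat.card ↥(K ⊓ Subgroup.centralizer (V : Set G)) =
      Nat.card K := by
  have h1 := Subgroup.relIndex_ker K (rho V)
  rw [ker_rho] at h1
  rw [← h1]
  have h2 := Subgroup.relIndex_mul_relIndex ⊥ (K ⊓ Subgroup.centralizer (V : Set G)) K bot_le
    inf_le_left
  rw [Subgroup.relIndex_bot_left, Subgroup.relIndex_bot_left, inf_comm,
    Subgroup.inf_relIndex_right] at h2
  rw [mul_comm, inf_comm]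
  exact h2

/-- Best offenders on `V` map to best offenders on the image of `V`. -/
theorem bestOffender_map [Finite G] {p : ℕ} {A : Subgroup G} (hA : IsBestOffenderOn p V A) :
    IsBestOffenderOn p (Vimg V) (A.map (rho V)) := by
  obtain ⟨h1, h2, h3⟩ := hA
  refine ⟨?_, ?_, ?_⟩
  · intro B' hB'
    obtain ⟨B, hBdef⟩ : ∃ B : Subgroup G, B = A ⊓ B'.comap (rho V) := ⟨_, rfl⟩
    have hBA : B ≤ A := hBdef ▸ inf_le_left
    have hBmap : B.map (rho V) = B' := by
      apply le_antisymm
      · rintro _ ⟨b, hb, rfl⟩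
        rw [hBdef] at hb
        exact hb.2
      · intro y hy
        obtain ⟨a, ha, rfl⟩ := hB' hy
        exact ⟨a, by rw [hBdef]; exact ⟨ha, hy⟩, rfl⟩
    have hBC : B ⊓ Subgroup.centralizer (V : Set G) = A ⊓ Subgroup.centralizer (V : Set G) := by
      apply le_antisymm (inf_le_inf_right _ hBA)
      intro g hg
      obtain ⟨hgA, hgC⟩ := Subgroup.mem_inf.mp hg
      refine Subgroup.mem_inf.mpr ⟨?_, hgC⟩
      rw [hBdef]
      refine Subgroup.mem_inf.mpr ⟨hgA, ?_⟩
      rw [Subgroup.mem_comap, rho_eq_one V hgC]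
      exact B'.one_mem
    have e1 := card_map_rho V B
    have e2 := card_map_rho V A
    have e3 := card_fix V B
    have e4 := card_fix V A
    have e5 := h1 B hBA
    rw [hBmap] at e1 e3
    rw [hBC] at e1
    rw [e3, e4]
    have hpos : 0 < Nat.card ↥(A ⊓ Subgroup.centralizer (V : Set G)) := Nat.card_pos
    apply Nat.le_of_mul_le_mul_left _ hpos
    calc Nat.card ↥(A ⊓ Subgroup.centralizer (V : Set G)) *
          (Nat.card ↥B' * Nat.card ↥(V ⊓ Subgroup.centralizer (B : Set G)))
        = (Nat.card ↥B' * Nat.card ↥(A ⊓ Subgroup.centralizer (V : Set G))) *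
            Nat.card ↥(V ⊓ Subgroup.centralizer (B : Set G)) := by ring
      _ = Nat.card B * Nat.card ↥(V ⊓ Subgroup.centralizer (B : Set G)) := by rw [e1]
      _ ≤ Nat.card A * Nat.card ↥(V ⊓ Subgroup.centralizer (A : Set G)) := e5
      _ = (Nat.card ↥(A.map (rho V)) * Nat.card ↥(A ⊓ Subgroup.centralizer (V : Set G))) *
            Nat.card ↥(V ⊓ Subgroup.centralizer (A : Set G)) := by rw [e2]
      _ = Nat.card ↥(A ⊓ Subgroup.centralizer (V : Set G)) *
          (Nat.card ↥(A.map (rho V)) * Nat.card ↥(V ⊓ Subgroup.centralizer (A : Set G))) := by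
        ring
  · rw [← Subgroup.map_commutator]
    rintro _ ⟨g, hg, rfl⟩
    rw [rho_eq_one V (h2 hg)]
    exact Subgroup.one_mem _
  · rintro _ ⟨a, ha, rfl⟩
    rw [← map_pow, rho_eq_one V (h3 a ha)]
    exact Subgroup.one_mem _

end Cfsg.Agent.Lib.Helper6.FFReal
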