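import Mathlib
import Cfsg.Agent.Lib.Helper6.FFAll
import Cfsg.Agent.Lib.Helper6.FFReal
import Cfsg.Agent.Lib.Helper6.PSolv4
import Cfsg.Agent.S0601
import Cfsg.Agent.S0602
import Cfsg.Agent.S0606
import Cfsg.Agent.S0608

/-! Failure of the Thompson factorization in `p`-solvable groups: `p ≤ 3` and `J(G)` induces
a group containing a normal `SL₂(p)` on the normal closure of `Ω₁(Z(S))`. -/

set_option autoImplicit false

namespace Cfsg.Agent.Lib.Helper6.FFThompson

open Cfsg
open Cfsg.Agent.Lib.Helper6
open Cfsg.Agent.Lib.Helper6.BestOff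
open Cfsg.Agent.Lib.Helper6.FFAll
open Cfsg.Agent.Lib.Helper6.FFReal
open Cfsg.Agent.Lib.Helper14

open scoped commutatorElement

universe u

/-- Failure of factorization, abstract form: a normal subgroup `J` generated by best offenders
on a normal elementary abelian `p`-subgroup `V` of a `p`-solvable group with no normal
`p`-subgroup modulo `C_G(V)`, not centralizing `V`, induces a group containing a normal
`SL₂(p)`. -/
theorem ff_abstract {G : Type u} [Group G] [Finite G] {p : ℕ} [hp : Fact p.Prime]
    (hsep : IsPSolvable p G) (V : Subgroup G) [hVn : V.Normal] (hV : IsElementaryAbelian p V)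
    (hVmin : ∀ D : Subgroup G, D.Normal → Subgroup.centralizer (V : Set G) ≤ D →
      (∃ k : ℕ, (Subgroup.centralizer (V : Set G)).relIndex D = p ^ k) →
      D = Subgroup.centralizer (V : Set G))
    (J : Subgroup G) [hJn : J.Normal] (𝒜 : Set (Subgroup G)) (hJ : J = sSup 𝒜)
    (hoff : ∀ A ∈ 𝒜, IsBestOffenderOn p V A)
    (hJC : ¬ J ≤ Subgroup.centralizer (V : Set G)) :
    (p = 2 ∨ p = 3) ∧ ∃ E : Subgroup G, Subgroup.centralizer (V : Set G) ≤ E ∧
      E ≤ J ⊔ Subgroup.centralizer (V : Set G) ∧
      J ⊔ Subgroup.centralizer (V : Set G) ≤ Subgroup.normalizer (E : Set G) ∧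
      ∃ hn : ((Subgroup.centralizer (V : Set G)).subgroupOf E).Normal,
        Nonempty ((↥E ⧸ (Subgroup.centralizer (V : Set G)).subgroupOf E) ≃*
          Matrix.SpecialLinearGroup (Fin 2) (ZMod p)) := by
  classical
  have hfin : Finite (Real V) := finite_real V
  have hπ : Function.Surjective (QuotientGroup.mk' (Subgroup.centralizer (V : Set G))) :=
    QuotientGroup.mk'_surjective _
  obtain ⟨Hb, hHb⟩ : ∃ Hb : Subgroup (G ⧸ Subgroup.centralizer (V : Set G)),
      Hb = J.map (QuotientGroup.mk' (Subgroup.centralizer (V : Set G))) := ⟨_, rfl⟩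
  have hHbn : Hb.Normal := by
    rw [hHb]
    exact hJn.map _ hπ
  have hsolHb : IsPSolvable p ↥Hb :=
    isPSolvable_subgroup hp.out Hb (isPSolvable_quotient hp.out _ hsep)
  have hOpHb : pCore p ↥Hb = ⊥ := by
    have hPn : ((pCore p ↥Hb).map Hb.subtype).Normal := pCore_map_subtype_normal Hb
    have hPp : IsPGroup p ↥((pCore p ↥Hb).map Hb.subtype) := (pCore_isPGroup p).map _
    obtain ⟨k, hk⟩ := IsPGroup.iff_card.mp hPp
    have hD := hVmin (((pCore p ↥Hb).map Hb.subtype).comap
      (QuotientGroup.mk' (Subgroup.centralizer (V : Set G)))) (hPn.comap _) ?_ ⟨k, ?_⟩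
    · rw [eq_bot_iff]
      intro x hx
      rw [Subgroup.mem_bot]
      apply Subtype.ext
      obtain ⟨g, hg⟩ := hπ (x : G ⧸ Subgroup.centralizer (V : Set G))
      have hgD : g ∈ ((pCore p ↥Hb).map Hb.subtype).comap
          (QuotientGroup.mk' (Subgroup.centralizer (V : Set G))) := by
        rw [Subgroup.mem_comap, hg]
        exact ⟨x, hx, rfl⟩
      rw [hD] at hgD
      rw [Subgroup.coe_one, ← hg]
      exact (QuotientGroup.eq_one_iff g).mpr hgD
    · intro g hg
      rw [Subgroup.mem_comap]
      have h1 : QuotientGroup.mk' (Subgroup.centralizer (V : Set G)) g = 1 :=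
        (QuotientGroup.eq_one_iff g).mpr hg
      rw [h1]
      exact Subgroup.one_mem _
    · have h1 := Subgroup.relIndex_ker (((pCore p ↥Hb).map Hb.subtype).comap
        (QuotientGroup.mk' (Subgroup.centralizer (V : Set G))))
        (QuotientGroup.mk' (Subgroup.centralizer (V : Set G)))
      rw [QuotientGroup.ker_mk', Subgroup.map_comap_eq_self_of_surjective hπ] at h1
      rw [h1, hk]
  -- transfer to the realization
  obtain ⟨H', hH'⟩ : ∃ H' : Subgroup (Real V), H' = Hb.map
      (SemidirectProduct.inr : (G ⧸ Subgroup.centralizer (V : Set G)) →* Real V) := ⟨_, rfl⟩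
  have hH'map : H' = J.map (rho V) := by
    rw [hH', hHb, Subgroup.map_map]
    rfl
  have hsolH' : IsPSolvable p ↥H' := by
    rw [hH']
    exact isPSolvable_of_mulEquiv hp.out
      (Hb.equivMapOfInjective _ SemidirectProduct.inr_injective) hsolHb
  have hOpH' : pCore p ↥H' = ⊥ := by
    rw [hH']
    have h1 := pCore_comap_mulEquiv (p := p)
      (Hb.equivMapOfInjective (SemidirectProduct.inr :
        (G ⧸ Subgroup.centralizer (V : Set G)) →* Real V) SemidirectProduct.inr_injective)
    rw [hOpHb] at h1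
    rw [eq_bot_iff]
    intro x hx
    rw [Subgroup.mem_bot]
    obtain ⟨y, rfl⟩ := (Hb.equivMapOfInjective (SemidirectProduct.inr :
      (G ⧸ Subgroup.centralizer (V : Set G)) →* Real V)
      SemidirectProduct.inr_injective).surjective x
    have h2 : y ∈ (⊥ : Subgroup ↥Hb) := by
      rw [← h1, Subgroup.mem_comap]
      exact hx
    rw [Subgroup.mem_bot] at h2
    rw [h2, map_one]
  have hS1' : Subgroup.centralizer (pPrimeCore p ↥H' : Set ↥H') ≤ pPrimeCore p ↥H' :=
    centralizer_pPrimeCore_le_of_isPSolvable hsolH' hOpH'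
  have hHV' : H' ≤ Subgroup.normalizer ((Vimg V : Subgroup (Real V)) : Set (Real V)) := by
    rw [Subgroup.normalizer_eq_top_iff.mpr (Vimg_normal V)]
    exact le_top
  have hf' : H' ⊓ Subgroup.centralizer ((Vimg V : Subgroup (Real V)) : Set (Real V)) = ⊥ := by
    rw [hH'map]
    exact faithful V J
  have hS' := setting_of (Vimg V) H' (Vimg_elementary V hV) hHV' hf' hS1'
  have hAle : ∀ A ∈ 𝒜, A.map (rho V) ≤ H' := by
    intro A hA
    rw [hH'map]
    apply Subgroup.map_mono
    rw [hJ]
    exact le_sSup hA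
  have hS3' : H' = ⨆ A' : {A' : Subgroup (Real V) // A' ≤ H' ∧
      IsBestOffenderOn p (Vimg V) A'}, (A' : Subgroup (Real V)) := by
    apply le_antisymm ?_ (iSup_le (fun A' => A'.2.1))
    have h1 : H' = ⨆ A : 𝒜, (A : Subgroup G).map (rho V) := by
      rw [hH'map, hJ, sSup_eq_iSup', Subgroup.map_iSup]
    conv_lhs => rw [h1]
    exact iSup_le (fun A => le_iSup_of_le (⟨(A : Subgroup G).map (rho V), hAle A A.2,
      bestOffender_map V (hoff A A.2)⟩ : {A' : Subgroup (Real V) // A' ≤ H' ∧
        IsBestOffenderOn p (Vimg V) A'}) le_rfl)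
  have hH1' : H' ≠ ⊥ := by
    intro h
    apply hJC
    intro j hj
    have h1 : rho V j ∈ H' := by
      rw [hH'map]
      exact Subgroup.mem_map_of_mem _ hj
    rw [h, Subgroup.mem_bot] at h1
    rw [← ker_rho V]
    exact h1
  obtain ⟨hp23, hEall, -, hsupE, -, -⟩ := struct_all hS' hS3' hH1'
  have hne : Nonempty {E : Subgroup (Real V) // IsFac p (Vimg V) H'
      ((pPrimeCore p ↥H').map H'.subtype) E} := by
    by_contra hcon
    rw [not_nonempty_iff] at hcon
    apply hH1'
    rw [← hsupE, iSup_of_empty]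
  obtain ⟨E'⟩ := hne
  obtain ⟨hE'N, ⟨ψ⟩, -⟩ := hEall E'
  have hE'H : (E' : Subgroup (Real V)) ≤ H' :=
    (le_iSup (fun E : {E : Subgroup (Real V) // IsFac p (Vimg V) H'
      ((pPrimeCore p ↥H').map H'.subtype) E} => (E : Subgroup (Real V))) E').trans hsupE.le
  refine ⟨hp23, (E' : Subgroup (Real V)).comap (rho V), ?_, ?_, ?_, ?_⟩
  · intro g hg
    rw [Subgroup.mem_comap, rho_eq_one V hg]
    exact Subgroup.one_mem _
  · intro g hg
    have h1 : rho V g ∈ J.map (rho V) := by
      rw [← hH'map]
      exact hE'H (Subgroup.mem_comap.mp hg)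
    obtain ⟨j, hj, hjg⟩ := h1
    have h2 : j⁻¹ * g ∈ Subgroup.centralizer (V : Set G) := by
      rw [← ker_rho V, MonoidHom.mem_ker, map_mul, map_inv, hjg, inv_mul_cancel]
    have h3 : g = j * (j⁻¹ * g) := by group
    rw [h3]
    exact Subgroup.mul_mem _ (Subgroup.mem_sup_left hj) (Subgroup.mem_sup_right h2)
  · refine le_trans ?_ (Subgroup.le_normalizer_comap (rho V))
    refine sup_le ?_ ?_
    · intro j hj
      rw [Subgroup.mem_comap]
      apply hE'N
      rw [hH'map]
      exact Subgroup.mem_map_of_mem _ hj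
    · intro c hc
      rw [Subgroup.mem_comap, rho_eq_one V hc]
      exact Subgroup.one_mem _
  · have hsurj : Function.Surjective ((rho V).subgroupComap (E' : Subgroup (Real V))) := by
      rintro ⟨y, hy⟩
      have h1 : y ∈ J.map (rho V) := by
        rw [← hH'map]
        exact hE'H hy
      obtain ⟨j, hj, rfl⟩ := h1
      exact ⟨⟨j, Subgroup.mem_comap.mpr hy⟩, rfl⟩
    have hker : ((rho V).subgroupComap (E' : Subgroup (Real V))).ker =
        (Subgroup.centralizer (V : Set G)).subgroupOf
          ((E' : Subgroup (Real V)).comap (rho V)) := by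
      ext x
      rw [MonoidHom.mem_ker, Subgroup.mem_subgroupOf]
      have h1 : (x : G) ∈ (rho V).ker ↔ (x : G) ∈ Subgroup.centralizer (V : Set G) := by
        rw [ker_rho V]
      constructor
      · intro h
        exact h1.mp (congrArg Subtype.val h)
      · intro h
        exact Subtype.ext (h1.mpr h)
    have hn : ((Subgroup.centralizer (V : Set G)).subgroupOf
        ((E' : Subgroup (Real V)).comap (rho V))).Normal := by
      rw [← hker]
      infer_instance
    exact ⟨hn, ⟨(QuotientGroup.quotientMulEquivOfEq hker.symm).trans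
      ((QuotientGroup.quotientKerEquivOfSurjective _ hsurj).trans ψ)⟩⟩

/-- The centralizer of a union of subgroups is the centralizer of their join. -/
theorem centralizer_iSup_coe {G : Type u} [Group G] {ι : Sort*} (X : ι → Subgroup G) :
    Subgroup.centralizer (⨆ i, (X i : Set G)) =
      Subgroup.centralizer ((⨆ i, X i : Subgroup G) : Set G) := by
  apply le_antisymm
  · intro g hg
    rw [Subgroup.mem_centralizer_iff] at hg ⊢
    intro x hx
    have hle : (⨆ i, X i : Subgroup G) ≤ Subgroup.centralizer ({g} : Set G) := by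
      apply iSup_le
      intro i y hy
      rw [Subgroup.mem_centralizer_iff]
      intro h hh
      rw [Set.mem_singleton_iff] at hh
      rw [hh]
      have hy' : y ∈ ⨆ i, (X i : Set G) := by
        rw [Set.iSup_eq_iUnion, Set.mem_iUnion]
        exact ⟨i, hy⟩
      exact (hg y hy').symm
    exact (Subgroup.mem_centralizer_iff.mp (hle hx) g (Set.mem_singleton g)).symm
  · apply Subgroup.centralizer_le
    intro y hy
    rw [Set.iSup_eq_iUnion, Set.mem_iUnion] at hy
    obtain ⟨i, hi⟩ := hy
    exact (le_iSup X i) hi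

/-- Failure of the Thompson factorization in a `p`-solvable group with trivial `p'`-core. -/
theorem thompson_ff {G : Type u} [Group G] [Finite G] {p : ℕ} [hp : Fact p.Prime]
    (hsep : IsPSolvable p G) (hO : pPrimeCore p G = ⊥) (hnf : ¬ IsThompsonFactorizable p G) :
    (p = 2 ∨ p = 3) ∧ ∃ E : Subgroup G,
      Subgroup.centralizer (((⨆ S : Sylow p G, omegaOne p ((S : Subgroup G) ⊓
        Subgroup.centralizer ((S : Subgroup G) : Set G))) : Subgroup G) : Set G) ≤ E ∧
      E ≤ thompsonSubgroup p G ⊔ Subgroup.centralizer (((⨆ S : Sylow p G,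
        omegaOne p ((S : Subgroup G) ⊓ Subgroup.centralizer ((S : Subgroup G) : Set G))) :
          Subgroup G) : Set G) ∧
      thompsonSubgroup p G ⊔ Subgroup.centralizer (((⨆ S : Sylow p G,
        omegaOne p ((S : Subgroup G) ⊓ Subgroup.centralizer ((S : Subgroup G) : Set G))) :
          Subgroup G) : Set G) ≤
        Subgroup.normalizer (E : Set G) ∧
      ∃ hn : ((Subgroup.centralizer (((⨆ S : Sylow p G, omegaOne p ((S : Subgroup G) ⊓
          Subgroup.centralizer ((S : Subgroup G) : Set G))) : Subgroup G) : Set G)).subgroupOf E).Normal,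
        Nonempty ((↥E ⧸ (Subgroup.centralizer (((⨆ S : Sylow p G, omegaOne p ((S : Subgroup G) ⊓
          Subgroup.centralizer ((S : Subgroup G) : Set G))) : Subgroup G) : Set G)).subgroupOf E) ≃*
          Matrix.SpecialLinearGroup (Fin 2) (ZMod p)) := by
  have hc := centralizer_pCore_le_of_isPSolvable hsep hO
  obtain ⟨hVn, hVe, hVmin⟩ := Cfsg.Agent.S0601.result (p := p) hc
  have hJC : ¬ thompsonSubgroup p G ≤ Subgroup.centralizer (((⨆ S : Sylow p G,
      omegaOne p ((S : Subgroup G) ⊓ Subgroup.centralizer ((S : Subgroup G) : Set G))) :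
        Subgroup G) : Set G) :=
    fun h => hnf ((Cfsg.Agent.S0608.result hO).mpr h)
  have hJchar : (thompsonSubgroup p G).Characteristic :=
    (Cfsg.Agent.S0602.result (G := G) (p := p)).1
  have hJn : (thompsonSubgroup p G).Normal := Subgroup.normal_of_characteristic _
  exact ff_abstract hsep _ hVe hVmin (thompsonSubgroup p G) (maxElementaryAbelianSubgroups p G)
    rfl (fun A hA => Cfsg.Agent.S0606.result _ hVe A hA) hJC

end Cfsg.Agent.Lib.Helper6.FFThompson
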