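import Mathlib
import Cfsg.Agent.Lib.Helper6.FFThompson

/-! In a `p`-solvable group with `O_p(G / C_G(V)) = 1` for a normal elementary abelian
`p`-subgroup `V`: best offenders on `V` satisfy the order formula, and
`[Ω₁(Z(J(C_G(V)))), J(G)] ≤ V`. -/

set_option autoImplicit false

namespace Cfsg.Agent.Lib.Helper6.FFOmega

open Cfsg
open Cfsg.Agent.Lib.Helper6
open Cfsg.Agent.Lib.Helper6.BestOff
open Cfsg.Agent.Lib.Helper6.FFReal
open Cfsg.Agent.Lib.Helper14

open scoped commutatorElement

universe u

variable {G : Type u} [Group G]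

theorem omegaOne_le_self (p : ℕ) (Z : Subgroup G) : omegaOne p Z ≤ Z := by
  unfold omegaOne
  rw [Subgroup.closure_le]
  intro x hx
  exact hx.1

theorem omegaOne_normal (p : ℕ) (Z : Subgroup G) [hZ : Z.Normal] : (omegaOne p Z).Normal := by
  constructor
  intro n hn g
  unfold omegaOne at hn ⊢
  induction hn using Subgroup.closure_induction with
  | mem x hx =>
    apply Subgroup.subset_closure
    refine ⟨hZ.conj_mem x hx.1 g, ?_⟩
    rw [conj_pow, hx.2, mul_one, mul_inv_cancel]
  | one =>
    rw [mul_one, mul_inv_cancel]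
    exact Subgroup.one_mem _
  | mul x y _ _ hx hy =>
    have h : g * (x * y) * g⁻¹ = (g * x * g⁻¹) * (g * y * g⁻¹) := by group
    rw [h]
    exact Subgroup.mul_mem _ hx hy
  | inv x _ hx =>
    have h : g * x⁻¹ * g⁻¹ = (g * x * g⁻¹)⁻¹ := by group
    rw [h]
    exact Subgroup.inv_mem _ hx

theorem omegaOne_ea (p : ℕ) (Z : Subgroup G) (hZ : ∀ a ∈ Z, ∀ b ∈ Z, a * b = b * a) :
    IsElementaryAbelian p (omegaOne p Z) := by
  let T : Subgroup G :=
    { carrier := {x | x ∈ Z ∧ x ^ p = 1}
      one_mem' := ⟨Z.one_mem, one_pow p⟩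
      mul_mem' := by
        rintro a b ⟨ha, hap⟩ ⟨hb, hbp⟩
        refine ⟨Z.mul_mem ha hb, ?_⟩
        have hc : Commute a b := hZ a ha b hb
        rw [hc.mul_pow, hap, hbp, one_mul]
      inv_mem' := by
        rintro a ⟨ha, hap⟩
        exact ⟨Z.inv_mem ha, by rw [inv_pow, hap, inv_one]⟩ }
  have hle : omegaOne p Z ≤ T := by
    unfold omegaOne
    rw [Subgroup.closure_le]
    intro x hx
    exact hx
  have hT : IsElementaryAbelian p T :=
    ⟨IsMulCommutative.of_setLike_mul_comm (fun a ha b hb => hZ a ha.1 b hb.1), fun a ha => ha.2⟩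
  exact ea_mono hT hle

/-- Commutators into a normal subgroup, via the quotient. -/
theorem commutator_le_iff_le_comap (V W A : Subgroup G) [V.Normal] :
    ⁅W, A⁆ ≤ V ↔ A ≤ (Subgroup.centralizer ((W.map (QuotientGroup.mk' V) :
      Subgroup (G ⧸ V)) : Set (G ⧸ V))).comap (QuotientGroup.mk' V) := by
  constructor
  · intro h a ha
    rw [Subgroup.mem_comap, Subgroup.mem_centralizer_iff]
    rintro _ ⟨w, hw, rfl⟩
    have h1 : ⁅w, a⁆ ∈ V := h (Subgroup.commutator_mem_commutator hw ha)
    have h2 : QuotientGroup.mk' V ⁅w, a⁆ = 1 := (QuotientGroup.eq_one_iff _).mpr h1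
    rw [map_commutatorElement, commutatorElement_eq_one_iff_mul_comm] at h2
    exact h2
  · intro h
    rw [Subgroup.commutator_le]
    intro w hw a ha
    have h1 := Subgroup.mem_centralizer_iff.mp (Subgroup.mem_comap.mp (h ha)) _
      (Subgroup.mem_map_of_mem _ hw)
    have h2 : QuotientGroup.mk' V ⁅w, a⁆ = 1 := by
      rw [map_commutatorElement, commutatorElement_eq_one_iff_mul_comm]
      exact h1
    exact (QuotientGroup.eq_one_iff _).mp h2

theorem commutator_sSup_le (V W : Subgroup G) [V.Normal] (𝒜 : Set (Subgroup G))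
    (h : ∀ A ∈ 𝒜, ⁅W, A⁆ ≤ V) : ⁅W, sSup 𝒜⁆ ≤ V := by
  rw [commutator_le_iff_le_comap]
  exact sSup_le (fun A hA => (commutator_le_iff_le_comap V W A).mp (h A hA))

theorem commutator_sup_le (V X A : Subgroup G) [V.Normal]
    (hX : X ≤ Subgroup.centralizer (A : Set G)) : ⁅V ⊔ X, A⁆ ≤ V := by
  rw [Subgroup.commutator_comm, commutator_le_iff_le_comap]
  refine sup_le ?_ ?_
  · exact (commutator_le_iff_le_comap V A V).mp (Subgroup.commutator_le_right A V)
  · refine (commutator_le_iff_le_comap V A X).mp ?_
    rw [Subgroup.commutator_comm, Subgroup.commutator_eq_bot_iff_le_centralizer.mpr hX]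
    exact bot_le

/-- The setting in the realization for the whole group. -/
theorem setting_top [Finite G] {p : ℕ} [hp : Fact p.Prime] (hsep : IsPSolvable p G)
    (V : Subgroup G) [hVn : V.Normal] (hV : IsElementaryAbelian p V)
    (hO : pCore p (G ⧸ Subgroup.centralizer (V : Set G)) = ⊥) :
    Setting p (Vimg V) ((rho V).range)
      ((pPrimeCore p ↥(rho V).range).map (rho V).range.subtype) := by
  have hfin : Finite (Real V) := finite_real V
  obtain ⟨e⟩ : Nonempty ((G ⧸ Subgroup.centralizer (V : Set G)) ≃* ↥(rho V).range) :=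
    ⟨(QuotientGroup.quotientMulEquivOfEq (ker_rho V).symm).trans
      (QuotientGroup.quotientKerEquivRange (rho V))⟩
  have hsol : IsPSolvable p ↥(rho V).range :=
    isPSolvable_of_mulEquiv hp.out e (isPSolvable_quotient hp.out _ hsep)
  have hOp : pCore p ↥(rho V).range = ⊥ := by
    have h1 := pCore_comap_mulEquiv (p := p) e
    rw [hO] at h1
    rw [eq_bot_iff]
    intro x hx
    rw [Subgroup.mem_bot]
    obtain ⟨y, rfl⟩ := e.surjective x
    have h2 : y ∈ (⊥ : Subgroup (G ⧸ Subgroup.centralizer (V : Set G))) := by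
      rw [← h1, Subgroup.mem_comap]
      exact hx
    rw [Subgroup.mem_bot] at h2
    rw [h2, map_one]
  have hS1 := centralizer_pPrimeCore_le_of_isPSolvable hsol hOp
  have hHV : (rho V).range ≤ Subgroup.normalizer ((Vimg V : Subgroup (Real V)) : Set (Real V)) := by
    rw [Subgroup.normalizer_eq_top_iff.mpr (Vimg_normal V)]
    exact le_top
  have hf : (rho V).range ⊓
      Subgroup.centralizer ((Vimg V : Subgroup (Real V)) : Set (Real V)) = ⊥ := by
    rw [MonoidHom.range_eq_map]
    exact faithful V ⊤
  exact setting_of (Vimg V) _ (Vimg_elementary V hV) hHV hf hS1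

theorem card_Vimg (V : Subgroup G) [hVn : V.Normal] : Nat.card ↥(Vimg V) = Nat.card V :=
  (Nat.card_congr (MonoidHom.ofInjective
    (f := (SemidirectProduct.inl : ↥V →* Real V)) SemidirectProduct.inl_injective).toEquiv).symm

/-- The order formula for best offenders not centralizing `V`. -/
theorem card_offender [Finite G] {p : ℕ} [hp : Fact p.Prime] (hsep : IsPSolvable p G)
    (V : Subgroup G) [hVn : V.Normal] (hV : IsElementaryAbelian p V)
    (hO : pCore p (G ⧸ Subgroup.centralizer (V : Set G)) = ⊥) {A : Subgroup G}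
    (hA : IsBestOffenderOn p V A) (hAC : ¬ A ≤ Subgroup.centralizer (V : Set G)) :
    Nat.card A * Nat.card ↥(V ⊓ Subgroup.centralizer (A : Set G)) =
      Nat.card V * Nat.card ↥(A ⊓ Subgroup.centralizer (V : Set G)) := by
  have hfin : Finite (Real V) := finite_real V
  have hS := setting_top hsep V hV hO
  have hA' := bestOffender_map V hA
  have hle : A.map (rho V) ≤ (rho V).range := by
    rintro _ ⟨a, -, rfl⟩
    exact ⟨a, rfl⟩
  have hne : A.map (rho V) ≠ ⊥ := by
    intro h
    apply hAC
    intro a ha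
    have h1 : rho V a ∈ A.map (rho V) := Subgroup.mem_map_of_mem _ ha
    rw [h, Subgroup.mem_bot] at h1
    rw [← ker_rho V]
    exact h1
  have h1 := card_formula hS _ (A.map (rho V)) le_rfl hle hA' hne
  rw [card_fix V A, card_Vimg V] at h1
  have h2 := card_map_rho V A
  rw [← h2, ← h1]
  ring

/-- `[Ω₁(Z(J(C_G(V)))), J(G)] ≤ V`. -/
theorem omega_main [Finite G] {p : ℕ} [hp : Fact p.Prime] (hsep : IsPSolvable p G)
    (V : Subgroup G) [hVn : V.Normal] (hV : IsElementaryAbelian p V)
    (hO : pCore p (G ⧸ Subgroup.centralizer (V : Set G)) = ⊥) :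
    ⁅omegaOne p (centerThompsonOf p (Subgroup.centralizer (V : Set G))),
      thompsonSubgroup p G⁆ ≤ V := by
  classical
  have hVcomm : ∀ x ∈ V, ∀ y ∈ V, x * y = y * x := by
    intro x hx y hy
    have := hV.1
    exact congrArg Subtype.val (mul_comm' (⟨x, hx⟩ : V) ⟨y, hy⟩)
  have hVC : V ≤ Subgroup.centralizer (V : Set G) := by
    intro v hv
    rw [Subgroup.mem_centralizer_iff]
    intro w hw
    exact hVcomm w hw v hv
  have hJchar : (thompsonSubgroup p ↥(Subgroup.centralizer (V : Set G))).Characteristic :=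
    (Cfsg.Agent.S0602.result (G := ↥(Subgroup.centralizer (V : Set G))) (p := p)).1
  have hJCn : (thompsonSubgroupOf p (Subgroup.centralizer (V : Set G))).Normal := by
    unfold thompsonSubgroupOf
    exact ConjAct.normal_of_characteristic_of_normal
  have hJCle : thompsonSubgroupOf p (Subgroup.centralizer (V : Set G)) ≤
      Subgroup.centralizer (V : Set G) := by
    unfold thompsonSubgroupOf
    exact Subgroup.map_subtype_le _
  have hZCn : (centerThompsonOf p (Subgroup.centralizer (V : Set G))).Normal := by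
    unfold centerThompsonOf
    infer_instance
  have hZCcomm : ∀ a ∈ centerThompsonOf p (Subgroup.centralizer (V : Set G)),
      ∀ b ∈ centerThompsonOf p (Subgroup.centralizer (V : Set G)), a * b = b * a := by
    intro a ha b hb
    exact Subgroup.mem_centralizer_iff.mp hb.2 a ha.1
  obtain ⟨W, hW⟩ : ∃ W : Subgroup G,
    W = omegaOne p (centerThompsonOf p (Subgroup.centralizer (V : Set G))) := ⟨_, rfl⟩
  have hWn : W.Normal := by
    rw [hW]
    exact omegaOne_normal p _
  have hWea : IsElementaryAbelian p W := by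
    rw [hW]
    exact omegaOne_ea p _ hZCcomm
  have hWle : W ≤ Subgroup.centralizer
      (thompsonSubgroupOf p (Subgroup.centralizer (V : Set G)) : Set G) := by
    rw [hW]
    exact (omegaOne_le_self p _).trans inf_le_right
  have hkey : ∀ A ∈ maxElementaryAbelianSubgroups p G, A ≤ Subgroup.centralizer (V : Set G) →
      A ≤ thompsonSubgroupOf p (Subgroup.centralizer (V : Set G)) := by
    intro A hA hAC
    have h1 := subgroupOf_mem_maxElementaryAbelianSubgroups hA hAC
    have h2 := le_thompsonSubgroup h1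
    have h3 := Subgroup.map_mono (f := (Subgroup.centralizer (V : Set G)).subtype) h2
    rw [Subgroup.map_subgroupOf_eq_of_le hAC] at h3
    exact h3
  have hVW : V ≤ W := by
    obtain ⟨A₀, hA₀⟩ := maxElementaryAbelianSubgroups_nonempty
      (G := ↥(Subgroup.centralizer (V : Set G))) p
    have hcomm : ∀ a ∈ A₀, ∀ b ∈ V.subgroupOf (Subgroup.centralizer (V : Set G)),
        a * b = b * a := by
      intro a _ b hb
      apply Subtype.ext
      exact (Subgroup.mem_centralizer_iff.mp a.2 (b : G) (Subgroup.mem_subgroupOf.mp hb)).symm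
    have hE := ea_sup hA₀.1 (ea_subgroupOf hV (Subgroup.centralizer (V : Set G))) hcomm
    have h1 := hA₀.2 _ hE
    have h2 : A₀ = A₀ ⊔ V.subgroupOf (Subgroup.centralizer (V : Set G)) :=
      Subgroup.eq_of_le_of_card_ge le_sup_left h1
    have h3 : V.subgroupOf (Subgroup.centralizer (V : Set G)) ≤
        thompsonSubgroup p ↥(Subgroup.centralizer (V : Set G)) := by
      refine le_trans ?_ (le_thompsonSubgroup hA₀)
      rw [h2]
      exact le_sup_right
    have h4 : V ≤ thompsonSubgroupOf p (Subgroup.centralizer (V : Set G)) := by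
      have h5 := Subgroup.map_mono (f := (Subgroup.centralizer (V : Set G)).subtype) h3
      rw [Subgroup.map_subgroupOf_eq_of_le hVC] at h5
      exact h5
    intro v hv
    rw [hW]
    apply Subgroup.subset_closure
    refine ⟨⟨h4 hv, ?_⟩, hV.2 v hv⟩
    show v ∈ Subgroup.centralizer
      (thompsonSubgroupOf p (Subgroup.centralizer (V : Set G)) : Set G)
    rw [Subgroup.mem_centralizer_iff]
    intro j hj
    exact (Subgroup.mem_centralizer_iff.mp (hJCle hj) v hv).symm
  have hA_all : ∀ A ∈ maxElementaryAbelianSubgroups p G, ⁅W, A⁆ ≤ V := by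
    intro A hA
    have hAc : IsMulCommutative A := hA.1.1
    by_cases hAC : A ≤ Subgroup.centralizer (V : Set G)
    · have h1 : W ≤ Subgroup.centralizer (A : Set G) :=
        hWle.trans (Subgroup.centralizer_le (hkey A hA hAC))
      rw [Subgroup.commutator_eq_bot_iff_le_centralizer.mpr h1]
      exact bot_le
    · have hAbo : IsBestOffenderOn p V A := Cfsg.Agent.S0606.result V hV A hA
      have hcard := card_offender hsep V hV hO hAbo hAC
      obtain ⟨B, hB⟩ : ∃ B : Subgroup G, B = A ⊓ Subgroup.centralizer (V : Set G) := ⟨_, rfl⟩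
      have hBA : B ≤ A := hB ▸ inf_le_left
      have hBC : B ≤ Subgroup.centralizer (V : Set G) := hB ▸ inf_le_right
      have hBVea : IsElementaryAbelian p (B ⊔ V) := by
        refine ea_sup (ea_mono hA.1 hBA) hV ?_
        intro b hb v hv
        exact (Subgroup.mem_centralizer_iff.mp (hBC hb) v hv).symm
      have h1 : Nat.card ↥(B ⊔ V) ≤ Nat.card A := hA.2 _ hBVea
      have h2 := card_mul_card_le_sup_mul_inf B V
      have h3 : B ⊓ V ≤ V ⊓ Subgroup.centralizer (A : Set G) := by
        intro x hx
        refine ⟨hx.2, ?_⟩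
        show x ∈ Subgroup.centralizer (A : Set G)
        rw [Subgroup.mem_centralizer_iff]
        intro a ha
        exact setLike_mul_comm ha (hBA hx.1)
      have h4 : Nat.card ↥(B ⊓ V) ≤ Nat.card ↥(V ⊓ Subgroup.centralizer (A : Set G)) :=
        Subgroup.card_le_of_le h3
      have hpos1 : 0 < Nat.card ↥(V ⊓ Subgroup.centralizer (A : Set G)) := Nat.card_pos
      have hposB : 0 < Nat.card B := Nat.card_pos
      rw [← hB] at hcard
      have hAle : Nat.card A ≤ Nat.card ↥(B ⊔ V) := by
        have h5 : Nat.card A * Nat.card ↥(V ⊓ Subgroup.centralizer (A : Set G)) ≤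
            Nat.card ↥(B ⊔ V) * Nat.card ↥(V ⊓ Subgroup.centralizer (A : Set G)) := by
          calc Nat.card A * Nat.card ↥(V ⊓ Subgroup.centralizer (A : Set G))
              = Nat.card B * Nat.card V := by rw [hcard, mul_comm]
            _ ≤ Nat.card ↥(B ⊔ V) * Nat.card ↥(B ⊓ V) := h2
            _ ≤ Nat.card ↥(B ⊔ V) * Nat.card ↥(V ⊓ Subgroup.centralizer (A : Set G)) :=
                Nat.mul_le_mul le_rfl h4
        exact Nat.le_of_mul_le_mul_right h5 hpos1
      have hBVmax : B ⊔ V ∈ maxElementaryAbelianSubgroups p G :=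
        ⟨hBVea, fun B' hB' => (hA.2 B' hB').trans hAle⟩
      have hBVJ := hkey _ hBVmax (sup_le hBC hVC)
      have hBJ : B ≤ thompsonSubgroupOf p (Subgroup.centralizer (V : Set G)) :=
        le_sup_left.trans hBVJ
      have hWB : W ≤ Subgroup.centralizer (B : Set G) :=
        hWle.trans (Subgroup.centralizer_le hBJ)
      have hWbo : IsBestOffenderOn p W A := Cfsg.Agent.S0606.result W hWea A hA
      have h5 := hWbo.1 B hBA
      rw [inf_eq_left.mpr hWB] at h5
      obtain ⟨X, hX⟩ : ∃ X : Subgroup G, X = W ⊓ Subgroup.centralizer (A : Set G) := ⟨_, rfl⟩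
      rw [← hX] at h5
      have h6 := card_mul_card_le_sup_mul_inf V X
      have h7 : V ⊓ X ≤ V ⊓ Subgroup.centralizer (A : Set G) := by
        rw [hX]
        exact inf_le_inf_left V inf_le_right
      have h8 : Nat.card ↥(V ⊓ X) ≤ Nat.card ↥(V ⊓ Subgroup.centralizer (A : Set G)) :=
        Subgroup.card_le_of_le h7
      have hVXW : V ⊔ X ≤ W := sup_le hVW (hX ▸ inf_le_left)
      have hWle2 : Nat.card W ≤ Nat.card ↥(V ⊔ X) := by
        have h9 : Nat.card W * (Nat.card B * Nat.card ↥(V ⊓ Subgroup.centralizer (A : Set G))) ≤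
            Nat.card ↥(V ⊔ X) *
              (Nat.card B * Nat.card ↥(V ⊓ Subgroup.centralizer (A : Set G))) := by
          calc Nat.card W * (Nat.card B * Nat.card ↥(V ⊓ Subgroup.centralizer (A : Set G)))
              = (Nat.card B * Nat.card W) *
                  Nat.card ↥(V ⊓ Subgroup.centralizer (A : Set G)) := by ring
            _ ≤ (Nat.card A * Nat.card X) *
                  Nat.card ↥(V ⊓ Subgroup.centralizer (A : Set G)) :=
                Nat.mul_le_mul_right _ h5
            _ = (Nat.card A * Nat.card ↥(V ⊓ Subgroup.centralizer (A : Set G))) *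
                  Nat.card X := by ring
            _ = (Nat.card V * Nat.card B) * Nat.card X := by rw [hcard]
            _ = Nat.card B * (Nat.card V * Nat.card X) := by ring
            _ ≤ Nat.card B * (Nat.card ↥(V ⊔ X) * Nat.card ↥(V ⊓ X)) :=
                Nat.mul_le_mul_left _ h6
            _ ≤ Nat.card B * (Nat.card ↥(V ⊔ X) *
                  Nat.card ↥(V ⊓ Subgroup.centralizer (A : Set G))) :=
                Nat.mul_le_mul_left _ (Nat.mul_le_mul_left _ h8)
            _ = Nat.card ↥(V ⊔ X) *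
                  (Nat.card B * Nat.card ↥(V ⊓ Subgroup.centralizer (A : Set G))) := by ring
        exact Nat.le_of_mul_le_mul_right h9 (Nat.mul_pos hposB hpos1)
      have hEq : V ⊔ X = W := Subgroup.eq_of_le_of_card_ge hVXW hWle2
      rw [← hEq]
      exact commutator_sup_le V X A (hX ▸ inf_le_right)
  rw [← hW]
  exact commutator_sSup_le V W _ hA_all

end Cfsg.Agent.Lib.Helper6.FFOmega
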