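import Mathlib
import Cfsg.Agent.Lib.Helper6.FFOmega

/-! Failure of factorization with a coprime operator group: conjugation invariance of the
factors, stabilizers of factors centralize them, the norm map over an orbit of factors, and
lifting of fixed points. -/

set_option autoImplicit false

namespace Cfsg.Agent.Lib.Helper6.FFX

open Cfsg
open Cfsg.Agent.Lib.Helper6
open Cfsg.Agent.Lib.Helper6.BestOff
open Cfsg.Agent.Lib.Helper6.FFAll

open scoped commutatorElement

universe u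

variable {G : Type u} [Group G]

/-- The conjugate `g B g⁻¹` of a subgroup. -/
def cj (g : G) (B : Subgroup G) : Subgroup G := B.map (MulAut.conj g).toMonoidHom

theorem mem_cj {g y : G} {B : Subgroup G} : y ∈ cj g B ↔ g⁻¹ * y * g ∈ B := by
  unfold cj
  constructor
  · rintro ⟨x, hx, rfl⟩
    have h : g⁻¹ * ((MulAut.conj g).toMonoidHom x) * g = x := by
      show g⁻¹ * (g * x * g⁻¹) * g = x
      group
    rw [h]
    exact hx
  · intro h
    refine ⟨g⁻¹ * y * g, h, ?_⟩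
    show g * (g⁻¹ * y * g) * g⁻¹ = y
    group

theorem conj_mem_cj {g x : G} {B : Subgroup G} (hx : x ∈ B) : g * x * g⁻¹ ∈ cj g B := by
  rw [mem_cj]
  have h : g⁻¹ * (g * x * g⁻¹) * g = x := by group
  rw [h]
  exact hx

theorem cj_mono {g : G} {B C : Subgroup G} (h : B ≤ C) : cj g B ≤ cj g C :=
  Subgroup.map_mono h

theorem cj_mul (g h : G) (B : Subgroup G) : cj (g * h) B = cj g (cj h B) := by
  ext y
  simp only [mem_cj]
  have e : (g * h)⁻¹ * y * (g * h) = h⁻¹ * (g⁻¹ * y * g) * h := by group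
  rw [e]

theorem cj_one (B : Subgroup G) : cj 1 B = B := by
  ext y
  simp [mem_cj]

theorem cj_inv_cj (g : G) (B : Subgroup G) : cj g⁻¹ (cj g B) = B := by
  rw [← cj_mul, inv_mul_cancel, cj_one]

theorem cj_cj_inv (g : G) (B : Subgroup G) : cj g (cj g⁻¹ B) = B := by
  rw [← cj_mul, mul_inv_cancel, cj_one]

theorem cj_eq_of_mem_normalizer {g : G} {B : Subgroup G}
    (hg : g ∈ Subgroup.normalizer (B : Set G)) : cj g B = B := by
  ext y
  rw [mem_cj]
  have h := (Subgroup.mem_normalizer_iff.mp hg) (g⁻¹ * y * g)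
  rw [h]
  have e : g * (g⁻¹ * y * g) * g⁻¹ = y := by group
  rw [e]

theorem mem_normalizer_of_cj_eq {g : G} {B : Subgroup G} (h : cj g B = B) :
    g ∈ Subgroup.normalizer (B : Set G) := by
  rw [Subgroup.mem_normalizer_iff]
  intro x
  constructor
  · intro hx
    rw [← h]
    exact conj_mem_cj hx
  · intro hx
    rw [← h, mem_cj] at hx
    have e : g⁻¹ * (g * x * g⁻¹) * g = x := by group
    rwa [e] at hx

theorem cj_inv_eq {g : G} {B : Subgroup G} (h : cj g B = B) : cj g⁻¹ B = B := by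
  conv_lhs => rw [← h]
  exact cj_inv_cj g B

theorem cj_sup (g : G) (B C : Subgroup G) : cj g (B ⊔ C) = cj g B ⊔ cj g C :=
  Subgroup.map_sup _ _ _

theorem cj_commutator (g : G) (B C : Subgroup G) : cj g ⁅B, C⁆ = ⁅cj g B, cj g C⁆ :=
  Subgroup.map_commutator _ _ _

theorem cj_inf (g : G) (B C : Subgroup G) : cj g (B ⊓ C) = cj g B ⊓ cj g C := by
  ext y
  simp only [mem_cj, Subgroup.mem_inf]

theorem cj_bot (g : G) : cj g (⊥ : Subgroup G) = ⊥ := Subgroup.map_bot _

theorem cj_centralizer (g : G) (B : Subgroup G) :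
    cj g (Subgroup.centralizer (B : Set G)) =
      Subgroup.centralizer ((cj g B : Subgroup G) : Set G) := by
  ext y
  rw [mem_cj, Subgroup.mem_centralizer_iff, Subgroup.mem_centralizer_iff]
  constructor
  · intro h z hz
    rw [SetLike.mem_coe, mem_cj] at hz
    have h1 := h _ hz
    have e1 : z * y = g * ((g⁻¹ * z * g) * (g⁻¹ * y * g)) * g⁻¹ := by group
    rw [e1, h1]
    group
  · intro h z hz
    have h1 := h (g * z * g⁻¹) (conj_mem_cj hz)
    have e1 : z * (g⁻¹ * y * g) = g⁻¹ * ((g * z * g⁻¹) * y) * g := by group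
    rw [e1, h1]
    group

theorem card_cj (g : G) (B : Subgroup G) : Nat.card ↥(cj g B) = Nat.card B :=
  Subgroup.card_map_of_injective (MulAut.conj g).injective

/-- Best offenders are preserved by conjugation with elements normalizing `V`. -/
theorem bestOffender_cj {p : ℕ} {V A : Subgroup G} (hA : IsBestOffenderOn p V A) {g : G}
    (hg : cj g V = V) : IsBestOffenderOn p V (cj g A) := by
  obtain ⟨h1, h2, h3⟩ := hA
  have hfix : ∀ B : Subgroup G,
      Nat.card ↥(V ⊓ Subgroup.centralizer ((cj g B : Subgroup G) : Set G)) =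
        Nat.card ↥(V ⊓ Subgroup.centralizer (B : Set G)) := by
    intro B
    have e : V ⊓ Subgroup.centralizer ((cj g B : Subgroup G) : Set G) =
        cj g (V ⊓ Subgroup.centralizer (B : Set G)) := by
      rw [cj_inf, hg, cj_centralizer]
    rw [e, card_cj]
  refine ⟨?_, ?_, ?_⟩
  · intro B' hB'
    have hB : cj g⁻¹ B' ≤ A := by
      have := cj_mono (g := g⁻¹) hB'
      rwa [cj_inv_cj] at this
    have h := h1 _ hB
    have hc2 : Nat.card ↥(V ⊓ Subgroup.centralizer (B' : Set G)) =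
        Nat.card ↥(V ⊓ Subgroup.centralizer ((cj g⁻¹ B' : Subgroup G) : Set G)) := by
      have h5 := hfix (cj g⁻¹ B')
      rw [cj_cj_inv] at h5
      exact h5
    rw [hc2, card_cj g A, hfix A, ← card_cj g⁻¹ B']
    exact h
  · rw [← cj_commutator]
    have := cj_mono (g := g) h2
    rwa [cj_centralizer, hg] at this
  · intro a ha
    rw [mem_cj] at ha
    have h4 : g * (g⁻¹ * a * g) ^ p * g⁻¹ ∈ cj g (Subgroup.centralizer (V : Set G)) :=
      conj_mem_cj (h3 _ ha)
    rw [cj_centralizer, hg] at h4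
    have h5 : g * (g⁻¹ * a * g) ^ p * g⁻¹ = a ^ p := by
      rw [← conj_pow]
      congr 1
      group
    rwa [h5] at h4

/-- Factors are preserved by conjugation with elements normalizing `V`, `H` and `Q`. -/
theorem isFac_cj {p : ℕ} {V H Q E : Subgroup G} (hE : IsFac p V H Q E) {g : G}
    (hV : cj g V = V) (hH : cj g H = H) (hQ : cj g Q = Q) : IsFac p V H Q (cj g E) := by
  obtain ⟨A, hAH, hA, hAV, hmin, rfl⟩ := hE
  have hV' : cj g⁻¹ V = V := cj_inv_eq hV
  refine ⟨cj g A, ?_, bestOffender_cj hA hV, ?_, ?_, ?_⟩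
  · have := cj_mono (g := g) hAH
    rwa [hH] at this
  · intro h
    apply hAV
    have h2 : cj g ⁅V, A⁆ = ⊥ := by
      rw [cj_commutator, hV]
      exact h
    have h3 := congrArg (cj g⁻¹) h2
    rw [cj_inv_cj, cj_bot] at h3
    exact h3
  · intro B' hB'A hB' hVB'
    have hB : cj g⁻¹ B' ≤ A := by
      have := cj_mono (g := g⁻¹) hB'A
      rwa [cj_inv_cj] at this
    have hBo : IsBestOffenderOn p V (cj g⁻¹ B') := bestOffender_cj hB' hV'
    have hVB : ⁅V, cj g⁻¹ B'⁆ ≠ ⊥ := by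
      intro h
      apply hVB'
      have h2 : cj g⁻¹ ⁅V, B'⁆ = ⊥ := by
        rw [cj_commutator, hV']
        exact h
      have h3 := congrArg (cj g) h2
      rw [cj_cj_inv, cj_bot] at h3
      exact h3
    have h4 := hmin _ hB hBo hVB
    rw [← h4, cj_cj_inv]
  · rw [cj_sup, cj_commutator, hQ]

/-- Numerics: a subgroup of a group of order `p²` (`p ≤ 3`) whose order is congruent to `p²`
modulo a prime `q ≥ 5` is the whole group. -/
theorem card_eq_of_modEq {p q n : ℕ} (hp : p.Prime) (hp23 : p = 2 ∨ p = 3) (hq : q.Prime)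
    (hq2 : q ≠ 2) (hq3 : q ≠ 3) (hdvd : n ∣ p ^ 2) (hmod : p ^ 2 ≡ n [MOD q]) : n = p ^ 2 := by
  obtain ⟨j, hj, rfl⟩ := (Nat.dvd_prime_pow hp).mp hdvd
  have hq2' : ¬ q ∣ 2 := fun h => hq2 ((Nat.prime_dvd_prime_iff_eq hq Nat.prime_two).mp h)
  have hq3' : ¬ q ∣ 3 := fun h => hq3 ((Nat.prime_dvd_prime_iff_eq hq Nat.prime_three).mp h)
  rcases hp23 with rfl | rfl
  · interval_cases j
    · exfalso
      have h1 : q ∣ 2 ^ 2 - 2 ^ 0 := (Nat.modEq_iff_dvd' (by norm_num)).mp hmod.symm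
      norm_num at h1
      exact hq3' h1
    · exfalso
      have h1 : q ∣ 2 ^ 2 - 2 ^ 1 := (Nat.modEq_iff_dvd' (by norm_num)).mp hmod.symm
      norm_num at h1
      exact hq2' h1
    · rfl
  · interval_cases j
    · exfalso
      have h1 : q ∣ 3 ^ 2 - 3 ^ 0 := (Nat.modEq_iff_dvd' (by norm_num)).mp hmod.symm
      have h2 : q ∣ 2 ^ 3 := by
        norm_num at h1 ⊢
        exact h1
      exact hq2' (hq.dvd_of_dvd_pow h2)
    · exfalso
      have h1 : q ∣ 3 ^ 2 - 3 ^ 1 := (Nat.modEq_iff_dvd' (by norm_num)).mp hmod.symm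
      have h2 : q ∣ 2 * 3 := by
        norm_num at h1 ⊢
        exact h1
      rcases (Nat.Prime.dvd_mul hq).mp h2 with h3 | h3
      · exact hq2' h3
      · exact hq3' h3
    · rfl

/-- Invariance of a diagonal element of a commuting product under a conjugation permuting the
factors. -/
theorem noncommPiCoprod_conj_invariant {ι : Type*} [Fintype ι] [DecidableEq ι] {P : Type*}
    [Group P] (ϕ : ι → P →* G) (hcomm : Pairwise fun i j => ∀ x y, Commute (ϕ i x) (ϕ j y))
    (y : G) (σ : ι ≃ ι) (h : ∀ i r, y * ϕ i r * y⁻¹ = ϕ (σ i) r) (r : P) :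
    y * MonoidHom.noncommPiCoprod ϕ hcomm (fun _ => r) * y⁻¹ =
      MonoidHom.noncommPiCoprod ϕ hcomm (fun _ => r) := by
  obtain ⟨F₁, hF₁⟩ : ∃ F₁ : (ι → P) →* G, ∀ f, F₁ f =
      y * MonoidHom.noncommPiCoprod ϕ hcomm f * y⁻¹ :=
    ⟨(MulAut.conj y).toMonoidHom.comp (MonoidHom.noncommPiCoprod ϕ hcomm), fun f => rfl⟩
  obtain ⟨τ, hτ⟩ : ∃ τ : (ι → P) →* (ι → P), ∀ f i, τ f i = f (σ.symm i) :=
    ⟨{ toFun := fun f i => f (σ.symm i), map_one' := rfl, map_mul' := fun _ _ => rfl },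
      fun f i => rfl⟩
  have hF : F₁ = (MonoidHom.noncommPiCoprod ϕ hcomm).comp τ := by
    apply MonoidHom.pi_ext
    intro i x
    rw [hF₁, MonoidHom.comp_apply]
    have h2 : τ (Pi.mulSingle i x) = Pi.mulSingle (σ i) x := by
      funext j
      rw [hτ]
      by_cases hj : j = σ i
      · subst hj
        simp
      · have hj' : σ.symm j ≠ i := fun h' => hj (by rw [← h', Equiv.apply_symm_apply])
        rw [Pi.mulSingle_eq_of_ne hj', Pi.mulSingle_eq_of_ne hj]
    rw [h2, MonoidHom.noncommPiCoprod_mulSingle, MonoidHom.noncommPiCoprod_mulSingle]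
    exact h i x
  have h3 := congrArg (fun F => F (fun _ => r)) hF
  simp only [hF₁, MonoidHom.comp_apply] at h3
  rw [h3]
  have h4 : τ (fun _ => r) = fun _ => r := by
    funext i
    rw [hτ]
  rw [h4]

/-- Lifting fixed points: a coset of a subgroup `C` of order prime to `q` that is invariant
under a `q`-group `X` normalizing `C` contains an element centralized by `X`. -/
theorem exists_fixed_in_coset [Finite G] {q : ℕ} [hq : Fact q.Prime] {X C : Subgroup G}
    (hX : IsPGroup q ↥X) (hXC : X ≤ Subgroup.normalizer (C : Set G))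
    (hqC : ¬ q ∣ Nat.card ↥C) {k : G} (hk : ∀ x ∈ X, k⁻¹ * x * k * x⁻¹ ∈ C) :
    ∃ c ∈ C, ∀ x ∈ X, x * (k * c) = (k * c) * x := by
  classical
  let _ : MulAction ↥X ↥C :=
    { smul := fun x c => ⟨k⁻¹ * x * k * c * (x : G)⁻¹, by
        have h1 := hk x x.2
        have h2 : (x : G) * c * (x : G)⁻¹ ∈ C :=
          (Subgroup.mem_normalizer_iff.mp (hXC x.2) c).mp c.2
        have h3 : k⁻¹ * x * k * c * (x : G)⁻¹ =
            (k⁻¹ * x * k * (x : G)⁻¹) * (x * c * (x : G)⁻¹) := by group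
        rw [h3]
        exact C.mul_mem h1 h2⟩
      one_smul := by
        intro c
        apply Subtype.ext
        show k⁻¹ * ((1 : ↥X) : G) * k * c * ((1 : ↥X) : G)⁻¹ = c
        simp
      mul_smul := by
        intro x y c
        apply Subtype.ext
        show k⁻¹ * ((x * y : ↥X) : G) * k * c * ((x * y : ↥X) : G)⁻¹ =
          k⁻¹ * x * k * (k⁻¹ * y * k * c * (y : G)⁻¹) * (x : G)⁻¹
        simp only [Subgroup.coe_mul]
        group }
  obtain ⟨c, hc⟩ := hX.nonempty_fixed_point_of_prime_not_dvd_card ↥C hqC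
  refine ⟨c, c.2, ?_⟩
  intro x hx
  have h1 := hc ⟨x, hx⟩
  have h2 : k⁻¹ * x * k * c * x⁻¹ = c := congrArg Subtype.val h1
  calc x * (k * c) = k * (k⁻¹ * x * k * c * x⁻¹) * x := by group
    _ = k * c * x := by rw [h2]

section main

variable [Finite G] {p : ℕ} [hp : Fact p.Prime] {V H Q : Subgroup G}

/-- A factor normalizes its plane. -/
theorem fac_norm_plane (hS : Setting p V H Q)
    (hS3 : H = ⨆ A : {A : Subgroup G // A ≤ H ∧ IsBestOffenderOn p V A}, (A : Subgroup G))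
    {E : Subgroup G} (hE : IsFac p V H Q E) {e : G} (he : e ∈ E) : cj e ⁅V, E⁆ = ⁅V, E⁆ := by
  obtain ⟨-, -, -, -, hEH, -, -, -, -⟩ := fac_facts hS hS3 hE
  rw [cj_commutator, cj_eq_of_mem_normalizer (hS.hHV (hEH he)),
    cj_eq_of_mem_normalizer (Subgroup.le_normalizer he)]

/-- An element of prime-power order for a prime `q ≥ 5` normalizing `V` and a factor `E`
centralizes `E` and its plane `[V, E]`. -/
theorem stab_centralizes (hS : Setting p V H Q)
    (hS3 : H = ⨆ A : {A : Subgroup G // A ≤ H ∧ IsBestOffenderOn p V A}, (A : Subgroup G))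
    {E : Subgroup G} (hE : IsFac p V H Q E) {q : ℕ} (hq : q.Prime) (hq2 : q ≠ 2) (hq3 : q ≠ 3)
    {x : G} (hxV : cj x V = V) (hxE : cj x E = E) {k : ℕ} (hxq : x ^ q ^ k = 1) :
    x ∈ Subgroup.centralizer (E : Set G) ∧
      x ∈ Subgroup.centralizer ((⁅V, E⁆ : Subgroup G) : Set G) := by
  classical
  have : Fact q.Prime := ⟨hq⟩
  obtain ⟨hp23, -, -, hcard, hEH, hWV, -, hfaith, -⟩ := fac_facts hS hS3 hE
  obtain ⟨W, hW⟩ : ∃ W : Subgroup G, W = ⁅V, E⁆ := ⟨_, rfl⟩
  rw [← hW] at hcard hfaith ⊢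
  have hxW : cj x W = W := by rw [hW, cj_commutator, hxV, hxE]
  obtain ⟨α, hα⟩ : ∃ α : ↥W ≃* ↥W, ∀ w : ↥W, ((α w : ↥W) : G) = x * w * x⁻¹ :=
    ⟨((MulAut.conj x).subgroupMap W).trans (MulEquiv.subgroupCongr hxW), fun w => rfl⟩
  have hαpow : ∀ (n : ℕ) (w : ↥W), (((α ^ n) w : ↥W) : G) = x ^ n * w * (x ^ n)⁻¹ := by
    intro n
    induction n with
    | zero =>
      intro w
      simp
    | succ n ih =>
      intro w
      rw [pow_succ, MulAut.mul_apply, ih, hα, pow_succ]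
      group
  have hαq : α ^ (q ^ k) = 1 := by
    apply MulEquiv.ext
    intro w
    apply Subtype.ext
    rw [hαpow, hxq]
    simp
  have hZ : IsPGroup q ↥(Subgroup.zpowers α) := by
    have h1 : orderOf α ∣ q ^ k := orderOf_dvd_of_pow_eq_one hαq
    obtain ⟨j, -, hj⟩ := (Nat.dvd_prime_pow hq).mp h1
    exact IsPGroup.of_card (n := j) (by rw [Nat.card_zpowers, hj])
  have hmod := hZ.card_modEq_card_fixedPoints ↥W
  obtain ⟨F', hF'⟩ : ∃ F' : Subgroup ↥W,
      F' = (Subgroup.centralizer ({x} : Set G)).subgroupOf W := ⟨_, rfl⟩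
  have hfixed : MulAction.fixedPoints ↥(Subgroup.zpowers α) ↥W = (F' : Set ↥W) := by
    ext w
    rw [MulAction.mem_fixedPoints, SetLike.mem_coe, hF', Subgroup.mem_subgroupOf,
      Subgroup.mem_centralizer_iff]
    constructor
    · intro h y hy
      rw [Set.mem_singleton_iff] at hy
      rw [hy]
      have h1 := h ⟨α, Subgroup.mem_zpowers α⟩
      have h2 : ((α w : ↥W) : G) = w := congrArg Subtype.val h1
      rw [hα] at h2
      calc x * (w : G) = x * w * x⁻¹ * x := by group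
        _ = w * x := by rw [h2]
    · intro h z
      have h1 : x * (w : G) = w * x := h x (Set.mem_singleton x)
      have h2 : α ∈ MulAction.stabilizer (MulAut ↥W) w := by
        rw [MulAction.mem_stabilizer_iff]
        apply Subtype.ext
        show ((α w : ↥W) : G) = w
        rw [hα, h1]
        group
      have h3 : Subgroup.zpowers α ≤ MulAction.stabilizer (MulAut ↥W) w :=
        (Subgroup.zpowers_le).mpr h2
      exact MulAction.mem_stabilizer_iff.mp (h3 z.2)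
  have hcardF : Nat.card ↥(MulAction.fixedPoints ↥(Subgroup.zpowers α) ↥W) = Nat.card ↥F' := by
    rw [hfixed]
    rfl
  rw [hcardF, hcard] at hmod
  have hdvd : Nat.card ↥F' ∣ p ^ 2 := by
    rw [← hcard]
    exact Subgroup.card_subgroup_dvd_card F'
  have hFcard : Nat.card ↥F' = p ^ 2 := card_eq_of_modEq hp.out hp23 hq hq2 hq3 hdvd hmod
  have hFtop : F' = ⊤ := Subgroup.eq_top_of_card_eq F' (by rw [hFcard, hcard])
  have hcomm : ∀ w ∈ W, x * w = w * x := by
    intro w hw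
    have h1 : (⟨w, hw⟩ : ↥W) ∈ F' := by
      rw [hFtop]
      exact Subgroup.mem_top _
    rw [hF', Subgroup.mem_subgroupOf, Subgroup.mem_centralizer_iff] at h1
    exact h1 x (Set.mem_singleton x)
  have hxCW : x ∈ Subgroup.centralizer (W : Set G) := by
    rw [Subgroup.mem_centralizer_iff]
    intro w hw
    exact (hcomm w hw).symm
  refine ⟨?_, hxCW⟩
  rw [Subgroup.mem_centralizer_iff]
  intro e he
  have hc1 : x * e * x⁻¹ * e⁻¹ ∈ E := by
    refine E.mul_mem ?_ (E.inv_mem he)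
    rw [← hxE]
    exact conj_mem_cj he
  have hc2 : x * e * x⁻¹ * e⁻¹ ∈ Subgroup.centralizer (W : Set G) := by
    rw [Subgroup.mem_centralizer_iff]
    intro w hw
    have hw' : e⁻¹ * w * e ∈ W := by
      have h1 := fac_norm_plane hS hS3 hE (E.inv_mem he)
      rw [← hW] at h1
      rw [← h1]
      have h2 := conj_mem_cj (g := e⁻¹) hw
      rwa [inv_inv] at h2
    have hA : x * w * x⁻¹ = w := by
      rw [hcomm w hw]
      group
    have hB : x⁻¹ * (e⁻¹ * w * e) * x = e⁻¹ * w * e := by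
      have h1 := hcomm _ hw'
      calc x⁻¹ * (e⁻¹ * w * e) * x = x⁻¹ * ((e⁻¹ * w * e) * x) := by group
        _ = x⁻¹ * (x * (e⁻¹ * w * e)) := by rw [h1]
        _ = e⁻¹ * w * e := by group
    have hC : (x * e * x⁻¹ * e⁻¹) * w * (x * e * x⁻¹ * e⁻¹)⁻¹ = w := by
      calc (x * e * x⁻¹ * e⁻¹) * w * (x * e * x⁻¹ * e⁻¹)⁻¹
          = x * e * (x⁻¹ * (e⁻¹ * w * e) * x) * e⁻¹ * x⁻¹ := by group
        _ = x * e * (e⁻¹ * w * e) * e⁻¹ * x⁻¹ := by rw [hB]
        _ = x * w * x⁻¹ := by group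
        _ = w := hA
    exact (mul_inv_eq_iff_eq_mul.mp hC).symm
  have hc3 : x * e * x⁻¹ * e⁻¹ ∈ E ⊓ (H ⊓ Subgroup.centralizer (W : Set G)) :=
    ⟨hc1, hEH hc1, hc2⟩
  rw [hfaith, Subgroup.mem_bot] at hc3
  have h4 : x * e = e * x := by
    calc x * e = (x * e * x⁻¹ * e⁻¹) * e * x := by group
      _ = e * x := by rw [hc3, one_mul]
  exact h4.symm

/-- The norm map over the orbit of a factor `E` under a group `Xs` of `q`-elements (`q ≥ 5`)
normalizing `V`, `H` and `Q`: a homomorphism on `E [V, E]` with values fixed by `Xs`, injective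
on the plane `[V, E]`. -/
theorem exists_norm (hS : Setting p V H Q)
    (hS3 : H = ⨆ A : {A : Subgroup G // A ≤ H ∧ IsBestOffenderOn p V A}, (A : Subgroup G))
    (hH1 : H ≠ ⊥) {E : Subgroup G} (hE : IsFac p V H Q E) {q : ℕ} (hq : q.Prime)
    (hq2 : q ≠ 2) (hq3 : q ≠ 3) (Xs : Subgroup G) (hXV : ∀ x ∈ Xs, cj x V = V)
    (hXH : ∀ x ∈ Xs, cj x H = H) (hXQ : ∀ x ∈ Xs, cj x Q = Q)
    (hXq : ∀ x ∈ Xs, ∃ k : ℕ, x ^ q ^ k = 1) :
    ∃ Nm : ↥(E ⊔ ⁅V, E⁆) →* G,
      (∀ y ∈ Xs, ∀ r, y * Nm r * y⁻¹ = Nm r) ∧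
      (∀ r : ↥(E ⊔ ⁅V, E⁆), (r : G) ∈ E → Nm r ∈ H) ∧
      (∀ r : ↥(E ⊔ ⁅V, E⁆), (r : G) ∈ ⁅V, E⁆ → Nm r ∈ V) ∧
      (∀ r : ↥(E ⊔ ⁅V, E⁆), (r : G) ∈ ⁅V, E⁆ → Nm r = 1 → r = 1) := by
  classical
  obtain ⟨-, -, -, -, hEH, hWV, -, -, -⟩ := fac_facts hS hS3 hE
  let Orb : Type u := {F : Subgroup G // ∃ x ∈ Xs, F = cj x E}
  have : Fintype Orb := Fintype.ofFinite Orb
  have hch : ∀ F : Orb, ∃ x ∈ Xs, (F : Subgroup G) = cj x E := fun F => F.2
  choose xF hxF hFx using hch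
  have hFac : ∀ F : Orb, IsFac p V H Q (F : Subgroup G) := by
    intro F
    rw [hFx F]
    exact isFac_cj hE (hXV _ (hxF F)) (hXH _ (hxF F)) (hXQ _ (hxF F))
  let ϕ : Orb → ↥(E ⊔ ⁅V, E⁆) →* G :=
    fun F => (MulAut.conj (xF F)).toMonoidHom.comp (E ⊔ ⁅V, E⁆).subtype
  have hϕ : ∀ (F : Orb) (r : ↥(E ⊔ ⁅V, E⁆)), ϕ F r = xF F * (r : G) * (xF F)⁻¹ :=
    fun F r => rfl
  have hϕmem : ∀ (F : Orb) (r : ↥(E ⊔ ⁅V, E⁆)),
      ϕ F r ∈ (F : Subgroup G) ⊔ ⁅V, (F : Subgroup G)⁆ := by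
    intro F r
    have h1 : ϕ F r ∈ cj (xF F) (E ⊔ ⁅V, E⁆) := conj_mem_cj r.2
    rw [cj_sup, cj_commutator, hXV _ (hxF F), ← hFx F] at h1
    exact h1
  have hVc := Cfsg.Agent.Lib.Helper6.FFSL2.comm_V hS
  have hcomm : Pairwise fun F F' : Orb => ∀ r r', Commute (ϕ F r) (ϕ F' r') := by
    intro F F' hne r r'
    have hne' : (F : Subgroup G) ≠ (F' : Subgroup G) := fun h => hne (Subtype.ext h)
    obtain ⟨h1, h2⟩ := fac_pair hS (hFac F) (hFac F') hne'
    obtain ⟨h3, h4⟩ := fac_pair hS (hFac F') (hFac F) (Ne.symm hne')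
    have hWF : ⁅V, (F : Subgroup G)⁆ ≤ V := (fac_facts hS hS3 (hFac F)).2.2.2.2.2.1
    have hWF' : ⁅V, (F' : Subgroup G)⁆ ≤ V := (fac_facts hS hS3 (hFac F')).2.2.2.2.2.1
    have hle : (F : Subgroup G) ⊔ ⁅V, (F : Subgroup G)⁆ ≤ Subgroup.centralizer
        (((F' : Subgroup G) ⊔ ⁅V, (F' : Subgroup G)⁆ : Subgroup G) : Set G) := by
      rw [Subgroup.le_centralizer_iff]
      refine sup_le ?_ ?_
      · rw [Subgroup.le_centralizer_iff]
        exact sup_le h3 (Subgroup.le_centralizer_iff.mp h2)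
      · rw [Subgroup.le_centralizer_iff]
        refine sup_le h4 ?_
        intro w hw
        rw [Subgroup.mem_centralizer_iff]
        intro w' hw'
        exact hVc w' (hWF' hw') w (hWF hw)
    have h5 := Subgroup.mem_centralizer_iff.mp (hle (hϕmem F r)) _ (hϕmem F' r')
    exact h5.symm
  obtain ⟨diag, hdiag⟩ : ∃ diag : ↥(E ⊔ ⁅V, E⁆) →* (Orb → ↥(E ⊔ ⁅V, E⁆)),
      ∀ r, diag r = fun _ => r :=
    ⟨{ toFun := fun r _ => r, map_one' := rfl, map_mul' := fun _ _ => rfl }, fun r => rfl⟩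
  have hNm : ∀ r, ((MonoidHom.noncommPiCoprod ϕ hcomm).comp diag) r =
      MonoidHom.noncommPiCoprod ϕ hcomm (fun _ => r) := by
    intro r
    rw [MonoidHom.comp_apply, hdiag]
  refine ⟨(MonoidHom.noncommPiCoprod ϕ hcomm).comp diag, ?_, ?_, ?_, ?_⟩
  · intro y hy r
    rw [hNm]
    have hσ : ∀ F : Orb, ∃ x ∈ Xs, cj y (F : Subgroup G) = cj x E := by
      intro F
      exact ⟨y * xF F, Xs.mul_mem hy (hxF F), by rw [cj_mul, ← hFx F]⟩
    have hσ' : ∀ F : Orb, ∃ x ∈ Xs, cj y⁻¹ (F : Subgroup G) = cj x E := by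
      intro F
      exact ⟨y⁻¹ * xF F, Xs.mul_mem (Xs.inv_mem hy) (hxF F), by rw [cj_mul, ← hFx F]⟩
    let σ : Orb ≃ Orb :=
      { toFun := fun F => ⟨cj y F, hσ F⟩
        invFun := fun F => ⟨cj y⁻¹ F, hσ' F⟩
        left_inv := fun F => Subtype.ext (cj_inv_cj y F)
        right_inv := fun F => Subtype.ext (cj_cj_inv y F) }
    refine noncommPiCoprod_conj_invariant ϕ hcomm y σ ?_ r
    intro F r'
    rw [hϕ, hϕ]
    have hzX : (xF (σ F))⁻¹ * y * xF F ∈ Xs :=
      Xs.mul_mem (Xs.mul_mem (Xs.inv_mem (hxF _)) hy) (hxF F)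
    have hzE : cj ((xF (σ F))⁻¹ * y * xF F) E = E := by
      rw [cj_mul, cj_mul, ← hFx F]
      have h1 : cj y (F : Subgroup G) = cj (xF (σ F)) E := hFx (σ F)
      rw [h1, cj_inv_cj]
    obtain ⟨k, hk⟩ := hXq _ hzX
    obtain ⟨hz1, hz2⟩ := stab_centralizes hS hS3 hE hq hq2 hq3 (hXV _ hzX) hzE hk
    have hzr : ((xF (σ F))⁻¹ * y * xF F) * (r' : G) =
        (r' : G) * ((xF (σ F))⁻¹ * y * xF F) := by
      have hle : E ⊔ ⁅V, E⁆ ≤
          Subgroup.centralizer ({(xF (σ F))⁻¹ * y * xF F} : Set G) := by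
        refine sup_le ?_ ?_
        · intro e he
          rw [Subgroup.mem_centralizer_iff]
          intro h hh
          rw [Set.mem_singleton_iff.mp hh]
          exact (Subgroup.mem_centralizer_iff.mp hz1 e he).symm
        · intro w hw
          rw [Subgroup.mem_centralizer_iff]
          intro h hh
          rw [Set.mem_singleton_iff.mp hh]
          exact (Subgroup.mem_centralizer_iff.mp hz2 w hw).symm
      exact Subgroup.mem_centralizer_iff.mp (hle r'.2) _ (Set.mem_singleton _)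
    calc y * (xF F * (r' : G) * (xF F)⁻¹) * y⁻¹
        = xF (σ F) * (((xF (σ F))⁻¹ * y * xF F) * (r' : G)) *
            ((xF (σ F))⁻¹ * y * xF F)⁻¹ * (xF (σ F))⁻¹ := by group
      _ = xF (σ F) * ((r' : G) * ((xF (σ F))⁻¹ * y * xF F)) *
            ((xF (σ F))⁻¹ * y * xF F)⁻¹ * (xF (σ F))⁻¹ := by rw [hzr]
      _ = xF (σ F) * (r' : G) * (xF (σ F))⁻¹ := by group
  · intro r hr
    rw [hNm, MonoidHom.noncommPiCoprod_apply]
    apply Subgroup.noncommProd_mem
    intro F _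
    have h1 : xF F * (r : G) * (xF F)⁻¹ ∈ cj (xF F) H := conj_mem_cj (hEH hr)
    rw [hXH _ (hxF F)] at h1
    exact h1
  · intro r hr
    rw [hNm, MonoidHom.noncommPiCoprod_apply]
    apply Subgroup.noncommProd_mem
    intro F _
    have h1 : xF F * (r : G) * (xF F)⁻¹ ∈ cj (xF F) V := conj_mem_cj (hWV hr)
    rw [hXV _ (hxF F)] at h1
    exact h1
  · intro r hr h1
    rw [hNm, MonoidHom.noncommPiCoprod_apply] at h1
    have hind : iSupIndep (fun F : Orb => ⁅V, (F : Subgroup G)⁆) := by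
      obtain ⟨-, -, -, -, hind, -⟩ := struct_all hS hS3 hH1
      have hinj : Function.Injective (fun F : Orb =>
          (some ⟨(F : Subgroup G), hFac F⟩ : Option {E : Subgroup G // IsFac p V H Q E})) := by
        intro F F' h
        simp only [Option.some.injEq, Subtype.mk.injEq] at h
        exact Subtype.ext h
      exact hind.comp hinj
    have hall := Subgroup.eq_one_of_noncommProd_eq_one_of_iSupIndep Finset.univ
      (fun F : Orb => ϕ F r) _ (fun F : Orb => ⁅V, (F : Subgroup G)⁆) hind (by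
        intro F _
        have h2 : xF F * (r : G) * (xF F)⁻¹ ∈ cj (xF F) ⁅V, E⁆ := conj_mem_cj hr
        rw [cj_commutator, hXV _ (hxF F), ← hFx F] at h2
        exact h2) h1
    have h3 := hall ⟨E, 1, Xs.one_mem, (cj_one E).symm⟩ (Finset.mem_univ _)
    rw [hϕ] at h3
    apply Subtype.ext
    rw [Subgroup.coe_one]
    exact conj_eq_one_iff.mp h3

end main

theorem six_dvd_card_SL2 {p : ℕ} (hp23 : p = 2 ∨ p = 3) :
    6 ∣ Nat.card (Matrix.SpecialLinearGroup (Fin 2) (ZMod p)) := by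
  rcases hp23 with rfl | rfl
  · have h : Fintype.card (Matrix.SpecialLinearGroup (Fin 2) (ZMod 2)) = 6 := by decide
    rw [Nat.card_eq_fintype_card, h]
  · have h : Fintype.card (Matrix.SpecialLinearGroup (Fin 2) (ZMod 3)) = 24 := by decide
    rw [Nat.card_eq_fintype_card, h]
    exact ⟨4, rfl⟩

theorem cj_pPrimeCore [Finite G] (p : ℕ) {H : Subgroup G} {x : G} (hx : cj x H = H) :
    cj x ((pPrimeCore p ↥H).map H.subtype) = (pPrimeCore p ↥H).map H.subtype := by
  obtain ⟨α, hα⟩ : ∃ α : ↥H ≃* ↥H, ∀ h : ↥H, ((α h : ↥H) : G) = x * h * x⁻¹ :=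
    ⟨((MulAut.conj x).subgroupMap H).trans (MulEquiv.subgroupCongr hx), fun h => rfl⟩
  have h1 := pPrimeCore_comap_mulEquiv (p := p) α
  have hle : cj x ((pPrimeCore p ↥H).map H.subtype) ≤ (pPrimeCore p ↥H).map H.subtype := by
    intro y hy
    rw [mem_cj] at hy
    obtain ⟨n, hn, hny⟩ := hy
    have h2 : α n ∈ pPrimeCore p ↥H := by
      have h3 : n ∈ (pPrimeCore p ↥H).comap α.toMonoidHom := by
        rw [h1]
        exact hn
      exact h3
    refine ⟨α n, h2, ?_⟩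
    show ((α n : ↥H) : G) = y
    rw [hα]
    have h4 : (n : G) = x⁻¹ * y * x := hny
    rw [h4]
    group
  exact Subgroup.eq_of_le_of_card_ge hle (by rw [card_cj])

theorem le_normalizer_of_conj_mem {D W : Subgroup G}
    (h : ∀ d ∈ D, ∀ w ∈ W, d * w * d⁻¹ ∈ W) : D ≤ Subgroup.normalizer (W : Set G) := by
  intro d hd
  rw [Subgroup.mem_normalizer_iff]
  intro w
  constructor
  · exact h d hd w
  · intro hw
    have h1 := h d⁻¹ (D.inv_mem hd) _ hw
    have e : d⁻¹ * (d * w * d⁻¹) * d⁻¹⁻¹ = w := by group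
    rwa [e] at h1

open Cfsg.Agent.Lib.Helper6.FFReal in
/-- Failure of factorization with a coprime operator group, abstract form: a plane `W` and a
subgroup `D` inducing `SL₂(p)` on it, both centralized by the operator group `X`. -/
theorem coprime_abstract [Finite G] {p : ℕ} [hp : Fact p.Prime] {q : ℕ} [hq : Fact q.Prime]
    (V : Subgroup G) [hVn : V.Normal] (hV : IsElementaryAbelian p V)
    (J : Subgroup G) [hJn : J.Normal] (𝒜 : Set (Subgroup G)) (hJ : J = sSup 𝒜)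
    (hoff : ∀ A ∈ 𝒜, IsBestOffenderOn p V A)
    (hJC : ¬ J ≤ Subgroup.centralizer (V : Set G))
    (hsolJ : IsPSolvable p ↥(J.map (rho V))) (hOpJ : pCore p ↥(J.map (rho V)) = ⊥)
    (X : Subgroup G) (hX : IsPGroup q ↥X) (hqJ : ¬ q ∣ Nat.card ↥J) :
    (p = 2 ∨ p = 3) ∧ ∃ W D : Subgroup G, W ≤ V ⊓ Subgroup.centralizer (X : Set G) ∧
      D ≤ J ⊓ Subgroup.centralizer (X : Set G) ∧ Nat.card ↥W = p ^ 2 ∧
      D ≤ Subgroup.normalizer (W : Set G) ∧
      ∃ hn : ((Subgroup.centralizer (W : Set G)).subgroupOf D).Normal,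
        Nonempty ((↥D ⧸ (Subgroup.centralizer (W : Set G)).subgroupOf D) ≃*
          Matrix.SpecialLinearGroup (Fin 2) (ZMod p)) := by
  classical
  have hfin : Finite (Real V) := finite_real V
  obtain ⟨H', hH'map⟩ : ∃ H' : Subgroup (Real V), H' = J.map (rho V) := ⟨_, rfl⟩
  rw [← hH'map] at hsolJ hOpJ
  have hS1' : Subgroup.centralizer (pPrimeCore p ↥H' : Set ↥H') ≤ pPrimeCore p ↥H' :=
    centralizer_pPrimeCore_le_of_isPSolvable hsolJ hOpJ
  have hHV' : H' ≤ Subgroup.normalizer ((Vimg V : Subgroup (Real V)) : Set (Real V)) := by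
    rw [Subgroup.normalizer_eq_top_iff.mpr (Vimg_normal V)]
    exact le_top
  have hf' : H' ⊓ Subgroup.centralizer ((Vimg V : Subgroup (Real V)) : Set (Real V)) = ⊥ := by
    rw [hH'map]
    exact faithful V J
  have hS' := setting_of (Vimg V) H' (Vimg_elementary V hV) hHV' hf' hS1'
  have hAle : ∀ A ∈ 𝒜, A.map (rho V) ≤ H' := by
    intro A hA
    rw [hH'map]
    apply Subgroup.map_mono
    rw [hJ]
    exact le_sSup hA
  have hS3' : H' = ⨆ A' : {A' : Subgroup (Real V) // A' ≤ H' ∧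
      IsBestOffenderOn p (Vimg V) A'}, (A' : Subgroup (Real V)) := by
    apply le_antisymm ?_ (iSup_le (fun A' => A'.2.1))
    have h1 : H' = ⨆ A : 𝒜, (A : Subgroup G).map (rho V) := by
      rw [hH'map, hJ, sSup_eq_iSup', Subgroup.map_iSup]
    conv_lhs => rw [h1]
    exact iSup_le (fun A => le_iSup_of_le (⟨(A : Subgroup G).map (rho V), hAle A A.2,
      bestOffender_map V (hoff A A.2)⟩ : {A' : Subgroup (Real V) // A' ≤ H' ∧
        IsBestOffenderOn p (Vimg V) A'}) le_rfl)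
  have hH1' : H' ≠ ⊥ := by
    intro h
    apply hJC
    intro j hj
    have h1 : rho V j ∈ H' := by
      rw [hH'map]
      exact Subgroup.mem_map_of_mem _ hj
    rw [h, Subgroup.mem_bot] at h1
    rw [← ker_rho V]
    exact h1
  obtain ⟨hp23, -, -, hsupE, -, -⟩ := struct_all hS' hS3' hH1'
  have hne : Nonempty {E : Subgroup (Real V) // IsFac p (Vimg V) H'
      ((pPrimeCore p ↥H').map H'.subtype) E} := by
    by_contra hcon
    rw [not_nonempty_iff] at hcon
    apply hH1'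
    rw [← hsupE, iSup_of_empty]
  obtain ⟨⟨E', hE'⟩⟩ := hne
  obtain ⟨-, -, ⟨ψ⟩, hcardW, hE'H, hWV', -, hfaith, -⟩ := fac_facts hS' hS3' hE'
  -- the prime `q` is at least 5
  have h6 : 6 ∣ Nat.card ↥J := by
    have h1 : 6 ∣ Nat.card ↥E' := by
      rw [Nat.card_congr ψ.toEquiv]
      exact six_dvd_card_SL2 hp23
    have h2 : Nat.card ↥E' ∣ Nat.card ↥H' := Subgroup.card_dvd_of_le hE'H
    have h3 : Nat.card ↥H' ∣ Nat.card ↥J := by
      rw [hH'map]
      exact Dvd.intro _ (card_map_rho V J)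
    exact h1.trans (h2.trans h3)
  have hq2 : q ≠ 2 := by
    rintro rfl
    exact hqJ (Dvd.dvd.trans ⟨3, rfl⟩ h6)
  have hq3 : q ≠ 3 := by
    rintro rfl
    exact hqJ (Dvd.dvd.trans ⟨2, rfl⟩ h6)
  -- the operator group in the realization
  obtain ⟨Xs, hXs⟩ : ∃ Xs : Subgroup (Real V), Xs = X.map (rho V) := ⟨_, rfl⟩
  have hXV : ∀ x ∈ Xs, cj x (Vimg V) = Vimg V := by
    intro x _
    apply cj_eq_of_mem_normalizer
    rw [Subgroup.normalizer_eq_top_iff.mpr (Vimg_normal V)]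
    exact Subgroup.mem_top x
  have hXH : ∀ x ∈ Xs, cj x H' = H' := by
    intro x hx
    rw [hXs] at hx
    obtain ⟨g, -, rfl⟩ := hx
    apply cj_eq_of_mem_normalizer
    rw [hH'map]
    apply Subgroup.le_normalizer_map (rho V)
    refine ⟨g, ?_, rfl⟩
    rw [Subgroup.normalizer_eq_top_iff.mpr hJn]
    exact Subgroup.mem_top g
  have hXQ : ∀ x ∈ Xs, cj x ((pPrimeCore p ↥H').map H'.subtype) =
      (pPrimeCore p ↥H').map H'.subtype :=
    fun x hx => cj_pPrimeCore p (hXH x hx)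
  have hXq : ∀ x ∈ Xs, ∃ k : ℕ, x ^ q ^ k = 1 := by
    intro x hx
    rw [hXs] at hx
    obtain ⟨g, hg, rfl⟩ := hx
    obtain ⟨k, hk⟩ := hX ⟨g, hg⟩
    refine ⟨k, ?_⟩
    have h1 : g ^ q ^ k = 1 := by
      have := congrArg Subtype.val hk
      simpa using this
    rw [← map_pow, h1, map_one]
  obtain ⟨Nm, hN1, hN2, hN3, hN4⟩ :=
    exists_norm hS' hS3' hH1' hE' hq.out hq2 hq3 Xs hXV hXH hXQ hXq
  obtain ⟨NmE, hNmE⟩ : ∃ NmE : ↥E' →* Real V, ∀ e : ↥E', NmE e =
      Nm ⟨(e : Real V), (le_sup_left : E' ≤ E' ⊔ ⁅Vimg V, E'⁆) e.2⟩ :=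
    ⟨Nm.comp (Subgroup.inclusion le_sup_left), fun e => rfl⟩
  obtain ⟨NmW, hNmW⟩ : ∃ NmW : ↥(⁅Vimg V, E'⁆) →* Real V, ∀ w : ↥(⁅Vimg V, E'⁆), NmW w =
      Nm ⟨(w : Real V), (le_sup_right : ⁅Vimg V, E'⁆ ≤ E' ⊔ ⁅Vimg V, E'⁆) w.2⟩ :=
    ⟨Nm.comp (Subgroup.inclusion le_sup_right), fun w => rfl⟩
  have hinjW : Function.Injective NmW := by
    rw [injective_iff_map_eq_one]
    intro w hw
    rw [hNmW] at hw
    have h1 := hN4 _ w.2 hw
    have h2 := congrArg Subtype.val h1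
    apply Subtype.ext
    exact h2
  -- conjugation of the plane by the factor, through the norm
  have hconj : ∀ (e : ↥E') (w : ↥(⁅Vimg V, E'⁆)), ∃ w₁ : ↥(⁅Vimg V, E'⁆),
      (w₁ : Real V) = (e : Real V) * w * (e : Real V)⁻¹ ∧
      NmE e * NmW w * (NmE e)⁻¹ = NmW w₁ := by
    intro e w
    have h1 : (e : Real V) * w * (e : Real V)⁻¹ ∈ ⁅Vimg V, E'⁆ := by
      have h2 := fac_norm_plane hS' hS3' hE' e.2
      have h3 : (e : Real V) * w * (e : Real V)⁻¹ ∈ cj (e : Real V) ⁅Vimg V, E'⁆ :=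
        conj_mem_cj w.2
      rw [h2] at h3
      exact h3
    refine ⟨⟨_, h1⟩, rfl, ?_⟩
    rw [hNmE, hNmW, hNmW, ← map_inv, ← map_mul, ← map_mul]
    rfl
  -- the kernel of the action
  have hker0 : ∀ e : ↥E', NmE e ∈ Subgroup.centralizer ((NmW.range : Subgroup (Real V)) :
      Set (Real V)) → e = 1 := by
    intro e he
    have h1 : (e : Real V) ∈ E' ⊓ (H' ⊓ Subgroup.centralizer
        ((⁅Vimg V, E'⁆ : Subgroup (Real V)) : Set (Real V))) := by
      refine ⟨e.2, hE'H e.2, ?_⟩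
      show (e : Real V) ∈ Subgroup.centralizer
        ((⁅Vimg V, E'⁆ : Subgroup (Real V)) : Set (Real V))
      rw [Subgroup.mem_centralizer_iff]
      intro w hw
      obtain ⟨w₁, hw₁, hw₁'⟩ := hconj e ⟨w, hw⟩
      have h2 : NmW ⟨w, hw⟩ * NmE e = NmE e * NmW ⟨w, hw⟩ :=
        Subgroup.mem_centralizer_iff.mp he _ ⟨_, rfl⟩
      have h3 : NmW w₁ = NmW ⟨w, hw⟩ := by
        rw [← hw₁', ← h2]
        group
      have h4 := hinjW h3
      have h5 : (e : Real V) * w * (e : Real V)⁻¹ = w := by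
        rw [← hw₁, h4]
      calc w * (e : Real V) = ((e : Real V) * w * (e : Real V)⁻¹) * e := by rw [h5]
        _ = e * w := by group
    rw [hfaith, Subgroup.mem_bot] at h1
    exact Subtype.ext h1
  have hinjE : Function.Injective NmE := by
    rw [injective_iff_map_eq_one]
    intro e he
    apply hker0
    rw [he]
    exact Subgroup.one_mem _
  -- the plane and the group in the realization
  obtain ⟨W', hW'⟩ : ∃ W' : Subgroup (Real V), W' = NmW.range := ⟨_, rfl⟩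
  obtain ⟨D', hD'⟩ : ∃ D' : Subgroup (Real V), D' = NmE.range := ⟨_, rfl⟩
  have hW'V : W' ≤ Vimg V := by
    rw [hW']
    rintro _ ⟨w, rfl⟩
    rw [hNmW]
    exact hN3 _ w.2
  have hW'card : Nat.card ↥W' = p ^ 2 := by
    rw [hW', ← hcardW]
    exact (Nat.card_congr (MonoidHom.ofInjective hinjW).toEquiv).symm
  have hD'H : D' ≤ H' := by
    rw [hD']
    rintro _ ⟨e, rfl⟩
    rw [hNmE]
    exact hN2 _ e.2
  have hW'X : ∀ y ∈ Xs, ∀ w' ∈ W', y * w' = w' * y := by
    intro y hy w' hw'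
    rw [hW'] at hw'
    obtain ⟨w, rfl⟩ := hw'
    rw [hNmW]
    have h1 := hN1 y hy ⟨(w : Real V), (le_sup_right : ⁅Vimg V, E'⁆ ≤ E' ⊔ ⁅Vimg V, E'⁆) w.2⟩
    exact mul_inv_eq_iff_eq_mul.mp h1
  have hD'X : ∀ y ∈ Xs, ∀ d' ∈ D', y * d' = d' * y := by
    intro y hy d' hd'
    rw [hD'] at hd'
    obtain ⟨e, rfl⟩ := hd'
    rw [hNmE]
    have h1 := hN1 y hy ⟨(e : Real V), (le_sup_left : E' ≤ E' ⊔ ⁅Vimg V, E'⁆) e.2⟩
    exact mul_inv_eq_iff_eq_mul.mp h1
  have hD'W' : ∀ d' ∈ D', ∀ w' ∈ W', d' * w' * d'⁻¹ ∈ W' := by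
    intro d' hd' w' hw'
    rw [hD'] at hd'
    rw [hW'] at hw' ⊢
    obtain ⟨e, rfl⟩ := hd'
    obtain ⟨w, rfl⟩ := hw'
    obtain ⟨w₁, -, hw₁⟩ := hconj e w
    rw [hw₁]
    exact ⟨w₁, rfl⟩
  -- back to the group
  obtain ⟨W, hW⟩ : ∃ W : Subgroup G, W = (W'.comap
      (SemidirectProduct.inl : ↥V →* Real V)).map V.subtype := ⟨_, rfl⟩
  obtain ⟨D, hD⟩ : ∃ D : Subgroup G, D = (J ⊓ D'.comap (rho V)) ⊓
      Subgroup.centralizer (X : Set G) := ⟨_, rfl⟩
  have hWV : W ≤ V := by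
    rw [hW]
    exact Subgroup.map_subtype_le _
  have hWmem : ∀ w ∈ W, ∃ v : ↥V, (v : G) = w ∧ (SemidirectProduct.inl v : Real V) ∈ W' := by
    intro w hw
    rw [hW] at hw
    obtain ⟨v, hv, rfl⟩ := hw
    exact ⟨v, rfl, hv⟩
  have hW'mem : ∀ w' ∈ W', ∃ v : ↥V, (v : G) ∈ W ∧ (SemidirectProduct.inl v : Real V) = w' := by
    intro w' hw'
    obtain ⟨v, rfl⟩ := hW'V hw'
    refine ⟨v, ?_, rfl⟩
    rw [hW]
    exact ⟨v, hw', rfl⟩
  have hDmem : ∀ d ∈ D, d ∈ J ∧ rho V d ∈ D' ∧ ∀ x ∈ X, x * d = d * x := by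
    intro d hd
    rw [hD] at hd
    exact ⟨hd.1.1, hd.1.2, fun x hx => Subgroup.mem_centralizer_iff.mp hd.2 x hx⟩
  have hDJ : D ≤ J := fun d hd => (hDmem d hd).1
  have hXsmem : ∀ x ∈ X, rho V x ∈ Xs := by
    intro x hx
    rw [hXs]
    exact Subgroup.mem_map_of_mem _ hx
  refine ⟨hp23, W, D, ?_, ?_, ?_, ?_, ?_⟩
  · refine le_inf hWV ?_
    intro w hw
    obtain ⟨v, rfl, hv⟩ := hWmem w hw
    rw [Subgroup.mem_centralizer_iff]
    intro x hx
    exact (rho_comm_iff V x v).mp (hW'X _ (hXsmem x hx) _ hv)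
  · rw [hD]
    exact inf_le_inf_right _ inf_le_left
  · rw [hW, Subgroup.card_map_of_injective V.subtype_injective, ← hW'card]
    have h1 : (W'.comap (SemidirectProduct.inl : ↥V →* Real V)).map
        (SemidirectProduct.inl : ↥V →* Real V) = W' :=
      Subgroup.map_comap_eq_self hW'V
    conv_rhs => rw [← h1]
    exact (Subgroup.card_map_of_injective SemidirectProduct.inl_injective).symm
  · apply le_normalizer_of_conj_mem
    intro d hd w hw
    obtain ⟨v, rfl, hv⟩ := hWmem w hw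
    have h1 := rho_conj V d v
    have h2 := hD'W' _ (hDmem d hd).2.1 _ hv
    rw [h1] at h2
    rw [hW]
    exact ⟨_, h2, rfl⟩
  · -- the isomorphism
    obtain ⟨ρD, hρD⟩ : ∃ ρD : ↥D →* ↥D', ∀ d : ↥D, ((ρD d : ↥D') : Real V) = rho V d :=
      ⟨((rho V).comp D.subtype).codRestrict D' (fun d => (hDmem d d.2).2.1), fun d => rfl⟩
    have hρsurj : Function.Surjective ρD := by
      rintro ⟨d', hd'⟩
      obtain ⟨j, hj, hjd⟩ : d' ∈ J.map (rho V) := by
        rw [← hH'map]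
        exact hD'H hd'
      have hC0n : (J ⊓ Subgroup.centralizer (V : Set G)).Normal := inferInstance
      have hk : ∀ x ∈ X, j⁻¹ * x * j * x⁻¹ ∈ J ⊓ Subgroup.centralizer (V : Set G) := by
        intro x hx
        refine ⟨?_, ?_⟩
        · have h1 : j⁻¹ * x * j * x⁻¹ = j⁻¹ * (x * j * x⁻¹) := by group
          rw [h1]
          exact J.mul_mem (J.inv_mem hj) (hJn.conj_mem j hj x)
        · show j⁻¹ * x * j * x⁻¹ ∈ Subgroup.centralizer (V : Set G)
          rw [← ker_rho V, MonoidHom.mem_ker]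
          have h2 := hD'X _ (hXsmem x hx) _ hd'
          rw [map_mul, map_mul, map_mul, map_inv, map_inv, hjd]
          calc d'⁻¹ * rho V x * d' * (rho V x)⁻¹ = d'⁻¹ * (rho V x * d') * (rho V x)⁻¹ := by
                group
            _ = d'⁻¹ * (d' * rho V x) * (rho V x)⁻¹ := by rw [h2]
            _ = 1 := by group
      have hXC : X ≤ Subgroup.normalizer
          ((J ⊓ Subgroup.centralizer (V : Set G) : Subgroup G) : Set G) := by
        rw [Subgroup.normalizer_eq_top_iff.mpr hC0n]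
        exact le_top
      have hqC : ¬ q ∣ Nat.card ↥(J ⊓ Subgroup.centralizer (V : Set G)) :=
        fun h => hqJ (h.trans (Subgroup.card_dvd_of_le inf_le_left))
      obtain ⟨c, hc, hcx⟩ := exists_fixed_in_coset hX hXC hqC hk
      have hrc : rho V (j * c) = d' := by
        rw [map_mul, rho_eq_one V hc.2, mul_one, hjd]
      have hdD : j * c ∈ D := by
        rw [hD]
        refine ⟨⟨J.mul_mem hj hc.1, ?_⟩, ?_⟩
        · show j * c ∈ D'.comap (rho V)
          rw [Subgroup.mem_comap, hrc]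
          exact hd'
        · show j * c ∈ Subgroup.centralizer (X : Set G)
          rw [Subgroup.mem_centralizer_iff]
          intro x hx
          exact hcx x hx
      refine ⟨⟨j * c, hdD⟩, ?_⟩
      apply Subtype.ext
      rw [hρD]
      exact hrc
    obtain ⟨χ⟩ : Nonempty (↥D' ≃* Matrix.SpecialLinearGroup (Fin 2) (ZMod p)) := by
      rw [hD']
      exact ⟨(MonoidHom.ofInjective hinjE).symm.trans ψ⟩
    have hsurj : Function.Surjective (χ.toMonoidHom.comp ρD) :=
      χ.surjective.comp hρsurj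
    have hker : (χ.toMonoidHom.comp ρD).ker =
        (Subgroup.centralizer (W : Set G)).subgroupOf D := by
      ext d
      rw [MonoidHom.mem_ker, Subgroup.mem_subgroupOf, MonoidHom.comp_apply]
      have h1 : χ.toMonoidHom (ρD d) = 1 ↔ rho V (d : G) = 1 := by
        constructor
        · intro h
          have h2 : ρD d = 1 := χ.injective (by rw [map_one]; exact h)
          rw [← hρD, h2]
          rfl
        · intro h
          have h2 : ρD d = 1 := by
            apply Subtype.ext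
            rw [hρD, h]
            rfl
          rw [h2, map_one]
      rw [h1]
      constructor
      · intro h
        have h2 : (d : G) ∈ Subgroup.centralizer (V : Set G) := by
          rw [← ker_rho V]
          exact h
        exact Subgroup.centralizer_le hWV h2
      · intro h
        have h2 : rho V (d : G) ∈ D' := (hDmem d d.2).2.1
        rw [hD'] at h2
        obtain ⟨e, he⟩ := h2
        have h3 : e = 1 := by
          apply hker0
          rw [he, ← hW', Subgroup.mem_centralizer_iff]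
          intro w' hw'
          obtain ⟨v, hvW, rfl⟩ := hW'mem w' hw'
          have h4 : (v : G) * (d : G) = (d : G) * (v : G) :=
            Subgroup.mem_centralizer_iff.mp h (v : G) hvW
          exact ((rho_comm_iff V (d : G) v).mpr h4.symm).symm
        rw [← he, h3, map_one]
    have hn : ((Subgroup.centralizer (W : Set G)).subgroupOf D).Normal := by
      rw [← hker]
      infer_instance
    exact ⟨hn, ⟨(QuotientGroup.quotientMulEquivOfEq hker.symm).trans
      (QuotientGroup.quotientKerEquivOfSurjective _ hsurj)⟩⟩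

end Cfsg.Agent.Lib.Helper6.FFX
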