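import Mathlib
import Cfsg.Agent.Lib.Helper6.FFX

/-! Transport of the failure-of-factorization data of a subgroup `K` of `G` to the normalizer of
`K`, and the coprime-operator theorems at the level of `G`. -/

set_option autoImplicit false

namespace Cfsg.Agent.Lib.Helper6.FFXT

open Cfsg
open Cfsg.Agent.Lib.Helper6
open Cfsg.Agent.Lib.Helper6.BestOff
open Cfsg.Agent.Lib.Helper6.FFAll
open Cfsg.Agent.Lib.Helper6.FFReal
open Cfsg.Agent.Lib.Helper6.FFX
open Cfsg.Agent.Lib.Helper14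

open scoped commutatorElement

universe u

variable {G : Type u} [Group G]

/-- Conjugation by an element of the normalizer, as an automorphism of the subgroup. -/
theorem exists_conj_equiv (K : Subgroup G) (m : G) (hm : m ∈ Subgroup.normalizer (K : Set G)) :
    ∃ α : ↥K ≃* ↥K, ∀ k : ↥K, ((α k : ↥K) : G) = m * k * m⁻¹ := by
  have h1 : ∀ k : ↥K, m * k * m⁻¹ ∈ K := fun k => (Subgroup.mem_normalizer_iff.mp hm k).mp k.2
  have h2 : ∀ k : ↥K, m⁻¹ * k * m ∈ K := by
    intro k
    rw [Subgroup.mem_normalizer_iff.mp hm]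
    have e : m * (m⁻¹ * k * m) * m⁻¹ = k := by group
    rw [e]
    exact k.2
  exact ⟨{ toFun := fun k => ⟨m * k * m⁻¹, h1 k⟩
           invFun := fun k => ⟨m⁻¹ * k * m, h2 k⟩
           left_inv := fun k => Subtype.ext (by
             show m⁻¹ * (m * k * m⁻¹) * m = k
             group)
           right_inv := fun k => Subtype.ext (by
             show m * (m⁻¹ * k * m) * m⁻¹ = k
             group)
           map_mul' := fun a b => Subtype.ext (by
             show m * ((a : G) * (b : G)) * m⁻¹ = (m * a * m⁻¹) * (m * b * m⁻¹)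
             group) }, fun k => rfl⟩

/-- The subgroup generated by the `Ω₁(Z(S))` for `S` Sylow is invariant under
automorphisms. -/
theorem omega_iSup_equiv (p : ℕ) (ϕ : G ≃* G) :
    ∀ v ∈ (⨆ S : Sylow p G, omegaOne p ((S : Subgroup G) ⊓
      Subgroup.centralizer ((S : Subgroup G) : Set G))),
    ϕ v ∈ (⨆ S : Sylow p G, omegaOne p ((S : Subgroup G) ⊓
      Subgroup.centralizer ((S : Subgroup G) : Set G))) := by
  have hle : (⨆ S : Sylow p G, omegaOne p ((S : Subgroup G) ⊓
      Subgroup.centralizer ((S : Subgroup G) : Set G))).map ϕ.toMonoidHom ≤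
      (⨆ S : Sylow p G, omegaOne p ((S : Subgroup G) ⊓
      Subgroup.centralizer ((S : Subgroup G) : Set G))) := by
    rw [Subgroup.map_iSup]
    apply iSup_le
    intro S
    have hS' : ∀ x ∈ (S : Subgroup G), ϕ x ∈ (((ϕ : MulAut G) • S : Sylow p G) : Subgroup G) := by
      intro x hx
      rw [Sylow.pointwise_smul_def]
      exact Subgroup.smul_mem_pointwise_smul x (ϕ : MulAut G) _ hx
    have hS'' : ∀ y ∈ (((ϕ : MulAut G) • S : Sylow p G) : Subgroup G),
        ϕ.symm y ∈ (S : Subgroup G) := by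
      intro y hy
      rw [Sylow.pointwise_smul_def, Subgroup.mem_pointwise_smul_iff_inv_smul_mem] at hy
      exact hy
    refine le_trans ?_ (le_iSup (fun S : Sylow p G => omegaOne p ((S : Subgroup G) ⊓
      Subgroup.centralizer ((S : Subgroup G) : Set G))) ((ϕ : MulAut G) • S))
    unfold omegaOne
    rw [MonoidHom.map_closure]
    apply Subgroup.closure_mono
    rintro _ ⟨x, ⟨⟨hxS, hxC⟩, hxp⟩, rfl⟩
    refine ⟨⟨hS' x hxS, ?_⟩, ?_⟩
    · show ϕ x ∈ Subgroup.centralizer
        ((((ϕ : MulAut G) • S : Sylow p G) : Subgroup G) : Set G)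
      rw [Subgroup.mem_centralizer_iff]
      intro y hy
      have h1 := Subgroup.mem_centralizer_iff.mp hxC (ϕ.symm y) (hS'' y hy)
      have h2 := congrArg ϕ h1
      simpa using h2
    · show (ϕ x) ^ p = 1
      rw [← map_pow, hxp, map_one]
  intro v hv
  exact hle ⟨v, hv, rfl⟩

/-- The image in a subgroup `M` of the normalizer of `K` of a subgroup of `K` invariant under
all automorphisms of `K` is normal in `M`. -/
theorem map_normal_of_coe {K M : Subgroup G} (hMN : M ≤ Subgroup.normalizer (K : Set G))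
    (ι : ↥K →* ↥M) (hι : ∀ k : ↥K, ((ι k : ↥M) : G) = k) (S : Subgroup ↥K)
    (hS : ∀ ϕ : ↥K ≃* ↥K, ∀ s ∈ S, ϕ s ∈ S) : (S.map ι).Normal := by
  constructor
  rintro n ⟨s, hs, rfl⟩ m
  obtain ⟨α, hα⟩ := exists_conj_equiv K (m : G) (hMN m.2)
  refine ⟨α s, hS α s hs, ?_⟩
  apply Subtype.ext
  rw [hι, hα]
  show (m : G) * s * (m : G)⁻¹ = (m : G) * ((ι s : ↥M) : G) * (m : G)⁻¹
  rw [hι]

/-- Best offenders are preserved by injective homomorphisms. -/
theorem bestOffender_map_injective {G' : Type u} [Group G'] {p : ℕ} {V A : Subgroup G}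
    (f : G →* G') (hf : Function.Injective f) (hA : IsBestOffenderOn p V A) :
    IsBestOffenderOn p (V.map f) (A.map f) := by
  obtain ⟨h1, h2, h3⟩ := hA
  have hmapC : ∀ B : Subgroup G, (V ⊓ Subgroup.centralizer (B : Set G)).map f =
      V.map f ⊓ Subgroup.centralizer ((B.map f : Subgroup G') : Set G') := by
    intro B
    ext y
    constructor
    · rintro ⟨x, ⟨hxV, hxC⟩, rfl⟩
      refine ⟨Subgroup.mem_map_of_mem f hxV, ?_⟩
      show f x ∈ Subgroup.centralizer ((B.map f : Subgroup G') : Set G')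
      rw [Subgroup.mem_centralizer_iff]
      rintro _ ⟨b, hb, rfl⟩
      rw [← map_mul, ← map_mul, Subgroup.mem_centralizer_iff.mp hxC b hb]
    · rintro ⟨⟨v, hv, rfl⟩, hyC⟩
      refine ⟨v, ⟨hv, ?_⟩, rfl⟩
      show v ∈ Subgroup.centralizer (B : Set G)
      rw [Subgroup.mem_centralizer_iff]
      intro b hb
      apply hf
      rw [map_mul, map_mul]
      exact Subgroup.mem_centralizer_iff.mp hyC (f b) (Subgroup.mem_map_of_mem f hb)
  have hfix : ∀ B : Subgroup G,
      Nat.card ↥(V.map f ⊓ Subgroup.centralizer ((B.map f : Subgroup G') : Set G')) =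
        Nat.card ↥(V ⊓ Subgroup.centralizer (B : Set G)) := by
    intro B
    rw [← hmapC, Subgroup.card_map_of_injective hf]
  have hCV : (Subgroup.centralizer (V : Set G)).map f ≤
      Subgroup.centralizer ((V.map f : Subgroup G') : Set G') := by
    rintro _ ⟨c, hc, rfl⟩
    rw [Subgroup.mem_centralizer_iff]
    rintro _ ⟨v, hv, rfl⟩
    rw [← map_mul, ← map_mul, Subgroup.mem_centralizer_iff.mp hc v hv]
  refine ⟨?_, ?_, ?_⟩
  · intro B' hB'
    have hB'r : B' ≤ f.range := hB'.trans (Subgroup.map_le_range f A)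
    have hBmap : (B'.comap f).map f = B' := Subgroup.map_comap_eq_self hB'r
    have hBA : B'.comap f ≤ A := by
      intro x hx
      obtain ⟨a, ha, hax⟩ := hB' (Subgroup.mem_comap.mp hx)
      rw [← hf hax]
      exact ha
    have h := h1 _ hBA
    rw [← hBmap, hfix, hfix, Subgroup.card_map_of_injective hf,
      Subgroup.card_map_of_injective hf]
    exact h
  · rw [← Subgroup.map_commutator]
    exact (Subgroup.map_mono h2).trans hCV
  · rintro _ ⟨a, ha, rfl⟩
    rw [← map_pow]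
    exact hCV ⟨_, h3 a ha, rfl⟩

/-- The image of `J` modulo `C_G(V)` is `p`-solvable without normal `p`-subgroups. -/
theorem hb_facts [Finite G] {p : ℕ} [hp : Fact p.Prime]
    (hsep : IsPSolvable p G) (V : Subgroup G) [hVn : V.Normal]
    (hVmin : ∀ D : Subgroup G, D.Normal → Subgroup.centralizer (V : Set G) ≤ D →
      (∃ k : ℕ, (Subgroup.centralizer (V : Set G)).relIndex D = p ^ k) →
      D = Subgroup.centralizer (V : Set G))
    (J : Subgroup G) [hJn : J.Normal] :
    IsPSolvable p ↥(J.map (QuotientGroup.mk' (Subgroup.centralizer (V : Set G)))) ∧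
    pCore p ↥(J.map (QuotientGroup.mk' (Subgroup.centralizer (V : Set G)))) = ⊥ := by
  classical
  have hπ : Function.Surjective (QuotientGroup.mk' (Subgroup.centralizer (V : Set G))) :=
    QuotientGroup.mk'_surjective _
  obtain ⟨Hb, hHb⟩ : ∃ Hb : Subgroup (G ⧸ Subgroup.centralizer (V : Set G)),
      Hb = J.map (QuotientGroup.mk' (Subgroup.centralizer (V : Set G))) := ⟨_, rfl⟩
  rw [← hHb]
  have hHbn : Hb.Normal := by
    rw [hHb]
    exact hJn.map _ hπ
  have hsolHb : IsPSolvable p ↥Hb :=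
    isPSolvable_subgroup hp.out Hb (isPSolvable_quotient hp.out _ hsep)
  refine ⟨hsolHb, ?_⟩
  have hPn : ((pCore p ↥Hb).map Hb.subtype).Normal := pCore_map_subtype_normal Hb
  have hPp : IsPGroup p ↥((pCore p ↥Hb).map Hb.subtype) := (pCore_isPGroup p).map _
  obtain ⟨k, hk⟩ := IsPGroup.iff_card.mp hPp
  have hD := hVmin (((pCore p ↥Hb).map Hb.subtype).comap
    (QuotientGroup.mk' (Subgroup.centralizer (V : Set G)))) (hPn.comap _) ?_ ⟨k, ?_⟩
  · rw [eq_bot_iff]
    intro x hx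
    rw [Subgroup.mem_bot]
    apply Subtype.ext
    obtain ⟨g, hg⟩ := hπ (x : G ⧸ Subgroup.centralizer (V : Set G))
    have hgD : g ∈ ((pCore p ↥Hb).map Hb.subtype).comap
        (QuotientGroup.mk' (Subgroup.centralizer (V : Set G))) := by
      rw [Subgroup.mem_comap, hg]
      exact ⟨x, hx, rfl⟩
    rw [hD] at hgD
    rw [Subgroup.coe_one, ← hg]
    exact (QuotientGroup.eq_one_iff g).mpr hgD
  · intro g hg
    rw [Subgroup.mem_comap]
    have h1 : QuotientGroup.mk' (Subgroup.centralizer (V : Set G)) g = 1 :=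
      (QuotientGroup.eq_one_iff g).mpr hg
    rw [h1]
    exact Subgroup.one_mem _
  · have h1 := Subgroup.relIndex_ker (((pCore p ↥Hb).map Hb.subtype).comap
      (QuotientGroup.mk' (Subgroup.centralizer (V : Set G))))
      (QuotientGroup.mk' (Subgroup.centralizer (V : Set G)))
    rw [QuotientGroup.ker_mk', Subgroup.map_comap_eq_self_of_surjective hπ] at h1
    rw [h1, hk]

/-- Two images of a subgroup under homomorphisms with the same kernel share `p`-solvability
and triviality of the `p`-core. -/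
theorem transfer_image {A B C : Type u} [Group A] [Group B] [Group C] [Finite B] [Finite C]
    (g : A →* B) (f : A →* C) (hker : f.ker = g.ker) (J : Subgroup A) {p : ℕ} (hp : p.Prime)
    (h1 : IsPSolvable p ↥(J.map g)) (h2 : pCore p ↥(J.map g) = ⊥) :
    IsPSolvable p ↥(J.map f) ∧ pCore p ↥(J.map f) = ⊥ := by
  have hkk : (f.subgroupMap J).ker = (g.subgroupMap J).ker := by
    ext x
    rw [MonoidHom.mem_ker, MonoidHom.mem_ker]
    have e1 : f.subgroupMap J x = 1 ↔ (x : A) ∈ f.ker := by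
      rw [MonoidHom.mem_ker]
      constructor
      · intro h
        exact congrArg Subtype.val h
      · intro h
        exact Subtype.ext h
    have e2 : g.subgroupMap J x = 1 ↔ (x : A) ∈ g.ker := by
      rw [MonoidHom.mem_ker]
      constructor
      · intro h
        exact congrArg Subtype.val h
      · intro h
        exact Subtype.ext h
    rw [e1, e2, hker]
  obtain ⟨e⟩ : Nonempty (↥(J.map g) ≃* ↥(J.map f)) :=
    ⟨(QuotientGroup.quotientKerEquivOfSurjective _ (g.subgroupMap_surjective J)).symm.trans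
      ((QuotientGroup.quotientMulEquivOfEq hkk.symm).trans
        (QuotientGroup.quotientKerEquivOfSurjective _ (f.subgroupMap_surjective J)))⟩
  refine ⟨isPSolvable_of_mulEquiv hp e h1, ?_⟩
  have h3 := pCore_comap_mulEquiv (p := p) e
  rw [h2] at h3
  rw [eq_bot_iff]
  intro x hx
  rw [Subgroup.mem_bot]
  obtain ⟨y, rfl⟩ := e.surjective x
  have h4 : y ∈ (⊥ : Subgroup ↥(J.map g)) := by
    rw [← h3, Subgroup.mem_comap]
    exact hx
  rw [Subgroup.mem_bot] at h4
  rw [h4, map_one]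

/-- Pushing a quotient isomorphism forward along an injective homomorphism. -/
theorem quot_push {A B T : Type*} [Group A] [Group B] [Group T] (f : A →* B)
    (hf : Function.Injective f) (D N : Subgroup A) (N' : Subgroup B)
    (hN : ∀ d ∈ D, d ∈ N ↔ f d ∈ N') (hn : (N.subgroupOf D).Normal)
    (e : ↥D ⧸ N.subgroupOf D ≃* T) :
    ∃ hn' : (N'.subgroupOf (D.map f)).Normal,
      Nonempty ((↥(D.map f) ⧸ N'.subgroupOf (D.map f)) ≃* T) := by
  obtain ⟨φ, hφ⟩ : ∃ φ : ↥D ≃* ↥(D.map f), ∀ d : ↥D, ((φ d : ↥(D.map f)) : B) = f d :=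
    ⟨D.equivMapOfInjective f hf, fun d => rfl⟩
  have hsurj : Function.Surjective ((e.toMonoidHom.comp
      (QuotientGroup.mk' (N.subgroupOf D))).comp φ.symm.toMonoidHom) :=
    (e.surjective.comp (QuotientGroup.mk'_surjective _)).comp φ.symm.surjective
  have hker : ((e.toMonoidHom.comp
      (QuotientGroup.mk' (N.subgroupOf D))).comp φ.symm.toMonoidHom).ker =
      N'.subgroupOf (D.map f) := by
    ext y
    rw [MonoidHom.mem_ker, Subgroup.mem_subgroupOf]
    have h1 : ((e.toMonoidHom.comp (QuotientGroup.mk' (N.subgroupOf D))).comp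
        φ.symm.toMonoidHom) y = 1 ↔ φ.symm y ∈ N.subgroupOf D := by
      constructor
      · intro h
        have h2 : QuotientGroup.mk' (N.subgroupOf D) (φ.symm y) = 1 :=
          e.injective (by rw [map_one]; exact h)
        exact (QuotientGroup.eq_one_iff _).mp h2
      · intro h
        have h2 : QuotientGroup.mk' (N.subgroupOf D) (φ.symm y) = 1 :=
          (QuotientGroup.eq_one_iff _).mpr h
        show e (QuotientGroup.mk' (N.subgroupOf D) (φ.symm y)) = 1
        rw [h2, map_one]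
    rw [h1, Subgroup.mem_subgroupOf, hN _ (φ.symm y).2, ← hφ, MulEquiv.apply_symm_apply]
  have hn' : (N'.subgroupOf (D.map f)).Normal := by
    rw [← hker]
    infer_instance
  exact ⟨hn', ⟨(QuotientGroup.quotientMulEquivOfEq hker.symm).trans
    (QuotientGroup.quotientKerEquivOfSurjective _ hsurj)⟩⟩

/-- Failure of the Thompson factorization with a coprime operator group: the fixed points
contain a plane and a subgroup inducing `SL₂(p)` on it. -/
theorem coprime_sl2 [Finite G] {p : ℕ} [hp : Fact p.Prime] {q : ℕ} [hq : Fact q.Prime]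
    (K X : Subgroup G) (hXK : X ≤ Subgroup.normalizer (K : Set G))
    (hX : IsElementaryAbelian q X) (hqK : ¬ q ∣ Nat.card ↥K) (hsep : IsPSolvable p ↥K)
    (hO : pPrimeCore p ↥K = ⊥) (hnf : ¬ IsThompsonFactorizable p ↥K) :
    (p = 2 ∨ p = 3) ∧ ∃ W D : Subgroup G, W ≤ K ⊓ Subgroup.centralizer (X : Set G) ∧
      D ≤ K ⊓ Subgroup.centralizer (X : Set G) ∧ IsElementaryAbelian p W ∧
      Nat.card ↥W = p ^ 2 ∧ D ≤ Subgroup.normalizer (W : Set G) ∧
      ∃ hn : ((Subgroup.centralizer (W : Set G)).subgroupOf D).Normal,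
        Nonempty ((↥D ⧸ (Subgroup.centralizer (W : Set G)).subgroupOf D) ≃*
          Matrix.SpecialLinearGroup (Fin 2) (ZMod p)) := by
  classical
  have hc := centralizer_pCore_le_of_isPSolvable hsep hO
  obtain ⟨hVn, hVe, hVmin⟩ := Cfsg.Agent.S0601.result (p := p) hc
  have hJC : ¬ thompsonSubgroup p ↥K ≤ Subgroup.centralizer (((⨆ S : Sylow p ↥K,
      omegaOne p ((S : Subgroup ↥K) ⊓ Subgroup.centralizer ((S : Subgroup ↥K) : Set ↥K))) :
        Subgroup ↥K) : Set ↥K) :=
    fun h => hnf ((Cfsg.Agent.S0608.result hO).mpr h)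
  have hJchar : (thompsonSubgroup p ↥K).Characteristic :=
    (Cfsg.Agent.S0602.result (G := ↥K) (p := p)).1
  have hVKinv : ∀ ϕ : ↥K ≃* ↥K, ∀ v ∈ (⨆ S : Sylow p ↥K,
      omegaOne p ((S : Subgroup ↥K) ⊓ Subgroup.centralizer ((S : Subgroup ↥K) : Set ↥K))),
      ϕ v ∈ (⨆ S : Sylow p ↥K,
      omegaOne p ((S : Subgroup ↥K) ⊓ Subgroup.centralizer ((S : Subgroup ↥K) : Set ↥K))) :=
    fun ϕ => omega_iSup_equiv p ϕ
  obtain ⟨VK, hVK⟩ : ∃ VK : Subgroup ↥K, VK = ⨆ S : Sylow p ↥K,
      omegaOne p ((S : Subgroup ↥K) ⊓ Subgroup.centralizer ((S : Subgroup ↥K) : Set ↥K)) :=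
    ⟨_, rfl⟩
  rw [← hVK] at hVn hVe hVmin hJC hVKinv
  have hJKinv : ∀ ϕ : ↥K ≃* ↥K, ∀ j ∈ thompsonSubgroup p ↥K, ϕ j ∈ thompsonSubgroup p ↥K := by
    intro ϕ j hj
    have h1 := hJchar.fixed ϕ.symm
    have h2 : ϕ j ∈ (thompsonSubgroup p ↥K).comap ϕ.symm.toMonoidHom := by
      rw [Subgroup.mem_comap]
      show ϕ.symm (ϕ j) ∈ thompsonSubgroup p ↥K
      rw [MulEquiv.symm_apply_apply]
      exact hj
    rw [h1] at h2
    exact h2
  have hJdef : thompsonSubgroup p ↥K = sSup (maxElementaryAbelianSubgroups p ↥K) := rfl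
  obtain ⟨JK, hJK⟩ : ∃ JK : Subgroup ↥K, JK = thompsonSubgroup p ↥K := ⟨_, rfl⟩
  rw [← hJK] at hJC hJKinv hJdef
  have hJKn : JK.Normal := by
    rw [hJK]
    exact Subgroup.normal_of_characteristic _
  obtain ⟨hsolHb, hOpHb⟩ := hb_facts hsep VK hVmin JK
  -- the normalizer of `K`
  obtain ⟨M, hM⟩ : ∃ M : Subgroup G, M = Subgroup.normalizer (K : Set G) := ⟨_, rfl⟩
  have hKM : K ≤ M := hM ▸ Subgroup.le_normalizer
  have hXM : X ≤ M := hM ▸ hXK
  obtain ⟨ι, hι, hιinj⟩ : ∃ ι : ↥K →* ↥M, (∀ k : ↥K, ((ι k : ↥M) : G) = k) ∧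
      Function.Injective ι :=
    ⟨Subgroup.inclusion hKM, fun k => rfl, Subgroup.inclusion_injective hKM⟩
  obtain ⟨V₁, hV₁⟩ : ∃ V₁ : Subgroup ↥M, V₁ = VK.map ι := ⟨_, rfl⟩
  obtain ⟨J₁, hJ₁⟩ : ∃ J₁ : Subgroup ↥M, J₁ = JK.map ι := ⟨_, rfl⟩
  have hV₁n : V₁.Normal := by
    rw [hV₁]
    exact map_normal_of_coe hM.le ι hι VK hVKinv
  have hJ₁n : J₁.Normal := by
    rw [hJ₁]
    exact map_normal_of_coe hM.le ι hι JK hJKinv
  have hV₁e : IsElementaryAbelian p V₁ := by
    rw [hV₁]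
    exact ea_map hVe ι
  have hJ₁s : J₁ = sSup ((fun A : Subgroup ↥K => A.map ι) ''
      maxElementaryAbelianSubgroups p ↥K) := by
    rw [hJ₁, hJdef, sSup_eq_iSup', Subgroup.map_iSup, sSup_image']
  have hoff₁ : ∀ A₁ ∈ (fun A : Subgroup ↥K => A.map ι) '' maxElementaryAbelianSubgroups p ↥K,
      IsBestOffenderOn p V₁ A₁ := by
    rintro _ ⟨A, hA, rfl⟩
    rw [hV₁]
    exact bestOffender_map_injective ι hιinj (Cfsg.Agent.S0606.result VK hVe A hA)
  have hJC₁ : ¬ J₁ ≤ Subgroup.centralizer (V₁ : Set ↥M) := by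
    intro h
    apply hJC
    intro j hj
    rw [Subgroup.mem_centralizer_iff]
    intro v hv
    have h1 : ι j ∈ Subgroup.centralizer (V₁ : Set ↥M) :=
      h (by rw [hJ₁]; exact Subgroup.mem_map_of_mem _ hj)
    have h2 := Subgroup.mem_centralizer_iff.mp h1 (ι v)
      (by rw [hV₁]; exact Subgroup.mem_map_of_mem _ hv)
    apply hιinj
    rw [map_mul, map_mul]
    exact h2
  have hfinR : Finite (Real V₁) := finite_real V₁
  have hkerf : ((rho V₁).comp ι).ker =
      (QuotientGroup.mk' (Subgroup.centralizer (VK : Set ↥K))).ker := by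
    rw [QuotientGroup.ker_mk']
    ext k
    rw [MonoidHom.mem_ker, MonoidHom.comp_apply, ← MonoidHom.mem_ker, ker_rho V₁,
      Subgroup.mem_centralizer_iff, Subgroup.mem_centralizer_iff]
    constructor
    · intro h v hv
      apply hιinj
      rw [map_mul, map_mul]
      exact h (ι v) (by rw [hV₁]; exact Subgroup.mem_map_of_mem _ hv)
    · intro h v₁ hv₁
      rw [hV₁] at hv₁
      obtain ⟨v, hv, rfl⟩ := hv₁
      rw [← map_mul, ← map_mul, h v hv]
  obtain ⟨hsol₁, hOp₁⟩ := transfer_image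
    (QuotientGroup.mk' (Subgroup.centralizer (VK : Set ↥K))) ((rho V₁).comp ι) hkerf JK hp.out
    hsolHb hOpHb
  have hmapJ : JK.map ((rho V₁).comp ι) = J₁.map (rho V₁) := by
    rw [hJ₁, Subgroup.map_map]
  rw [hmapJ] at hsol₁ hOp₁
  have hX₁p' : IsPGroup q ↥(X.subgroupOf M) := by
    intro g
    refine ⟨1, ?_⟩
    have hg : ((g : ↥M) : G) ∈ X := Subgroup.mem_subgroupOf.mp g.2
    apply Subtype.ext
    apply Subtype.ext
    rw [pow_one]
    exact hX.2 _ hg
  obtain ⟨X₁, hX₁⟩ : ∃ X₁ : Subgroup ↥M, X₁ = X.subgroupOf M := ⟨_, rfl⟩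
  have hX₁p : IsPGroup q ↥X₁ := by
    rw [hX₁]
    exact hX₁p'
  have hqJ₁ : ¬ q ∣ Nat.card ↥J₁ := by
    intro h
    apply hqK
    rw [hJ₁, Subgroup.card_map_of_injective hιinj] at h
    exact h.trans (Subgroup.card_subgroup_dvd_card JK)
  obtain ⟨hp23, W₁, D₁, hW₁, hD₁, hW₁c, hD₁N, hn₁, ⟨e₁⟩⟩ :=
    coprime_abstract V₁ hV₁e J₁ _ hJ₁s hoff₁ hJC₁ hsol₁ hOp₁ X₁ hX₁p hqJ₁
  have hcent : ∀ (T : Subgroup ↥M) (t : ↥M), t ∈ T →
      T ≤ Subgroup.centralizer (X₁ : Set ↥M) →
      (t : G) ∈ Subgroup.centralizer (X : Set G) := by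
    intro T t ht hT
    rw [Subgroup.mem_centralizer_iff]
    intro x hx
    have h1 := Subgroup.mem_centralizer_iff.mp (hT ht) ⟨x, hXM hx⟩
      (by rw [hX₁]; exact Subgroup.mem_subgroupOf.mpr hx)
    exact congrArg Subtype.val h1
  refine ⟨hp23, W₁.map M.subtype, D₁.map M.subtype, ?_, ?_, ?_, ?_, ?_, ?_⟩
  · rintro _ ⟨w, hw, rfl⟩
    refine ⟨?_, hcent W₁ w hw (hW₁.trans inf_le_right)⟩
    have hwV := (hW₁ hw).1
    rw [hV₁] at hwV
    obtain ⟨v, -, rfl⟩ := hwV
    show ((ι v : ↥M) : G) ∈ K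
    rw [hι]
    exact v.2
  · rintro _ ⟨d, hd, rfl⟩
    refine ⟨?_, hcent D₁ d hd (hD₁.trans inf_le_right)⟩
    have hdJ := (hD₁ hd).1
    rw [hJ₁] at hdJ
    obtain ⟨j, -, rfl⟩ := hdJ
    show ((ι j : ↥M) : G) ∈ K
    rw [hι]
    exact j.2
  · exact ea_map (ea_mono hV₁e (hW₁.trans inf_le_left)) M.subtype
  · rw [Subgroup.card_map_of_injective M.subtype_injective]
    exact hW₁c
  · apply le_normalizer_of_conj_mem
    rintro _ ⟨d, hd, rfl⟩ _ ⟨w, hw, rfl⟩
    exact ⟨d * w * d⁻¹, (Subgroup.mem_normalizer_iff.mp (hD₁N hd) w).mp hw, rfl⟩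
  · refine quot_push M.subtype M.subtype_injective D₁ (Subgroup.centralizer (W₁ : Set ↥M))
      (Subgroup.centralizer ((W₁.map M.subtype : Subgroup G) : Set G)) ?_ hn₁ e₁
    intro d _
    constructor
    · intro h
      rw [Subgroup.mem_centralizer_iff]
      rintro _ ⟨w, hw, rfl⟩
      exact congrArg Subtype.val (Subgroup.mem_centralizer_iff.mp h w hw)
    · intro h
      rw [Subgroup.mem_centralizer_iff]
      intro w hw
      apply Subtype.ext
      exact Subgroup.mem_centralizer_iff.mp h w ⟨w, hw, rfl⟩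

end Cfsg.Agent.Lib.Helper6.FFXT
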