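import Mathlib
import Cfsg.Agent.Lib.Helper6.FFXT
import Cfsg.Agent.S0604

/-! Generation by the normalizer of `J(S)`, the centralizer of `Ω₁(Z(S))` and the fixed points of
a coprime operator group. -/

set_option autoImplicit false

namespace Cfsg.Agent.Lib.Helper6.FFGen

open Cfsg
open Cfsg.Agent.Lib.Helper6
open Cfsg.Agent.Lib.Helper6.BestOff
open Cfsg.Agent.Lib.Helper6.FFAll
open Cfsg.Agent.Lib.Helper6.FFReal
open Cfsg.Agent.Lib.Helper6.FFX
open Cfsg.Agent.Lib.Helper6.FFXT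
open Cfsg.Agent.Lib.Helper14

open scoped commutatorElement

universe u

variable {G : Type u} [Group G]

section main

variable [Finite G] {p : ℕ} [hp : Fact p.Prime] {V H Q : Subgroup G}

/-- The norm map over the orbit of a factor `E` under a group `Xs` of `q`-elements (`q ≥ 5`)
normalizing `V`, `H` and `Q`: a homomorphism on `E [V, E]` with values fixed by `Xs`, injective
on the plane `[V, E]`. -/
theorem exists_norm' (hS : Setting p V H Q)
    (hS3 : H = ⨆ A : {A : Subgroup G // A ≤ H ∧ IsBestOffenderOn p V A}, (A : Subgroup G))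
    (hH1 : H ≠ ⊥) {E : Subgroup G} (hE : IsFac p V H Q E) {q : ℕ} (hq : q.Prime)
    (hq2 : q ≠ 2) (hq3 : q ≠ 3) (Xs : Subgroup G) (hXV : ∀ x ∈ Xs, cj x V = V)
    (hXH : ∀ x ∈ Xs, cj x H = H) (hXQ : ∀ x ∈ Xs, cj x Q = Q)
    (hXq : ∀ x ∈ Xs, ∃ k : ℕ, x ^ q ^ k = 1) :
    ∃ Nm : ↥(E ⊔ ⁅V, E⁆) →* G,
      (∀ y ∈ Xs, ∀ r, y * Nm r * y⁻¹ = Nm r) ∧
      (∀ r : ↥(E ⊔ ⁅V, E⁆), (r : G) ∈ E → Nm r ∈ H) ∧
      (∀ r : ↥(E ⊔ ⁅V, E⁆), (r : G) ∈ ⁅V, E⁆ → Nm r ∈ V) ∧
      (∀ r : ↥(E ⊔ ⁅V, E⁆), (r : G) ∈ ⁅V, E⁆ → Nm r = 1 → r = 1) ∧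
      (∀ r : ↥(E ⊔ ⁅V, E⁆), ∃ c ∈ Subgroup.centralizer (E : Set G), Nm r = (r : G) * c) := by
  classical
  obtain ⟨-, -, -, -, hEH, hWV, -, -, -⟩ := fac_facts hS hS3 hE
  let Orb : Type u := {F : Subgroup G // ∃ x ∈ Xs, F = cj x E}
  have : Fintype Orb := Fintype.ofFinite Orb
  have hch : ∀ F : Orb, ∃ x ∈ Xs, (F : Subgroup G) = cj x E := fun F => F.2
  choose xF hxF hFx using hch
  have hFac : ∀ F : Orb, IsFac p V H Q (F : Subgroup G) := by
    intro F
    rw [hFx F]
    exact isFac_cj hE (hXV _ (hxF F)) (hXH _ (hxF F)) (hXQ _ (hxF F))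
  let ϕ : Orb → ↥(E ⊔ ⁅V, E⁆) →* G :=
    fun F => (MulAut.conj (xF F)).toMonoidHom.comp (E ⊔ ⁅V, E⁆).subtype
  have hϕ : ∀ (F : Orb) (r : ↥(E ⊔ ⁅V, E⁆)), ϕ F r = xF F * (r : G) * (xF F)⁻¹ :=
    fun F r => rfl
  have hϕmem : ∀ (F : Orb) (r : ↥(E ⊔ ⁅V, E⁆)),
      ϕ F r ∈ (F : Subgroup G) ⊔ ⁅V, (F : Subgroup G)⁆ := by
    intro F r
    have h1 : ϕ F r ∈ cj (xF F) (E ⊔ ⁅V, E⁆) := conj_mem_cj r.2
    rw [cj_sup, cj_commutator, hXV _ (hxF F), ← hFx F] at h1
    exact h1
  have hVc := Cfsg.Agent.Lib.Helper6.FFSL2.comm_V hS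
  have hcomm : Pairwise fun F F' : Orb => ∀ r r', Commute (ϕ F r) (ϕ F' r') := by
    intro F F' hne r r'
    have hne' : (F : Subgroup G) ≠ (F' : Subgroup G) := fun h => hne (Subtype.ext h)
    obtain ⟨h1, h2⟩ := fac_pair hS (hFac F) (hFac F') hne'
    obtain ⟨h3, h4⟩ := fac_pair hS (hFac F') (hFac F) (Ne.symm hne')
    have hWF : ⁅V, (F : Subgroup G)⁆ ≤ V := (fac_facts hS hS3 (hFac F)).2.2.2.2.2.1
    have hWF' : ⁅V, (F' : Subgroup G)⁆ ≤ V := (fac_facts hS hS3 (hFac F')).2.2.2.2.2.1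
    have hle : (F : Subgroup G) ⊔ ⁅V, (F : Subgroup G)⁆ ≤ Subgroup.centralizer
        (((F' : Subgroup G) ⊔ ⁅V, (F' : Subgroup G)⁆ : Subgroup G) : Set G) := by
      rw [Subgroup.le_centralizer_iff]
      refine sup_le ?_ ?_
      · rw [Subgroup.le_centralizer_iff]
        exact sup_le h3 (Subgroup.le_centralizer_iff.mp h2)
      · rw [Subgroup.le_centralizer_iff]
        refine sup_le h4 ?_
        intro w hw
        rw [Subgroup.mem_centralizer_iff]
        intro w' hw'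
        exact hVc w' (hWF' hw') w (hWF hw)
    have h5 := Subgroup.mem_centralizer_iff.mp (hle (hϕmem F r)) _ (hϕmem F' r')
    exact h5.symm
  obtain ⟨diag, hdiag⟩ : ∃ diag : ↥(E ⊔ ⁅V, E⁆) →* (Orb → ↥(E ⊔ ⁅V, E⁆)),
      ∀ r, diag r = fun _ => r :=
    ⟨{ toFun := fun r _ => r, map_one' := rfl, map_mul' := fun _ _ => rfl }, fun r => rfl⟩
  have hNm : ∀ r, ((MonoidHom.noncommPiCoprod ϕ hcomm).comp diag) r =
      MonoidHom.noncommPiCoprod ϕ hcomm (fun _ => r) := by
    intro r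
    rw [MonoidHom.comp_apply, hdiag]
  refine ⟨(MonoidHom.noncommPiCoprod ϕ hcomm).comp diag, ?_, ?_, ?_, ?_, ?_⟩
  · intro y hy r
    rw [hNm]
    have hσ : ∀ F : Orb, ∃ x ∈ Xs, cj y (F : Subgroup G) = cj x E := by
      intro F
      exact ⟨y * xF F, Xs.mul_mem hy (hxF F), by rw [cj_mul, ← hFx F]⟩
    have hσ' : ∀ F : Orb, ∃ x ∈ Xs, cj y⁻¹ (F : Subgroup G) = cj x E := by
      intro F
      exact ⟨y⁻¹ * xF F, Xs.mul_mem (Xs.inv_mem hy) (hxF F), by rw [cj_mul, ← hFx F]⟩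
    let σ : Orb ≃ Orb :=
      { toFun := fun F => ⟨cj y F, hσ F⟩
        invFun := fun F => ⟨cj y⁻¹ F, hσ' F⟩
        left_inv := fun F => Subtype.ext (cj_inv_cj y F)
        right_inv := fun F => Subtype.ext (cj_cj_inv y F) }
    refine noncommPiCoprod_conj_invariant ϕ hcomm y σ ?_ r
    intro F r'
    rw [hϕ, hϕ]
    have hzX : (xF (σ F))⁻¹ * y * xF F ∈ Xs :=
      Xs.mul_mem (Xs.mul_mem (Xs.inv_mem (hxF _)) hy) (hxF F)
    have hzE : cj ((xF (σ F))⁻¹ * y * xF F) E = E := by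
      rw [cj_mul, cj_mul, ← hFx F]
      have h1 : cj y (F : Subgroup G) = cj (xF (σ F)) E := hFx (σ F)
      rw [h1, cj_inv_cj]
    obtain ⟨k, hk⟩ := hXq _ hzX
    obtain ⟨hz1, hz2⟩ := stab_centralizes hS hS3 hE hq hq2 hq3 (hXV _ hzX) hzE hk
    have hzr : ((xF (σ F))⁻¹ * y * xF F) * (r' : G) =
        (r' : G) * ((xF (σ F))⁻¹ * y * xF F) := by
      have hle : E ⊔ ⁅V, E⁆ ≤
          Subgroup.centralizer ({(xF (σ F))⁻¹ * y * xF F} : Set G) := by
        refine sup_le ?_ ?_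
        · intro e he
          rw [Subgroup.mem_centralizer_iff]
          intro h hh
          rw [Set.mem_singleton_iff.mp hh]
          exact (Subgroup.mem_centralizer_iff.mp hz1 e he).symm
        · intro w hw
          rw [Subgroup.mem_centralizer_iff]
          intro h hh
          rw [Set.mem_singleton_iff.mp hh]
          exact (Subgroup.mem_centralizer_iff.mp hz2 w hw).symm
      exact Subgroup.mem_centralizer_iff.mp (hle r'.2) _ (Set.mem_singleton _)
    calc y * (xF F * (r' : G) * (xF F)⁻¹) * y⁻¹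
        = xF (σ F) * (((xF (σ F))⁻¹ * y * xF F) * (r' : G)) *
            ((xF (σ F))⁻¹ * y * xF F)⁻¹ * (xF (σ F))⁻¹ := by group
      _ = xF (σ F) * ((r' : G) * ((xF (σ F))⁻¹ * y * xF F)) *
            ((xF (σ F))⁻¹ * y * xF F)⁻¹ * (xF (σ F))⁻¹ := by rw [hzr]
      _ = xF (σ F) * (r' : G) * (xF (σ F))⁻¹ := by group
  · intro r hr
    rw [hNm, MonoidHom.noncommPiCoprod_apply]
    apply Subgroup.noncommProd_mem
    intro F _
    have h1 : xF F * (r : G) * (xF F)⁻¹ ∈ cj (xF F) H := conj_mem_cj (hEH hr)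
    rw [hXH _ (hxF F)] at h1
    exact h1
  · intro r hr
    rw [hNm, MonoidHom.noncommPiCoprod_apply]
    apply Subgroup.noncommProd_mem
    intro F _
    have h1 : xF F * (r : G) * (xF F)⁻¹ ∈ cj (xF F) V := conj_mem_cj (hWV hr)
    rw [hXV _ (hxF F)] at h1
    exact h1
  · intro r hr h1
    rw [hNm, MonoidHom.noncommPiCoprod_apply] at h1
    have hind : iSupIndep (fun F : Orb => ⁅V, (F : Subgroup G)⁆) := by
      obtain ⟨-, -, -, -, hind, -⟩ := struct_all hS hS3 hH1
      have hinj : Function.Injective (fun F : Orb =>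
          (some ⟨(F : Subgroup G), hFac F⟩ : Option {E : Subgroup G // IsFac p V H Q E})) := by
        intro F F' h
        simp only [Option.some.injEq, Subtype.mk.injEq] at h
        exact Subtype.ext h
      exact hind.comp hinj
    have hall := Subgroup.eq_one_of_noncommProd_eq_one_of_iSupIndep Finset.univ
      (fun F : Orb => ϕ F r) _ (fun F : Orb => ⁅V, (F : Subgroup G)⁆) hind (by
        intro F _
        have h2 : xF F * (r : G) * (xF F)⁻¹ ∈ cj (xF F) ⁅V, E⁆ := conj_mem_cj hr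
        rw [cj_commutator, hXV _ (hxF F), ← hFx F] at h2
        exact h2) h1
    have h3 := hall ⟨E, 1, Xs.one_mem, (cj_one E).symm⟩ (Finset.mem_univ _)
    rw [hϕ] at h3
    apply Subtype.ext
    rw [Subgroup.coe_one]
    exact conj_eq_one_iff.mp h3
  · intro r
    rw [hNm]
    obtain ⟨F₀, hF₀⟩ : ∃ F₀ : Orb, (F₀ : Subgroup G) = E :=
      ⟨⟨E, 1, Xs.one_mem, (cj_one E).symm⟩, rfl⟩
    have hx₀E : cj (xF F₀) E = E := by
      rw [← hFx F₀, hF₀]
    obtain ⟨k, hk⟩ := hXq _ (hxF F₀)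
    obtain ⟨hz1, hz2⟩ := stab_centralizes hS hS3 hE hq hq2 hq3 (hXV _ (hxF F₀)) hx₀E hk
    have hx₀r : xF F₀ * (r : G) * (xF F₀)⁻¹ = (r : G) := by
      have hle : E ⊔ ⁅V, E⁆ ≤ Subgroup.centralizer ({xF F₀} : Set G) := by
        refine sup_le ?_ ?_
        · intro e he
          rw [Subgroup.mem_centralizer_iff]
          intro h hh
          rw [Set.mem_singleton_iff.mp hh]
          exact (Subgroup.mem_centralizer_iff.mp hz1 e he).symm
        · intro w hw
          rw [Subgroup.mem_centralizer_iff]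
          intro h hh
          rw [Set.mem_singleton_iff.mp hh]
          exact (Subgroup.mem_centralizer_iff.mp hz2 w hw).symm
      have h1 := Subgroup.mem_centralizer_iff.mp (hle r.2) _ (Set.mem_singleton _)
      rw [h1]
      group
    have hsplit : (fun _ : Orb => r) = Pi.mulSingle F₀ r * Function.update (fun _ : Orb => r) F₀ 1 := by
      funext F
      by_cases hF : F = F₀
      · subst hF
        simp
      · simp [Pi.mulSingle_eq_of_ne hF, Function.update_of_ne hF]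
    refine ⟨MonoidHom.noncommPiCoprod ϕ hcomm (Function.update (fun _ : Orb => r) F₀ 1), ?_, ?_⟩
    · rw [MonoidHom.noncommPiCoprod_apply]
      apply Subgroup.noncommProd_mem
      intro F _
      by_cases hF : F = F₀
      · subst hF
        simp
      · have hne : (F : Subgroup G) ≠ E := fun h => hF (Subtype.ext (h.trans hF₀.symm))
        obtain ⟨h1, -⟩ := fac_pair hS hE (hFac F) (Ne.symm hne)
        obtain ⟨-, h4⟩ := fac_pair hS (hFac F) hE hne
        have hle : (F : Subgroup G) ⊔ ⁅V, (F : Subgroup G)⁆ ≤ Subgroup.centralizer (E : Set G) :=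
          sup_le h1 (Subgroup.le_centralizer_iff.mp h4)
        have h5 : ϕ F (Function.update (fun _ : Orb => r) F₀ 1 F) ∈
            (F : Subgroup G) ⊔ ⁅V, (F : Subgroup G)⁆ := hϕmem F _
        exact hle h5
    · conv_lhs => rw [hsplit]
      rw [map_mul, MonoidHom.noncommPiCoprod_mulSingle, hϕ, hx₀r]

/-- A subgroup of a factor that is normalized by the factor and has order divisible by `p` is
the whole factor. -/
theorem fac_normal_sub (hS : Setting p V H Q)
    (hS3 : H = ⨆ A : {A : Subgroup G // A ≤ H ∧ IsBestOffenderOn p V A}, (A : Subgroup G))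
    {E : Subgroup G} (hE : IsFac p V H Q E) {U : Subgroup G} (hUE : U ≤ E)
    (hUn : ∀ e ∈ E, ∀ u ∈ U, e * u * e⁻¹ ∈ U) (hpU : p ∣ Nat.card ↥U) : U = E := by
  classical
  obtain ⟨hp23, -, ⟨ψ⟩, -, -, -, -, -, -⟩ := fac_facts hS hS3 hE
  have hcardE : Nat.card ↥E = Nat.card (Matrix.SpecialLinearGroup (Fin 2) (ZMod p)) :=
    Nat.card_congr ψ.toEquiv
  have hpp : ¬ p * p ∣ Nat.card ↥E := by
    rw [hcardE]
    rcases hp23 with rfl | rfl
    · have h : Fintype.card (Matrix.SpecialLinearGroup (Fin 2) (ZMod 2)) = 6 := by decide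
      rw [Nat.card_eq_fintype_card, h]
      decide
    · have h : Fintype.card (Matrix.SpecialLinearGroup (Fin 2) (ZMod 3)) = 24 := by decide
      rw [Nat.card_eq_fintype_card, h]
      decide
  have hUnorm : (U.subgroupOf E).Normal := by
    constructor
    intro n hn g
    rw [Subgroup.mem_subgroupOf] at hn ⊢
    exact hUn g g.2 n hn
  have hcardU : Nat.card ↥(U.subgroupOf E) = Nat.card ↥U :=
    Nat.card_congr (Subgroup.subgroupOfEquivOfLe hUE).toEquiv
  have hquot : ¬ p ∣ Nat.card (↥E ⧸ U.subgroupOf E) := by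
    intro h
    apply hpp
    rw [Subgroup.card_eq_card_quotient_mul_card_subgroup (U.subgroupOf E), hcardU]
    exact Nat.mul_dvd_mul h hpU
  have hclaim : ∀ g ∈ E, g ^ p = 1 → g ∈ U := by
    intro g hg hgp
    have h1 : (QuotientGroup.mk' (U.subgroupOf E) ⟨g, hg⟩) ^ p = 1 := by
      rw [← map_pow]
      have h2 : (⟨g, hg⟩ : ↥E) ^ p = 1 := Subtype.ext hgp
      rw [h2, map_one]
    have h3 : orderOf (QuotientGroup.mk' (U.subgroupOf E) ⟨g, hg⟩) ∣ p :=
      orderOf_dvd_of_pow_eq_one h1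
    have h4 : orderOf (QuotientGroup.mk' (U.subgroupOf E) ⟨g, hg⟩) ∣
        Nat.card (↥E ⧸ U.subgroupOf E) := orderOf_dvd_natCard _
    rcases (Nat.dvd_prime hp.out).mp h3 with h5 | h5
    · have h6 : QuotientGroup.mk' (U.subgroupOf E) ⟨g, hg⟩ = 1 := orderOf_eq_one_iff.mp h5
      have h7 := (QuotientGroup.eq_one_iff _).mp h6
      exact Subgroup.mem_subgroupOf.mp h7
    · rw [h5] at h4
      exact absurd h4 hquot
  obtain ⟨A, hAH, hA, hAV, hmin, rfl⟩ := hE
  obtain ⟨a, d, b, e, α, β, hK, hEL⟩ := offender_pkg hS hAH hA hAV hmin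
  apply le_antisymm hUE
  rw [hEL]
  have haE : a ∈ ⁅Q, A⁆ ⊔ A := by
    rw [hEL]
    exact Subgroup.mem_sup_left (Subgroup.mem_zpowers a)
  have hbE : b ∈ ⁅Q, A⁆ ⊔ A := by
    rw [hEL]
    exact Subgroup.mem_sup_right (Subgroup.mem_zpowers b)
  exact sup_le ((Subgroup.zpowers_le).mpr (hclaim a haE hK.hTa.hap))
    ((Subgroup.zpowers_le).mpr (hclaim b hbE hK.hTb.hap))

end main

/-- Lifting an element of the image of `J` commuting with the image of `X` to an element of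
`J` commuting with `X`. -/
theorem lift_fixed [Finite G] {q : ℕ} [hq : Fact q.Prime] (V : Subgroup G) [hVn : V.Normal]
    (J : Subgroup G) [hJn : J.Normal] (X : Subgroup G) (hX : IsPGroup q ↥X)
    (hqJ : ¬ q ∣ Nat.card ↥J) {d' : Real V} (hd'H : d' ∈ J.map (rho V))
    (hd'X : ∀ x ∈ X, rho V x * d' = d' * rho V x) :
    ∃ d ∈ J ⊓ Subgroup.centralizer (X : Set G), rho V d = d' := by
  obtain ⟨j, hj, hjd⟩ := hd'H
  have hC0n : (J ⊓ Subgroup.centralizer (V : Set G)).Normal := inferInstance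
  have hk : ∀ x ∈ X, j⁻¹ * x * j * x⁻¹ ∈ J ⊓ Subgroup.centralizer (V : Set G) := by
    intro x hx
    refine ⟨?_, ?_⟩
    · have h1 : j⁻¹ * x * j * x⁻¹ = j⁻¹ * (x * j * x⁻¹) := by group
      rw [h1]
      exact J.mul_mem (J.inv_mem hj) (hJn.conj_mem j hj x)
    · show j⁻¹ * x * j * x⁻¹ ∈ Subgroup.centralizer (V : Set G)
      rw [← ker_rho V, MonoidHom.mem_ker]
      have h2 := hd'X x hx
      rw [map_mul, map_mul, map_mul, map_inv, map_inv, hjd]
      calc d'⁻¹ * rho V x * d' * (rho V x)⁻¹ = d'⁻¹ * (rho V x * d') * (rho V x)⁻¹ := by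
            group
        _ = d'⁻¹ * (d' * rho V x) * (rho V x)⁻¹ := by rw [h2]
        _ = 1 := by group
  have hXC : X ≤ Subgroup.normalizer
      ((J ⊓ Subgroup.centralizer (V : Set G) : Subgroup G) : Set G) := by
    rw [Subgroup.normalizer_eq_top_iff.mpr hC0n]
    exact le_top
  have hqC : ¬ q ∣ Nat.card ↥(J ⊓ Subgroup.centralizer (V : Set G)) :=
    fun h => hqJ (h.trans (Subgroup.card_dvd_of_le inf_le_left))
  obtain ⟨c, hc, hcx⟩ := exists_fixed_in_coset hX hXC hqC hk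
  refine ⟨j * c, ⟨J.mul_mem hj hc.1, ?_⟩, ?_⟩
  · show j * c ∈ Subgroup.centralizer (X : Set G)
    rw [Subgroup.mem_centralizer_iff]
    intro x hx
    exact hcx x hx
  · rw [map_mul, rho_eq_one V hc.2, mul_one, hjd]

/-- Generation, abstract form: a subgroup `L` containing `C_J(V)`, the fixed points of `X` on
`J` and a Sylow `p`-subgroup of `J` contains `J`. -/
theorem coprime_gen_abstract [Finite G] {p : ℕ} [hp : Fact p.Prime] {q : ℕ} [hq : Fact q.Prime]
    (V : Subgroup G) [hVn : V.Normal] (hV : IsElementaryAbelian p V)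
    (J : Subgroup G) [hJn : J.Normal] (𝒜 : Set (Subgroup G)) (hJ : J = sSup 𝒜)
    (hoff : ∀ A ∈ 𝒜, IsBestOffenderOn p V A)
    (hJC : ¬ J ≤ Subgroup.centralizer (V : Set G))
    (hsolJ : IsPSolvable p ↥(J.map (rho V))) (hOpJ : pCore p ↥(J.map (rho V)) = ⊥)
    (X : Subgroup G) (hX : IsPGroup q ↥X) (hqJ : ¬ q ∣ Nat.card ↥J)
    (L P : Subgroup G) (hL1 : J ⊓ Subgroup.centralizer (V : Set G) ≤ L)
    (hL2 : J ⊓ Subgroup.centralizer (X : Set G) ≤ L) (hPL : P ≤ L) (hPJ : P ≤ J)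
    (hPi : ¬ p ∣ P.relIndex J) : J ≤ L := by
  classical
  have hfin : Finite (Real V) := finite_real V
  obtain ⟨H', hH'map⟩ : ∃ H' : Subgroup (Real V), H' = J.map (rho V) := ⟨_, rfl⟩
  rw [← hH'map] at hsolJ hOpJ
  have hS1' : Subgroup.centralizer (pPrimeCore p ↥H' : Set ↥H') ≤ pPrimeCore p ↥H' :=
    centralizer_pPrimeCore_le_of_isPSolvable hsolJ hOpJ
  have hHV' : H' ≤ Subgroup.normalizer ((Vimg V : Subgroup (Real V)) : Set (Real V)) := by
    rw [Subgroup.normalizer_eq_top_iff.mpr (Vimg_normal V)]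
    exact le_top
  have hf' : H' ⊓ Subgroup.centralizer ((Vimg V : Subgroup (Real V)) : Set (Real V)) = ⊥ := by
    rw [hH'map]
    exact faithful V J
  have hS' := setting_of (Vimg V) H' (Vimg_elementary V hV) hHV' hf' hS1'
  have hAle : ∀ A ∈ 𝒜, A.map (rho V) ≤ H' := by
    intro A hA
    rw [hH'map]
    apply Subgroup.map_mono
    rw [hJ]
    exact le_sSup hA
  have hS3' : H' = ⨆ A' : {A' : Subgroup (Real V) // A' ≤ H' ∧
      IsBestOffenderOn p (Vimg V) A'}, (A' : Subgroup (Real V)) := by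
    apply le_antisymm ?_ (iSup_le (fun A' => A'.2.1))
    have h1 : H' = ⨆ A : 𝒜, (A : Subgroup G).map (rho V) := by
      rw [hH'map, hJ, sSup_eq_iSup', Subgroup.map_iSup]
    conv_lhs => rw [h1]
    exact iSup_le (fun A => le_iSup_of_le (⟨(A : Subgroup G).map (rho V), hAle A A.2,
      bestOffender_map V (hoff A A.2)⟩ : {A' : Subgroup (Real V) // A' ≤ H' ∧
        IsBestOffenderOn p (Vimg V) A'}) le_rfl)
  have hH1' : H' ≠ ⊥ := by
    intro h
    apply hJC
    intro j hj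
    have h1 : rho V j ∈ H' := by
      rw [hH'map]
      exact Subgroup.mem_map_of_mem _ hj
    rw [h, Subgroup.mem_bot] at h1
    rw [← ker_rho V]
    exact h1
  obtain ⟨hp23, -, -, hsupE, -, -⟩ := struct_all hS' hS3' hH1'
  have hne : Nonempty {E : Subgroup (Real V) // IsFac p (Vimg V) H'
      ((pPrimeCore p ↥H').map H'.subtype) E} := by
    by_contra hcon
    rw [not_nonempty_iff] at hcon
    apply hH1'
    rw [← hsupE, iSup_of_empty]
  obtain ⟨⟨E', hE'⟩⟩ := hne
  obtain ⟨-, -, ⟨ψ⟩, hcardW, hE'H, hWV', -, hfaith, -⟩ := fac_facts hS' hS3' hE'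
  -- the prime `q` is at least 5
  have h6 : 6 ∣ Nat.card ↥J := by
    have h1 : 6 ∣ Nat.card ↥E' := by
      rw [Nat.card_congr ψ.toEquiv]
      exact six_dvd_card_SL2 hp23
    have h2 : Nat.card ↥E' ∣ Nat.card ↥H' := Subgroup.card_dvd_of_le hE'H
    have h3 : Nat.card ↥H' ∣ Nat.card ↥J := by
      rw [hH'map]
      exact Dvd.intro _ (card_map_rho V J)
    exact h1.trans (h2.trans h3)
  have hq2 : q ≠ 2 := by
    rintro rfl
    exact hqJ (Dvd.dvd.trans ⟨3, rfl⟩ h6)
  have hq3 : q ≠ 3 := by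
    rintro rfl
    exact hqJ (Dvd.dvd.trans ⟨2, rfl⟩ h6)
  -- the operator group in the realization
  obtain ⟨Xs, hXs⟩ : ∃ Xs : Subgroup (Real V), Xs = X.map (rho V) := ⟨_, rfl⟩
  have hXV : ∀ x ∈ Xs, cj x (Vimg V) = Vimg V := by
    intro x _
    apply cj_eq_of_mem_normalizer
    rw [Subgroup.normalizer_eq_top_iff.mpr (Vimg_normal V)]
    exact Subgroup.mem_top x
  have hXH : ∀ x ∈ Xs, cj x H' = H' := by
    intro x hx
    rw [hXs] at hx
    obtain ⟨g, -, rfl⟩ := hx
    apply cj_eq_of_mem_normalizer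
    rw [hH'map]
    apply Subgroup.le_normalizer_map (rho V)
    refine ⟨g, ?_, rfl⟩
    rw [Subgroup.normalizer_eq_top_iff.mpr hJn]
    exact Subgroup.mem_top g
  have hXQ : ∀ x ∈ Xs, cj x ((pPrimeCore p ↥H').map H'.subtype) =
      (pPrimeCore p ↥H').map H'.subtype :=
    fun x hx => cj_pPrimeCore p (hXH x hx)
  have hXq : ∀ x ∈ Xs, ∃ k : ℕ, x ^ q ^ k = 1 := by
    intro x hx
    rw [hXs] at hx
    obtain ⟨g, hg, rfl⟩ := hx
    obtain ⟨k, hk⟩ := hX ⟨g, hg⟩
    refine ⟨k, ?_⟩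
    have h1 : g ^ q ^ k = 1 := by
      have := congrArg Subtype.val hk
      simpa using this
    rw [← map_pow, h1, map_one]
  have hXsmem : ∀ x ∈ X, rho V x ∈ Xs := by
    intro x hx
    rw [hXs]
    exact Subgroup.mem_map_of_mem _ hx
  obtain ⟨L', hL'⟩ : ∃ L' : Subgroup (Real V), L' = (L ⊓ J).map (rho V) := ⟨_, rfl⟩
  obtain ⟨P', hP'⟩ : ∃ P' : Subgroup (Real V), P' = P.map (rho V) := ⟨_, rfl⟩
  have hP'L : P' ≤ L' := by
    rw [hP', hL']
    exact Subgroup.map_mono (le_inf hPL hPJ)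
  have hP'H : P' ≤ H' := by
    rw [hP', hH'map]
    exact Subgroup.map_mono hPJ
  have hP'i : ¬ p ∣ P'.relIndex H' := by
    intro h
    apply hPi
    have c1 := card_map_rho V J
    have c2 := card_map_rho V P
    have c3 := relIndex_mul_card_of_le hPJ
    have c4 := relIndex_mul_card_of_le hP'H
    have c5 := relIndex_mul_card_of_le (inf_le_inf_right (Subgroup.centralizer (V : Set G)) hPJ)
    rw [← hH'map] at c1
    rw [← hP'] at c2
    have hpos : 0 < Nat.card ↥P' * Nat.card ↥(P ⊓ Subgroup.centralizer (V : Set G)) :=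
      Nat.mul_pos Nat.card_pos Nat.card_pos
    have h7 : (P'.relIndex H' * (P ⊓ Subgroup.centralizer (V : Set G)).relIndex
        (J ⊓ Subgroup.centralizer (V : Set G))) *
        (Nat.card ↥P' * Nat.card ↥(P ⊓ Subgroup.centralizer (V : Set G))) =
        P.relIndex J * (Nat.card ↥P' * Nat.card ↥(P ⊓ Subgroup.centralizer (V : Set G))) := by
      calc (P'.relIndex H' * (P ⊓ Subgroup.centralizer (V : Set G)).relIndex
          (J ⊓ Subgroup.centralizer (V : Set G))) *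
          (Nat.card ↥P' * Nat.card ↥(P ⊓ Subgroup.centralizer (V : Set G)))
          = (P'.relIndex H' * Nat.card ↥P') *
            ((P ⊓ Subgroup.centralizer (V : Set G)).relIndex
              (J ⊓ Subgroup.centralizer (V : Set G)) *
              Nat.card ↥(P ⊓ Subgroup.centralizer (V : Set G))) := by ring
        _ = Nat.card ↥H' * Nat.card ↥(J ⊓ Subgroup.centralizer (V : Set G)) := by rw [c4, c5]
        _ = Nat.card ↥J := c1
        _ = P.relIndex J * Nat.card ↥P := c3.symm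
        _ = P.relIndex J *
            (Nat.card ↥P' * Nat.card ↥(P ⊓ Subgroup.centralizer (V : Set G))) := by rw [c2]
    have h8 := Nat.eq_of_mul_eq_mul_right hpos h7
    rw [← h8]
    exact Dvd.dvd.mul_right h _
  have hfacL : ∀ E : Subgroup (Real V), IsFac p (Vimg V) H'
      ((pPrimeCore p ↥H').map H'.subtype) E → E ≤ L' := by
    intro E hE
    obtain ⟨-, hHE, ⟨ψE⟩, -, hEH, -, -, -, -⟩ := fac_facts hS' hS3' hE
    obtain ⟨Nm, hN1, hN2, -, -, hN5⟩ :=
      exists_norm' hS' hS3' hH1' hE hq.out hq2 hq3 Xs hXV hXH hXQ hXq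
    have hNmL : ∀ e ∈ E, ∃ c ∈ Subgroup.centralizer (E : Set (Real V)), e * c ∈ L' := by
      intro e he
      obtain ⟨c, hc, hNc⟩ := hN5 ⟨e, (le_sup_left : E ≤ E ⊔ ⁅Vimg V, E⁆) he⟩
      refine ⟨c, hc, ?_⟩
      have h1 : Nm ⟨e, (le_sup_left : E ≤ E ⊔ ⁅Vimg V, E⁆) he⟩ ∈ J.map (rho V) := by
        rw [← hH'map]
        exact hN2 _ he
      have h2 : ∀ x ∈ X, rho V x * Nm ⟨e, (le_sup_left : E ≤ E ⊔ ⁅Vimg V, E⁆) he⟩ =
          Nm ⟨e, (le_sup_left : E ≤ E ⊔ ⁅Vimg V, E⁆) he⟩ * rho V x :=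
        fun x hx => mul_inv_eq_iff_eq_mul.mp (hN1 _ (hXsmem x hx) _)
      obtain ⟨d, hd, hdr⟩ := lift_fixed V J X hX hqJ h1 h2
      have h3 : e * c = rho V d := by
        rw [hdr, hNc]
      rw [h3, hL']
      exact Subgroup.mem_map_of_mem _ ⟨hL2 hd, hd.1⟩
    obtain ⟨U, hU⟩ : ∃ U : Subgroup (Real V), U = L' ⊓ E := ⟨_, rfl⟩
    have hUE : U ≤ E := hU ▸ inf_le_right
    have hUn : ∀ e ∈ E, ∀ u ∈ U, e * u * e⁻¹ ∈ U := by
      intro e he u hu
      rw [hU] at hu ⊢
      obtain ⟨c, hc, hec⟩ := hNmL e he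
      refine ⟨?_, E.mul_mem (E.mul_mem he hu.2) (E.inv_mem he)⟩
      have hcu : u * c = c * u := Subgroup.mem_centralizer_iff.mp hc u hu.2
      have h4 : c * u * c⁻¹ = u := by
        rw [← hcu]
        group
      have h3 : e * u * e⁻¹ = (e * c) * u * (e * c)⁻¹ := by
        calc e * u * e⁻¹ = e * (c * u * c⁻¹) * e⁻¹ := by rw [h4]
          _ = (e * c) * u * (e * c)⁻¹ := by group
      rw [h3]
      exact L'.mul_mem (L'.mul_mem hec hu.1) (L'.inv_mem hec)
    have hpU : p ∣ Nat.card ↥U := by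
      have hNn : (E.subgroupOf H').Normal :=
        (Subgroup.normal_subgroupOf_iff_le_normalizer hEH).mpr hHE
      have h1 := Cfsg.Agent.Lib.Helper21.relIndex_inf_eq_relIndex_sup
        (P'.subgroupOf H') (E.subgroupOf H')
      have h2 : (P'.subgroupOf H').relIndex (P'.subgroupOf H' ⊔ E.subgroupOf H') ∣
          (P'.subgroupOf H').index := Subgroup.relIndex_dvd_index_of_le le_sup_left
      have h3 : ¬ p ∣ (P'.subgroupOf H' ⊓ E.subgroupOf H').relIndex (E.subgroupOf H') := by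
        rw [h1]
        intro h
        exact hP'i (h.trans h2)
      have h4 := relIndex_mul_card_of_le
        (inf_le_right : P'.subgroupOf H' ⊓ E.subgroupOf H' ≤ E.subgroupOf H')
      have h5 : Nat.card ↥(E.subgroupOf H') = Nat.card ↥E :=
        Nat.card_congr (Subgroup.subgroupOfEquivOfLe hEH).toEquiv
      have h6 : p ∣ Nat.card ↥E := by
        have h7 : 6 ∣ Nat.card ↥E := by
          rw [Nat.card_congr ψE.toEquiv]
          exact six_dvd_card_SL2 hp23
        rcases hp23 with rfl | rfl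
        · exact Dvd.dvd.trans ⟨3, rfl⟩ h7
        · exact Dvd.dvd.trans ⟨2, rfl⟩ h7
      rw [← h5, ← h4] at h6
      have h8 : p ∣ Nat.card ↥(P'.subgroupOf H' ⊓ E.subgroupOf H') := by
        rcases (Nat.Prime.dvd_mul hp.out).mp h6 with h | h
        · exact absurd h h3
        · exact h
      have h9 : (P'.subgroupOf H' ⊓ E.subgroupOf H').map H'.subtype ≤ U := by
        rintro _ ⟨x, ⟨hx1, hx2⟩, rfl⟩
        rw [hU]
        exact ⟨hP'L (Subgroup.mem_subgroupOf.mp hx1), Subgroup.mem_subgroupOf.mp hx2⟩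
      have h10 := Subgroup.card_dvd_of_le h9
      rw [Subgroup.card_map_of_injective H'.subtype_injective] at h10
      exact h8.trans h10
    have h11 := fac_normal_sub hS' hS3' hE hUE hUn hpU
    rw [← h11, hU]
    exact inf_le_left
  have hH'L : H' ≤ L' := by
    rw [← hsupE]
    exact iSup_le (fun E => hfacL E.1 E.2)
  intro j hj
  have h1 : rho V j ∈ L' := hH'L (by rw [hH'map]; exact Subgroup.mem_map_of_mem _ hj)
  rw [hL'] at h1
  obtain ⟨l, hl, hlj⟩ := h1
  have h2 : l⁻¹ * j ∈ J ⊓ Subgroup.centralizer (V : Set G) := by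
    refine ⟨J.mul_mem (J.inv_mem hl.2) hj, ?_⟩
    show l⁻¹ * j ∈ Subgroup.centralizer (V : Set G)
    rw [← ker_rho V, MonoidHom.mem_ker, map_mul, map_inv, hlj, inv_mul_cancel]
  have h3 : j = l * (l⁻¹ * j) := by group
  rw [h3]
  exact L.mul_mem hl.1 (hL1 h2)

/-- The normalizer of `S ∩ J(K)` normalizes `J(S)`. -/
theorem normalizer_inf_le {K : Type u} [Group K] [Finite K] {p : ℕ} [Fact p.Prime]
    (S : Sylow p K) :
    Subgroup.normalizer (((S : Subgroup K) ⊓ thompsonSubgroup p K : Subgroup K) : Set K) ≤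
      Subgroup.normalizer (thompsonSubgroupOf p (S : Subgroup K) : Set K) := by
  intro n hn
  apply mem_normalizer_of_cj_eq
  have hTJ : thompsonSubgroupOf p (S : Subgroup K) ≤ thompsonSubgroup p K := by
    rw [Cfsg.Agent.S0604.result (G := K) (p := p)]
    exact le_iSup (fun S : Sylow p K => thompsonSubgroupOf p (S : Subgroup K)) S
  have hTS : thompsonSubgroupOf p (S : Subgroup K) ≤ S := Subgroup.map_subtype_le _
  have hT : thompsonSubgroupOf p (S : Subgroup K) =
      ⨆ A : maxElementaryAbelianSubgroups p ↥(S : Subgroup K),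
        (A : Subgroup ↥(S : Subgroup K)).map (S : Subgroup K).subtype := by
    show (sSup (maxElementaryAbelianSubgroups p ↥(S : Subgroup K))).map
      (S : Subgroup K).subtype = _
    rw [sSup_eq_iSup', Subgroup.map_iSup]
  have hle : cj n (thompsonSubgroupOf p (S : Subgroup K)) ≤
      thompsonSubgroupOf p (S : Subgroup K) := by
    conv_lhs => rw [hT]
    unfold cj
    rw [Subgroup.map_iSup]
    apply iSup_le
    rintro ⟨A, hA⟩
    have hA'T : A.map (S : Subgroup K).subtype ≤ thompsonSubgroupOf p (S : Subgroup K) :=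
      Subgroup.map_mono (le_thompsonSubgroup hA)
    have hA'P : A.map (S : Subgroup K).subtype ≤ (S : Subgroup K) ⊓ thompsonSubgroup p K :=
      le_inf (hA'T.trans hTS) (hA'T.trans hTJ)
    have hcjP : cj n (A.map (S : Subgroup K).subtype) ≤
        (S : Subgroup K) ⊓ thompsonSubgroup p K := by
      have h1 := cj_mono (g := n) hA'P
      rwa [cj_eq_of_mem_normalizer hn] at h1
    have hcjS : cj n (A.map (S : Subgroup K).subtype) ≤ (S : Subgroup K) :=
      hcjP.trans inf_le_left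
    have hea : IsElementaryAbelian p (cj n (A.map (S : Subgroup K).subtype)) :=
      ea_map (ea_map hA.1 _) _
    have hB : (cj n (A.map (S : Subgroup K).subtype)).subgroupOf (S : Subgroup K) ∈
        maxElementaryAbelianSubgroups p ↥(S : Subgroup K) := by
      refine ⟨ea_subgroupOf hea _, ?_⟩
      intro B₂ hB₂
      have hc : Nat.card ↥((cj n (A.map (S : Subgroup K).subtype)).subgroupOf
          (S : Subgroup K)) = Nat.card ↥A := by
        rw [Nat.card_congr (Subgroup.subgroupOfEquivOfLe hcjS).toEquiv, card_cj,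
          Subgroup.card_map_of_injective (Subgroup.subtype_injective _)]
      rw [hc]
      exact hA.2 B₂ hB₂
    have h2 := Subgroup.map_mono (f := (S : Subgroup K).subtype) (le_thompsonSubgroup hB)
    rw [Subgroup.map_subgroupOf_eq_of_le hcjS] at h2
    exact h2
  exact Subgroup.eq_of_le_of_card_ge hle (by rw [card_cj])

/-- Generation by the normalizer of `J(S)`, the centralizer of `Ω₁(Z(S))` and the fixed points
of a coprime operator group. -/
theorem coprime_gen [Finite G] {p : ℕ} [hp : Fact p.Prime] {q : ℕ} [hq : Fact q.Prime]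
    (K X : Subgroup G) (hXK : X ≤ Subgroup.normalizer (K : Set G))
    (hX : IsElementaryAbelian q X) (hqK : ¬ q ∣ Nat.card ↥K) (hsep : IsPSolvable p ↥K)
    (hO : pPrimeCore p ↥K = ⊥) (S : Sylow p ↥K) :
    (Subgroup.normalizer (thompsonSubgroupOf p (S : Subgroup ↥K) : Set ↥K) ⊔
      Subgroup.centralizer (omegaOne p ((S : Subgroup ↥K) ⊓
        Subgroup.centralizer ((S : Subgroup ↥K) : Set ↥K)) : Set ↥K) ⊔
      (Subgroup.centralizer (X : Set G)).subgroupOf K) = ⊤ := by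
  classical
  obtain ⟨L, hL⟩ : ∃ L : Subgroup ↥K, L =
      Subgroup.normalizer (thompsonSubgroupOf p (S : Subgroup ↥K) : Set ↥K) ⊔
      Subgroup.centralizer (omegaOne p ((S : Subgroup ↥K) ⊓
        Subgroup.centralizer ((S : Subgroup ↥K) : Set ↥K)) : Set ↥K) ⊔
      (Subgroup.centralizer (X : Set G)).subgroupOf K := ⟨_, rfl⟩
  rw [← hL]
  have hNL : Subgroup.normalizer (thompsonSubgroupOf p (S : Subgroup ↥K) : Set ↥K) ≤ L := by
    rw [hL]
    exact le_sup_of_le_left le_sup_left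
  have hCL : Subgroup.centralizer (omegaOne p ((S : Subgroup ↥K) ⊓
      Subgroup.centralizer ((S : Subgroup ↥K) : Set ↥K)) : Set ↥K) ≤ L := by
    rw [hL]
    exact le_sup_of_le_left le_sup_right
  have hXL : (Subgroup.centralizer (X : Set G)).subgroupOf K ≤ L := by
    rw [hL]
    exact le_sup_right
  by_cases hnf : IsThompsonFactorizable p ↥K
  · rw [eq_top_iff]
    intro g _
    obtain ⟨x, hx, c, hc, n, hn, rfl⟩ := hnf S g
    rw [hO, Subgroup.mem_bot] at hx
    rw [hx, one_mul]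
    exact L.mul_mem (hCL hc) (hNL hn)
  · have hVKle : omegaOne p ((S : Subgroup ↥K) ⊓
        Subgroup.centralizer ((S : Subgroup ↥K) : Set ↥K)) ≤ ⨆ S : Sylow p ↥K,
        omegaOne p ((S : Subgroup ↥K) ⊓ Subgroup.centralizer ((S : Subgroup ↥K) : Set ↥K)) :=
      le_iSup (fun S : Sylow p ↥K => omegaOne p ((S : Subgroup ↥K) ⊓
        Subgroup.centralizer ((S : Subgroup ↥K) : Set ↥K))) S
    have hc := centralizer_pCore_le_of_isPSolvable hsep hO
    obtain ⟨hVn, hVe, hVmin⟩ := Cfsg.Agent.S0601.result (p := p) hc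
    have hJC : ¬ thompsonSubgroup p ↥K ≤ Subgroup.centralizer (((⨆ S : Sylow p ↥K,
        omegaOne p ((S : Subgroup ↥K) ⊓ Subgroup.centralizer ((S : Subgroup ↥K) : Set ↥K))) :
          Subgroup ↥K) : Set ↥K) :=
      fun h => hnf ((Cfsg.Agent.S0608.result hO).mpr h)
    have hJchar : (thompsonSubgroup p ↥K).Characteristic :=
      (Cfsg.Agent.S0602.result (G := ↥K) (p := p)).1
    have hVKinv : ∀ ϕ : ↥K ≃* ↥K, ∀ v ∈ (⨆ S : Sylow p ↥K,
        omegaOne p ((S : Subgroup ↥K) ⊓ Subgroup.centralizer ((S : Subgroup ↥K) : Set ↥K))),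
        ϕ v ∈ (⨆ S : Sylow p ↥K,
        omegaOne p ((S : Subgroup ↥K) ⊓ Subgroup.centralizer ((S : Subgroup ↥K) : Set ↥K))) :=
      fun ϕ => omega_iSup_equiv p ϕ
    obtain ⟨VK, hVK⟩ : ∃ VK : Subgroup ↥K, VK = ⨆ S : Sylow p ↥K,
        omegaOne p ((S : Subgroup ↥K) ⊓ Subgroup.centralizer ((S : Subgroup ↥K) : Set ↥K)) :=
      ⟨_, rfl⟩
    rw [← hVK] at hVn hVe hVmin hJC hVKinv hVKle
    have hJKinv : ∀ ϕ : ↥K ≃* ↥K, ∀ j ∈ thompsonSubgroup p ↥K, ϕ j ∈ thompsonSubgroup p ↥K := by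
      intro ϕ j hj
      have h1 := hJchar.fixed ϕ.symm
      have h2 : ϕ j ∈ (thompsonSubgroup p ↥K).comap ϕ.symm.toMonoidHom := by
        rw [Subgroup.mem_comap]
        show ϕ.symm (ϕ j) ∈ thompsonSubgroup p ↥K
        rw [MulEquiv.symm_apply_apply]
        exact hj
      rw [h1] at h2
      exact h2
    have hJdef : thompsonSubgroup p ↥K = sSup (maxElementaryAbelianSubgroups p ↥K) := rfl
    obtain ⟨JK, hJK⟩ : ∃ JK : Subgroup ↥K, JK = thompsonSubgroup p ↥K := ⟨_, rfl⟩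
    rw [← hJK] at hJC hJKinv hJdef
    have hJKn : JK.Normal := by
      rw [hJK]
      exact Subgroup.normal_of_characteristic _
    obtain ⟨hsolHb, hOpHb⟩ := hb_facts hsep VK hVmin JK
    -- the normalizer of `K`
    obtain ⟨M, hM⟩ : ∃ M : Subgroup G, M = Subgroup.normalizer (K : Set G) := ⟨_, rfl⟩
    have hKM : K ≤ M := hM ▸ Subgroup.le_normalizer
    have hXM : X ≤ M := hM ▸ hXK
    obtain ⟨ι, hι, hιinj⟩ : ∃ ι : ↥K →* ↥M, (∀ k : ↥K, ((ι k : ↥M) : G) = k) ∧
        Function.Injective ι :=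
      ⟨Subgroup.inclusion hKM, fun k => rfl, Subgroup.inclusion_injective hKM⟩
    obtain ⟨V₁, hV₁⟩ : ∃ V₁ : Subgroup ↥M, V₁ = VK.map ι := ⟨_, rfl⟩
    obtain ⟨J₁, hJ₁⟩ : ∃ J₁ : Subgroup ↥M, J₁ = JK.map ι := ⟨_, rfl⟩
    have hV₁n : V₁.Normal := by
      rw [hV₁]
      exact map_normal_of_coe hM.le ι hι VK hVKinv
    have hJ₁n : J₁.Normal := by
      rw [hJ₁]
      exact map_normal_of_coe hM.le ι hι JK hJKinv
    have hV₁e : IsElementaryAbelian p V₁ := by
      rw [hV₁]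
      exact ea_map hVe ι
    have hJ₁s : J₁ = sSup ((fun A : Subgroup ↥K => A.map ι) ''
        maxElementaryAbelianSubgroups p ↥K) := by
      rw [hJ₁, hJdef, sSup_eq_iSup', Subgroup.map_iSup, sSup_image']
    have hoff₁ : ∀ A₁ ∈ (fun A : Subgroup ↥K => A.map ι) '' maxElementaryAbelianSubgroups p ↥K,
        IsBestOffenderOn p V₁ A₁ := by
      rintro _ ⟨A, hA, rfl⟩
      rw [hV₁]
      exact bestOffender_map_injective ι hιinj (Cfsg.Agent.S0606.result VK hVe A hA)
    have hJC₁ : ¬ J₁ ≤ Subgroup.centralizer (V₁ : Set ↥M) := by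
      intro h
      apply hJC
      intro j hj
      rw [Subgroup.mem_centralizer_iff]
      intro v hv
      have h1 : ι j ∈ Subgroup.centralizer (V₁ : Set ↥M) :=
        h (by rw [hJ₁]; exact Subgroup.mem_map_of_mem _ hj)
      have h2 := Subgroup.mem_centralizer_iff.mp h1 (ι v)
        (by rw [hV₁]; exact Subgroup.mem_map_of_mem _ hv)
      apply hιinj
      rw [map_mul, map_mul]
      exact h2
    have hfinR : Finite (Real V₁) := finite_real V₁
    have hkerf : ((rho V₁).comp ι).ker =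
        (QuotientGroup.mk' (Subgroup.centralizer (VK : Set ↥K))).ker := by
      rw [QuotientGroup.ker_mk']
      ext k
      rw [MonoidHom.mem_ker, MonoidHom.comp_apply, ← MonoidHom.mem_ker, ker_rho V₁,
        Subgroup.mem_centralizer_iff, Subgroup.mem_centralizer_iff]
      constructor
      · intro h v hv
        apply hιinj
        rw [map_mul, map_mul]
        exact h (ι v) (by rw [hV₁]; exact Subgroup.mem_map_of_mem _ hv)
      · intro h v₁ hv₁
        rw [hV₁] at hv₁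
        obtain ⟨v, hv, rfl⟩ := hv₁
        rw [← map_mul, ← map_mul, h v hv]
    obtain ⟨hsol₁, hOp₁⟩ := transfer_image
      (QuotientGroup.mk' (Subgroup.centralizer (VK : Set ↥K))) ((rho V₁).comp ι) hkerf JK hp.out
      hsolHb hOpHb
    have hmapJ : JK.map ((rho V₁).comp ι) = J₁.map (rho V₁) := by
      rw [hJ₁, Subgroup.map_map]
    rw [hmapJ] at hsol₁ hOp₁
    have hX₁p' : IsPGroup q ↥(X.subgroupOf M) := by
      intro g
      refine ⟨1, ?_⟩
      have hg : ((g : ↥M) : G) ∈ X := Subgroup.mem_subgroupOf.mp g.2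
      apply Subtype.ext
      apply Subtype.ext
      rw [pow_one]
      exact hX.2 _ hg
    obtain ⟨X₁, hX₁⟩ : ∃ X₁ : Subgroup ↥M, X₁ = X.subgroupOf M := ⟨_, rfl⟩
    have hX₁p : IsPGroup q ↥X₁ := by
      rw [hX₁]
      exact hX₁p'
    have hqJ₁ : ¬ q ∣ Nat.card ↥J₁ := by
      intro h
      apply hqK
      rw [hJ₁, Subgroup.card_map_of_injective hιinj] at h
      exact h.trans (Subgroup.card_subgroup_dvd_card JK)
    have hL1 : J₁ ⊓ Subgroup.centralizer (V₁ : Set ↥M) ≤ L.map ι := by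
      rintro y ⟨hyJ, hyC⟩
      rw [hJ₁] at hyJ
      obtain ⟨j, hj, rfl⟩ := hyJ
      refine ⟨j, hCL ?_, rfl⟩
      rw [Subgroup.mem_centralizer_iff]
      intro z hz
      have h1 := Subgroup.mem_centralizer_iff.mp hyC (ι z)
        (by rw [hV₁]; exact Subgroup.mem_map_of_mem _ (hVKle hz))
      apply hιinj
      rw [map_mul, map_mul]
      exact h1
    have hL2 : J₁ ⊓ Subgroup.centralizer (X₁ : Set ↥M) ≤ L.map ι := by
      rintro y ⟨hyJ, hyC⟩
      rw [hJ₁] at hyJ
      obtain ⟨j, hj, rfl⟩ := hyJ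
      refine ⟨j, hXL ?_, rfl⟩
      rw [Subgroup.mem_subgroupOf, Subgroup.mem_centralizer_iff]
      intro x hx
      have h1 := Subgroup.mem_centralizer_iff.mp hyC ⟨x, hXM hx⟩
        (by rw [hX₁]; exact Subgroup.mem_subgroupOf.mpr hx)
      have h2 := congrArg Subtype.val h1
      rw [Subgroup.coe_mul, Subgroup.coe_mul, hι] at h2
      exact h2
    have hSN : (S : Subgroup ↥K) ≤ Subgroup.normalizer
        (((S : Subgroup ↥K) ⊓ thompsonSubgroup p ↥K : Subgroup ↥K) : Set ↥K) := by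
      intro s hs
      rw [Subgroup.mem_normalizer_iff]
      intro h
      have hJn' : (thompsonSubgroup p ↥K).Normal := Subgroup.normal_of_characteristic _
      constructor
      · rintro ⟨h1, h2⟩
        exact ⟨(S : Subgroup ↥K).mul_mem ((S : Subgroup ↥K).mul_mem hs h1)
          ((S : Subgroup ↥K).inv_mem hs), hJn'.conj_mem h h2 s⟩
      · rintro ⟨h1, h2⟩
        refine ⟨?_, ?_⟩
        · have h3 := (S : Subgroup ↥K).mul_mem ((S : Subgroup ↥K).mul_mem
            ((S : Subgroup ↥K).inv_mem hs) h1) hs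
          have e : s⁻¹ * (s * h * s⁻¹) * s = h := by group
          rwa [e] at h3
        · have h3 := hJn'.conj_mem _ h2 s⁻¹
          have e : s⁻¹ * (s * h * s⁻¹) * s⁻¹⁻¹ = h := by group
          rwa [e] at h3
    have hSL : (S : Subgroup ↥K) ≤ L := hSN.trans ((normalizer_inf_le S).trans hNL)
    obtain ⟨P, hP⟩ : ∃ P : Subgroup ↥K, P = (S : Subgroup ↥K) ⊓ JK := ⟨_, rfl⟩
    have hPL₁ : P.map ι ≤ L.map ι := Subgroup.map_mono (hP ▸ (inf_le_left.trans hSL))
    have hPJ₁ : P.map ι ≤ J₁ := by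
      rw [hJ₁]
      exact Subgroup.map_mono (hP ▸ inf_le_right)
    have hPi : ¬ p ∣ (P.map ι).relIndex J₁ := by
      rw [hJ₁, Subgroup.relIndex_map_map_of_injective _ _ hιinj, hP]
      exact Cfsg.Agent.Lib.Helper21.not_dvd_relIndex_sylow_inf_normal S JK
    have hJL₁ := coprime_gen_abstract V₁ hV₁e J₁ _ hJ₁s hoff₁ hJC₁ hsol₁ hOp₁ X₁ hX₁p hqJ₁
      (L.map ι) (P.map ι) hL1 hL2 hPL₁ hPJ₁ hPi
    have hJL : JK ≤ L := by
      intro j hj
      obtain ⟨l, hl, hlj⟩ := hJL₁ (by rw [hJ₁]; exact Subgroup.mem_map_of_mem _ hj)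
      rw [← hιinj hlj]
      exact hl
    have hFr := Cfsg.Agent.Lib.Helper21.normalizer_sylow_inf_sup_eq_top S JK
    rw [eq_top_iff, ← hFr]
    refine sup_le ?_ hJL
    rw [hJK]
    exact (normalizer_inf_le S).trans hNL

end Cfsg.Agent.Lib.Helper6.FFGen
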