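import Mathlib
import Cfsg.Agent.Lib.Helper6.FFThompson
import Cfsg.Agent.S0598
import Cfsg.Agent.S0250

/-! Failure of factorization for the prime `2` with abelian offenders: an abelian `2`-subgroup
maximizing `|B| · |C_V(B)|` over its subgroups acts as an elementary abelian group, and a
faithful group generated by best offenders is a direct product of copies of the symmetric
group of degree three. -/

set_option autoImplicit false

namespace Cfsg.Agent.Lib.Helper6.FFS3

open Cfsg
open Cfsg.Agent.Lib.Helper6.BestOff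
open Cfsg.Agent.Lib.Helper6.SubPair
open Cfsg.Agent.Lib.Helper6.SL2Rec
open Cfsg.Agent.Lib.Helper6.FFSL2
open Cfsg.Agent.Lib.Helper6.FFComm
open Cfsg.Agent.Lib.Helper6.FFStruct
open Cfsg.Agent.Lib.Helper6.FFAll
open Cfsg.Agent.Lib.Helper6.FFReal

open scoped commutatorElement

universe u

variable {G : Type u} [Group G]

/-- The numeric best offender condition. -/
def NumBest (V A : Subgroup G) : Prop :=
  ∀ B : Subgroup G, B ≤ A →
    Nat.card B * Nat.card ↥(V ⊓ Subgroup.centralizer (B : Set G)) ≤
      Nat.card A * Nat.card ↥(V ⊓ Subgroup.centralizer (A : Set G))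

theorem card_le_two_mul [Finite G] {S₀ S₁ : Subgroup G} (h0 : S₀ ≤ S₁)
    (h : ∀ x ∈ S₁, ∀ y ∈ S₁, x ∉ S₀ → y ∉ S₀ → x⁻¹ * y ∈ S₀) :
    Nat.card S₁ ≤ 2 * Nat.card S₀ := by
  classical
  by_cases hle : S₁ ≤ S₀
  · have := Subgroup.card_le_of_le hle
    omega
  · obtain ⟨x₀, hx₀, hx₀'⟩ := SetLike.not_le_iff_exists.mp hle
    have hcard := Subgroup.card_eq_card_quotient_mul_card_subgroup (S₀.subgroupOf S₁)
    rw [Nat.card_congr (Subgroup.subgroupOfEquivOfLe h0).toEquiv] at hcard
    have hq : Nat.card (↥S₁ ⧸ S₀.subgroupOf S₁) ≤ 2 := by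
      have hsurj : Function.Surjective (fun b : Bool =>
          (if b then ((1 : ↥S₁) : ↥S₁ ⧸ S₀.subgroupOf S₁)
            else ((⟨x₀, hx₀⟩ : ↥S₁) : ↥S₁ ⧸ S₀.subgroupOf S₁))) := by
        intro q
        induction q using QuotientGroup.induction_on with
        | H g =>
          by_cases hg : (g : G) ∈ S₀
          · refine ⟨true, ?_⟩
            simp only [if_true]
            rw [QuotientGroup.eq, Subgroup.mem_subgroupOf]
            simpa using hg
          · refine ⟨false, ?_⟩
            simp only [Bool.false_eq_true, if_false]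
            rw [QuotientGroup.eq, Subgroup.mem_subgroupOf]
            exact h x₀ hx₀ g g.2 hx₀' hg
      have := Nat.card_le_card_of_surjective _ hsurj
      simpa using this
    rw [hcard]
    exact Nat.mul_le_mul_right _ hq

theorem two_mul_card_le_of_lt [Finite G] {A B : Subgroup G} (h : A < B) :
    2 * Nat.card A ≤ Nat.card B := by
  obtain ⟨k, hk⟩ := Subgroup.card_dvd_of_le h.le
  have hB : 0 < Nat.card B := Nat.card_pos
  have hA : 0 < Nat.card A := Nat.card_pos
  have hne : Nat.card A ≠ Nat.card B := by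
    intro heq
    exact h.ne (Subgroup.eq_of_le_of_card_ge h.le heq.ge)
  have hk0 : k ≠ 0 := by
    rintro rfl
    omega
  have hk1 : k ≠ 1 := by
    rintro rfl
    omega
  have hk2 : 2 ≤ k := by omega
  rw [hk, mul_comm]
  exact Nat.mul_le_mul_left _ hk2

theorem exists_min_subgroup [Finite G] (P : Subgroup G → Prop) :
    ∀ n : ℕ, ∀ B : Subgroup G, Nat.card B ≤ n → P B →
      ∃ A₁ : Subgroup G, A₁ ≤ B ∧ P A₁ ∧ ∀ B' : Subgroup G, B' ≤ A₁ → P B' → B' = A₁ := by
  intro n
  induction n with
  | zero =>
    intro B hB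
    have := Nat.card_pos (α := B)
    omega
  | succ n ih =>
    intro B hB hPB
    by_cases hex : ∃ B' : Subgroup G, B' < B ∧ P B'
    · obtain ⟨B', hlt, hPB'⟩ := hex
      have h2 := two_mul_card_le_of_lt hlt
      have h3 := Nat.card_pos (α := B')
      obtain ⟨A₁, hA₁, hP, hmin⟩ := ih B' (by omega) hPB'
      exact ⟨A₁, hA₁.trans hlt.le, hP, hmin⟩
    · refine ⟨B, le_rfl, hPB, fun B' hB' hPB' => ?_⟩
      by_contra hne
      exact hex ⟨B', lt_of_le_of_ne hB' hne, hPB'⟩

theorem mem_centralizer_sup {X Y : Subgroup G} {z : G}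
    (hX : z ∈ Subgroup.centralizer (X : Set G)) (hY : z ∈ Subgroup.centralizer (Y : Set G)) :
    z ∈ Subgroup.centralizer ((X ⊔ Y : Subgroup G) : Set G) := by
  have h1 : X ⊔ Y ≤ Subgroup.centralizer ((Subgroup.zpowers z : Subgroup G) : Set G) :=
    sup_le (Subgroup.le_centralizer_iff.mp (Subgroup.zpowers_le.mpr hX))
      (Subgroup.le_centralizer_iff.mp (Subgroup.zpowers_le.mpr hY))
  exact Subgroup.le_centralizer_iff.mp h1 (Subgroup.mem_zpowers z)

theorem mem_zpowers_of_sq {d x : G} (hd : d ^ 2 = 1) (hx : x ∈ Subgroup.zpowers d) :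
    x = 1 ∨ x = d := by
  obtain ⟨k, rfl⟩ := Subgroup.mem_zpowers_iff.mp hx
  rcases Int.even_or_odd k with ⟨m, rfl⟩ | ⟨m, rfl⟩
  · left
    have h2 : d ^ (2 : ℤ) = 1 := by exact_mod_cast hd
    rw [← two_mul, zpow_mul, h2, one_zpow]
  · right
    have h2 : d ^ (2 : ℤ) = 1 := by exact_mod_cast hd
    rw [zpow_add, zpow_mul, h2, one_zpow, one_mul, zpow_one]

theorem le_normalizer_sup {K X Y : Subgroup G} (hX : K ≤ Subgroup.normalizer (X : Set G))
    (hY : K ≤ Subgroup.normalizer (Y : Set G)) :
    K ≤ Subgroup.normalizer ((X ⊔ Y : Subgroup G) : Set G) := by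
  intro g hg
  rw [Subgroup.mem_normalizer_iff_map_conj_eq, Subgroup.map_sup,
    Subgroup.mem_normalizer_iff_map_conj_eq.mp (hX hg),
    Subgroup.mem_normalizer_iff_map_conj_eq.mp (hY hg)]

theorem val_of_ne_zero : ∀ α : ZMod 2, α ≠ 0 → α.val = 1 := by decide


set_option maxHeartbeats 1600000 in
/-- An abelian `2`-subgroup maximizing `|B| · |C_V(B)|` over its subgroups has exponent two. -/
theorem numeric_ea [Finite G] {V H Q : Subgroup G} (hS : Setting 2 V H Q) :
    ∀ n : ℕ, ∀ A : Subgroup G, Nat.card A ≤ n → A ≤ H → IsPGroup 2 A →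
      (∀ a ∈ A, ∀ b ∈ A, a * b = b * a) → NumBest V A → ∀ a ∈ A, a ^ 2 = 1 := by
  have : Fact (Nat.Prime 2) := ⟨Nat.prime_two⟩
  intro n
  induction n with
  | zero =>
    intro A hc
    have := Nat.card_pos (α := A)
    omega
  | succ n ih =>
    intro A hcard hAH hA2 hAc hnum
    have hAV : A ≤ Subgroup.normalizer (V : Set G) := hAH.trans hS.hHV
    have hVc := comm_V hS
    by_cases hVA : ⁅V, A⁆ = ⊥
    · have h1 : A ≤ H ⊓ Subgroup.centralizer (V : Set G) :=
        le_inf hAH (Subgroup.le_centralizer_iff.mp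
          (Subgroup.commutator_eq_bot_iff_le_centralizer.mp hVA))
      rw [hS.hf] at h1
      intro a ha
      rw [Subgroup.mem_bot.mp (h1 ha), one_pow]
    · have hAA : ⁅A, A⁆ = ⊥ := by
        rw [Subgroup.commutator_eq_bot_iff_le_centralizer]
        intro a ha
        rw [Subgroup.mem_centralizer_iff]
        intro b hb
        exact hAc b hb a ha
      have hab : ⁅A, A⁆ ≤ Subgroup.centralizer (V : Set G) := by
        rw [hAA]
        exact bot_le
      have hDV : ⁅V, A⁆ ≤ V := commutator_le_left_of_le_normalizer hAV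
      obtain ⟨B₀, hB₀A, hB₀⟩ := Cfsg.Agent.S0598.result V A hS.hV hAV hab V le_rfl
      rcases hB₀ with hlt | ⟨hB₀def, hfix, hprod⟩
      · exact absurd (hnum B₀ hB₀A) (not_le.mpr hlt)
      have hB₀H : B₀ ≤ H := hB₀A.trans hAH
      have hB₀best : IsBestOffenderOn 2 V B₀ := by
        refine ⟨fun B hB => ?_, ?_, ?_⟩
        · rw [← hprod]
          exact hnum B (hB.trans hB₀A)
        · have h1 : ⁅B₀, B₀⁆ ≤ ⁅A, A⁆ := Subgroup.commutator_mono hB₀A hB₀A
          rw [hAA] at h1
          exact h1.trans bot_le
        · intro b hb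
          rw [hB₀def] at hb
          obtain ⟨hbA, hbC⟩ := Subgroup.mem_inf.mp hb
          rw [Subgroup.mem_centralizer_iff]
          intro v hv
          obtain ⟨c, hcdef⟩ : ∃ c, c = b * v * b⁻¹ * v⁻¹ := ⟨_, rfl⟩
          have hcD : c ∈ ⁅V, A⁆ := by
            have h1 : ⁅v, b⁆ ∈ ⁅V, A⁆ := Subgroup.commutator_mem_commutator hv hbA
            have h2 : c = ⁅v, b⁆⁻¹ := by
              rw [hcdef, commutatorElement_def]
              group
            rw [h2]
            exact Subgroup.inv_mem _ h1
          have hc2 : c * c = 1 := by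
            rw [← pow_two]
            exact hS.hV.2 c (hDV hcD)
          have hcb : c * b = b * c := Subgroup.mem_centralizer_iff.mp hbC c hcD
          have e1 : b * v = c * v * b := by
            rw [hcdef]
            group
          calc v * b ^ 2 = (c * c) * v * (b * b) := by rw [hc2, one_mul, pow_two]
            _ = c * (c * v * b) * b := by group
            _ = c * (b * v) * b := by rw [← e1]
            _ = (c * b) * v * b := by group
            _ = (b * c) * v * b := by rw [hcb]
            _ = b * (c * v * b) := by group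
            _ = b * (b * v) := by rw [← e1]
            _ = b ^ 2 * v := by rw [pow_two]; group
      have hVB₀ : ⁅V, B₀⁆ ≠ ⊥ := by
        intro h0
        have hVfix : V ⊓ Subgroup.centralizer (B₀ : Set G) = V :=
          inf_eq_left.mpr (Subgroup.commutator_eq_bot_iff_le_centralizer.mp h0)
        rw [hVfix] at hfix
        have hDp : IsPGroup 2 ↥(⁅V, A⁆) := (isPGroup_V hS).to_le hDV
        have hAD : A ≤ Subgroup.normalizer ((⁅V, A⁆ : Subgroup G) : Set G) :=
          le_normalizer_commutator hAV Subgroup.le_normalizer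
        have hle : ⁅V, A⁆ ≤ ⁅⁅V, A⁆, A⁆ := by
          rw [Subgroup.commutator_le]
          intro v hv a ha
          rw [hfix] at hv
          obtain ⟨x, hx, y, hy, rfl⟩ :=
            mem_sup_comm (C := ⁅V, A⁆) (R := V ⊓ Subgroup.centralizer (A : Set G))
              (fun c hc r hr => hVc c (hDV hc) r hr.1) hv
          have hya : a * y = y * a := Subgroup.mem_centralizer_iff.mp hy.2 a ha
          have h1 : ⁅x * y, a⁆ = ⁅x, a⁆ := by
            rw [commutatorElement_def, commutatorElement_def]
            calc x * y * a * (x * y)⁻¹ * a⁻¹ = x * (y * a) * y⁻¹ * x⁻¹ * a⁻¹ := by group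
              _ = x * (a * y) * y⁻¹ * x⁻¹ * a⁻¹ := by rw [hya]
              _ = x * a * x⁻¹ * a⁻¹ := by group
          rw [h1]
          exact Subgroup.commutator_mem_commutator hx ha
        have hlt := Cfsg.Agent.Lib.Helper1.commutator_lt_of_pgroups hDp hA2 hAD hVA
        exact absurd hle (not_le_of_gt hlt)
      obtain ⟨A₁, hA₁B, ⟨hA₁best, hA₁V⟩, hA₁min⟩ := exists_min_subgroup
        (fun B => IsBestOffenderOn 2 V B ∧ ⁅V, B⁆ ≠ ⊥) (Nat.card B₀) B₀ le_rfl ⟨hB₀best, hVB₀⟩
      have hA₁H : A₁ ≤ H := hA₁B.trans hB₀H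
      have hmin : ∀ B : Subgroup G, B ≤ A₁ → IsBestOffenderOn 2 V B → ⁅V, B⁆ ≠ ⊥ → B = A₁ :=
        fun B hB h1 h2 => hA₁min B hB ⟨h1, h2⟩
      obtain ⟨a, d, hT, hza⟩ := exists_transv hS hA₁H hA₁best hA₁V hmin
      obtain ⟨x, hx, hxa⟩ := exists_noncomm hS hT
      obtain ⟨α, β, hK⟩ := exists_pkg hS hT hx hxa
      obtain ⟨b, hb⟩ : ∃ b, b = x * a * x⁻¹ := ⟨_, rfl⟩
      obtain ⟨e, he⟩ : ∃ e, e = x * d * x⁻¹ := ⟨_, rfl⟩
      rw [← hb, ← he] at hK
      have hP := hK.hP
      have haA : a ∈ A := hB₀A (hA₁B (hza ▸ Subgroup.mem_zpowers a))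
      have ha2 : a ^ 2 = 1 := hT.hap
      have hd2 : d ^ 2 = 1 := hP.hd₁
      have hdd : d * d = 1 := by rw [← pow_two]; exact hd2
      have hd1 : d ≠ 1 := hT.hd1
      have hdV : d ∈ V := hT.hdV
      have heV : e ∈ V := hK.hTb.hdV
      have hae : a * e * a⁻¹ = d * e := by
        have h1 := hP.ha₂
        rw [val_of_ne_zero α hP.hα, pow_one] at h1
        exact h1
      have hed : e ≠ d := by
        intro h
        have h1 := hP.hind 1 1
        rw [ZMod.val_one, pow_one, pow_one, h, hdd] at h1
        exact one_ne_zero (h1 rfl).1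
      have he1 : e ≠ 1 := by
        intro h
        have h1 := hP.hind 0 1
        rw [ZMod.val_zero, ZMod.val_one, pow_zero, pow_one, one_mul] at h1
        exact one_ne_zero (h1 h).2
      -- elements of `A` centralize `d`
      have hAd : ∀ g ∈ A, g * d * g⁻¹ = d := by
        intro g hg
        have hgV : g ∈ Subgroup.normalizer (V : Set G) := hAV hg
        have hga : Subgroup.zpowers g ≤ Subgroup.normalizer
            ((Subgroup.zpowers a : Subgroup G) : Set G) := by
          rw [Subgroup.zpowers_le, Subgroup.mem_normalizer_iff_map_conj_eq]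
          rw [MonoidHom.map_zpowers]
          have h1 : g * a * g⁻¹ = a := by
            rw [hAc g hg a haA]
            group
          show Subgroup.zpowers (g * a * g⁻¹) = Subgroup.zpowers a
          rw [h1]
        have hgD : Subgroup.zpowers g ≤ Subgroup.normalizer
            ((⁅V, Subgroup.zpowers a⁆ : Subgroup G) : Set G) :=
          le_normalizer_commutator (Subgroup.zpowers_le.mpr hgV) hga
        rw [hT.hcomm] at hgD
        have h2 : g * d * g⁻¹ ∈ Subgroup.zpowers d :=
          (Subgroup.mem_normalizer_iff.mp (hgD (Subgroup.mem_zpowers g)) d).mp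
            (Subgroup.mem_zpowers d)
        rcases mem_zpowers_of_sq hd2 h2 with h3 | h3
        · exfalso
          apply hd1
          have : d = g⁻¹ * (g * d * g⁻¹) * g := by group
          rw [this, h3]
          group
        · exact h3
      -- elements of `A` normalize the plane
      have hAe : ∀ g ∈ A, g * e * g⁻¹ = e ∨ g * e * g⁻¹ = d * e := by
        intro g hg
        have hgV : g ∈ Subgroup.normalizer (V : Set G) := hAV hg
        have hgQ : g ∈ Subgroup.normalizer (Q : Set G) := hS.hHQ (hAH hg)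
        have hga : Subgroup.zpowers g ≤ Subgroup.normalizer
            ((Subgroup.zpowers a : Subgroup G) : Set G) := by
          rw [Subgroup.zpowers_le, Subgroup.mem_normalizer_iff_map_conj_eq]
          rw [MonoidHom.map_zpowers]
          have h1 : g * a * g⁻¹ = a := by
            rw [hAc g hg a haA]
            group
          show Subgroup.zpowers (g * a * g⁻¹) = Subgroup.zpowers a
          rw [h1]
        have hgL : Subgroup.zpowers g ≤ Subgroup.normalizer
            ((⁅Q, Subgroup.zpowers a⁆ ⊔ Subgroup.zpowers a : Subgroup G) : Set G) :=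
          le_normalizer_sup (le_normalizer_commutator (Subgroup.zpowers_le.mpr hgQ) hga) hga
        rw [(pkg_E hS hK).1] at hgL
        have hgW : Subgroup.zpowers g ≤ Subgroup.normalizer
            ((⁅V, Subgroup.zpowers a ⊔ Subgroup.zpowers b⁆ : Subgroup G) : Set G) :=
          le_normalizer_commutator (Subgroup.zpowers_le.mpr hgV) hgL
        rw [hK.hW] at hgW
        have h2 : g * e * g⁻¹ ∈ Subgroup.zpowers d ⊔ Subgroup.zpowers e :=
          (Subgroup.mem_normalizer_iff.mp (hgW (Subgroup.mem_zpowers g)) e).mp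
            (Subgroup.mem_sup_right (Subgroup.mem_zpowers e))
        obtain ⟨u, hu⟩ := pkg_mem_theta hK h2
        unfold theta at hu
        have hu0 : (u 0).val = 0 ∨ (u 0).val = 1 := by
          have := ZMod.val_lt (u 0)
          omega
        have hu1 : (u 1).val = 0 ∨ (u 1).val = 1 := by
          have := ZMod.val_lt (u 1)
          omega
        have hback : e = g⁻¹ * (g * e * g⁻¹) * g := by group
        have hgd' : g⁻¹ * d * g = d := by
          have h3 := hAd g hg
          calc g⁻¹ * d * g = g⁻¹ * (g * d * g⁻¹) * g := by rw [h3]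
            _ = d := by group
        rcases hu1 with h1 | h1
        · exfalso
          rw [h1, pow_zero, mul_one] at hu
          rcases hu0 with h0 | h0
          · rw [h0, pow_zero] at hu
            apply he1
            rw [hback, hu]
            group
          · rw [h0, pow_one] at hu
            apply hed
            rw [hback, hu]
            exact hgd'
        · rw [h1, pow_one] at hu
          rcases hu0 with h0 | h0
          · rw [h0, pow_zero, one_mul] at hu
            exact Or.inl hu
          · rw [h0, pow_one] at hu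
            exact Or.inr hu
      -- the subgroup centralizing `e`
      obtain ⟨K, hKdef⟩ : ∃ K : Subgroup G,
          K = A ⊓ Subgroup.centralizer ((Subgroup.zpowers e : Subgroup G) : Set G) := ⟨_, rfl⟩
      have hKA : K ≤ A := hKdef ▸ inf_le_left
      have hmemK : ∀ g, g ∈ K ↔ g ∈ A ∧ g * e * g⁻¹ = e := by
        intro g
        rw [hKdef, Subgroup.mem_inf]
        constructor
        · rintro ⟨h1, h2⟩
          refine ⟨h1, ?_⟩
          have h3 : e * g = g * e :=
            Subgroup.mem_centralizer_iff.mp h2 e (Subgroup.mem_zpowers e)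
          rw [← h3]
          group
        · rintro ⟨h1, h2⟩
          refine ⟨h1, ?_⟩
          have h3 : Subgroup.zpowers e ≤ Subgroup.centralizer
              ((Subgroup.zpowers g : Subgroup G) : Set G) := by
            rw [Subgroup.zpowers_le, Subgroup.mem_centralizer_iff]
            intro y hy
            obtain ⟨k, rfl⟩ := Subgroup.mem_zpowers_iff.mp hy
            have h4 : Commute g e := by
              show g * e = e * g
              calc g * e = (g * e * g⁻¹) * g := by group
                _ = e * g := by rw [h2]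
            exact (h4.zpow_left k).eq
          exact Subgroup.le_centralizer_iff.mp h3 (Subgroup.mem_zpowers g)
      have hde_ne : d * e ≠ e := by
        intro h
        apply hd1
        calc d = d * e * e⁻¹ := by group
          _ = e * e⁻¹ := by rw [h]
          _ = 1 := by group
      have haK : a ∉ K := by
        intro h
        have h1 := ((hmemK a).mp h).2
        rw [hae] at h1
        exact hde_ne h1
      have hcosets : ∀ g ∈ A, ∀ h ∈ A, g ∉ K → h ∉ K → g⁻¹ * h ∈ K := by
        intro g hg h hh hgK hhK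
        have h1 : g * e * g⁻¹ = d * e := by
          rcases hAe g hg with h2 | h2
          · exact absurd ((hmemK g).mpr ⟨hg, h2⟩) hgK
          · exact h2
        have h3 : h * e * h⁻¹ = d * e := by
          rcases hAe h hh with h2 | h2
          · exact absurd ((hmemK h).mpr ⟨hh, h2⟩) hhK
          · exact h2
        rw [hmemK]
        refine ⟨A.mul_mem (A.inv_mem hg) hh, ?_⟩
        calc g⁻¹ * h * e * (g⁻¹ * h)⁻¹ = g⁻¹ * (h * e * h⁻¹) * g := by group
          _ = g⁻¹ * (g * e * g⁻¹) * g := by rw [h3, h1]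
          _ = e := by group
      have hAK2 : Nat.card A ≤ 2 * Nat.card K := card_le_two_mul hKA hcosets
      have hKlt : K < A := lt_of_le_of_ne hKA (fun h => haK (h ▸ haA))
      have hKcard : Nat.card K ≤ n := by
        have h1 := two_mul_card_le_of_lt hKlt
        have h2 := Nat.card_pos (α := K)
        omega
      have heK : e ∈ V ⊓ Subgroup.centralizer (K : Set G) := by
        refine Subgroup.mem_inf.mpr ⟨heV, ?_⟩
        rw [Subgroup.mem_centralizer_iff]
        intro k hk
        have h1 := ((hmemK k).mp hk).2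
        calc k * e = (k * e * k⁻¹) * k := by group
          _ = e * k := by rw [h1]
      have heA : e ∉ V ⊓ Subgroup.centralizer (A : Set G) := by
        intro h
        have h1 : a * e = e * a := Subgroup.mem_centralizer_iff.mp h.2 a haA
        apply hde_ne
        rw [← hae, h1]
        group
      have hfixlt : V ⊓ Subgroup.centralizer (A : Set G) < V ⊓ Subgroup.centralizer (K : Set G) :=
        lt_of_le_of_ne (inf_le_inf_left _ (Subgroup.centralizer_le hKA))
          (fun h => heA (h ▸ heK))
      have hfix2 := two_mul_card_le_of_lt hfixlt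
      -- `K` is again a numeric best offender
      have hKnum : NumBest V K := by
        intro B' hB'
        obtain ⟨S, hSdef⟩ : ∃ S : Subgroup G, S = B' ⊔ Subgroup.zpowers a := ⟨_, rfl⟩
        have hSA : S ≤ A := hSdef ▸ sup_le (hB'.trans hKA) (Subgroup.zpowers_le.mpr haA)
        have haS : a ∈ S := hSdef ▸ Subgroup.mem_sup_right (Subgroup.mem_zpowers a)
        have hB'S : B' < S := lt_of_le_of_ne (hSdef ▸ le_sup_left)
          (fun h => haK (hB' (h ▸ haS)))
        have h1 := two_mul_card_le_of_lt hB'S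
        have h2 : Nat.card ↥(V ⊓ Subgroup.centralizer (B' : Set G)) ≤
            2 * Nat.card ↥(V ⊓ Subgroup.centralizer (S : Set G)) := by
          apply card_le_two_mul (inf_le_inf_left _ (Subgroup.centralizer_le hB'S.le))
          have key : ∀ z ∈ V ⊓ Subgroup.centralizer (B' : Set G),
              z ∉ V ⊓ Subgroup.centralizer (S : Set G) → z * a * z⁻¹ = d * a := by
            intro z hz hzS
            have hza' : z * a ≠ a * z := by
              intro hcomm
              apply hzS
              refine Subgroup.mem_inf.mpr ⟨hz.1, ?_⟩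
              rw [hSdef]
              refine mem_centralizer_sup hz.2 ?_
              have h3 : Subgroup.zpowers a ≤ Subgroup.centralizer
                  ((Subgroup.zpowers z : Subgroup G) : Set G) := by
                rw [Subgroup.zpowers_le, Subgroup.mem_centralizer_iff]
                intro y hy
                obtain ⟨k, rfl⟩ := Subgroup.mem_zpowers_iff.mp hy
                have h4 : Commute z a := hcomm
                exact (h4.zpow_left k).eq
              exact Subgroup.le_centralizer_iff.mp h3 (Subgroup.mem_zpowers z)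
            have h5 : ⁅z, a⁆ ∈ ⁅V, Subgroup.zpowers a⁆ :=
              Subgroup.commutator_mem_commutator hz.1 (Subgroup.mem_zpowers a)
            rw [hT.hcomm] at h5
            rcases mem_zpowers_of_sq hd2 h5 with h6 | h6
            · exfalso
              exact hza' (commutatorElement_eq_one_iff_mul_comm.mp h6)
            · rw [commutatorElement_def] at h6
              calc z * a * z⁻¹ = (z * a * z⁻¹ * a⁻¹) * a := by group
                _ = d * a := by rw [h6]
          intro x hx y hy hxS hyS
          have hxa := key x hx hxS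
          have hya := key y hy hyS
          have hxy : x⁻¹ * y ∈ V ⊓ Subgroup.centralizer (B' : Set G) :=
            Subgroup.mul_mem _ (Subgroup.inv_mem _ hx) hy
          refine Subgroup.mem_inf.mpr ⟨hxy.1, ?_⟩
          rw [hSdef]
          refine mem_centralizer_sup hxy.2 ?_
          have hxd : x⁻¹ * d * x = d := by
            have h7 := hVc x hx.1 d hdV
            calc x⁻¹ * d * x = x⁻¹ * (d * x) := by group
              _ = x⁻¹ * (x * d) := by rw [h7]
              _ = d := by group
          have hxa' : x⁻¹ * a * x = d * a := by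
            have h8 : a = d * (x⁻¹ * a * x) := by
              calc a = x⁻¹ * (x * a * x⁻¹) * x := by group
                _ = x⁻¹ * (d * a) * x := by rw [hxa]
                _ = (x⁻¹ * d * x) * (x⁻¹ * a * x) := by group
                _ = d * (x⁻¹ * a * x) := by rw [hxd]
            calc x⁻¹ * a * x = (d * d) * (x⁻¹ * a * x) := by rw [hdd, one_mul]
              _ = d * (d * (x⁻¹ * a * x)) := by group
              _ = d * a := by rw [← h8]
          have hcomm : (x⁻¹ * y) * a = a * (x⁻¹ * y) := by
            have h9 : (x⁻¹ * y) * a * (x⁻¹ * y)⁻¹ = a := by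
              calc (x⁻¹ * y) * a * (x⁻¹ * y)⁻¹ = x⁻¹ * (y * a * y⁻¹) * x := by group
                _ = x⁻¹ * (d * a) * x := by rw [hya]
                _ = (x⁻¹ * d * x) * (x⁻¹ * a * x) := by group
                _ = d * (d * a) := by rw [hxd, hxa']
                _ = (d * d) * a := by group
                _ = a := by rw [hdd, one_mul]
            calc (x⁻¹ * y) * a = ((x⁻¹ * y) * a * (x⁻¹ * y)⁻¹) * (x⁻¹ * y) := by group
              _ = a * (x⁻¹ * y) := by rw [h9]
          have h3 : Subgroup.zpowers a ≤ Subgroup.centralizer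
              ((Subgroup.zpowers (x⁻¹ * y) : Subgroup G) : Set G) := by
            rw [Subgroup.zpowers_le, Subgroup.mem_centralizer_iff]
            intro w hw
            obtain ⟨k, rfl⟩ := Subgroup.mem_zpowers_iff.mp hw
            have h4 : Commute (x⁻¹ * y) a := hcomm
            exact (h4.zpow_left k).eq
          exact Subgroup.le_centralizer_iff.mp h3 (Subgroup.mem_zpowers _)
        have h3 := hnum S hSA
        calc Nat.card B' * Nat.card ↥(V ⊓ Subgroup.centralizer (B' : Set G))
            ≤ Nat.card B' * (2 * Nat.card ↥(V ⊓ Subgroup.centralizer (S : Set G))) :=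
              Nat.mul_le_mul_left _ h2
          _ = (2 * Nat.card B') * Nat.card ↥(V ⊓ Subgroup.centralizer (S : Set G)) := by ring
          _ ≤ Nat.card S * Nat.card ↥(V ⊓ Subgroup.centralizer (S : Set G)) :=
              Nat.mul_le_mul_right _ h1
          _ ≤ Nat.card A * Nat.card ↥(V ⊓ Subgroup.centralizer (A : Set G)) := h3
          _ ≤ (2 * Nat.card K) * Nat.card ↥(V ⊓ Subgroup.centralizer (A : Set G)) :=
              Nat.mul_le_mul_right _ hAK2
          _ = Nat.card K * (2 * Nat.card ↥(V ⊓ Subgroup.centralizer (A : Set G))) := by ring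
          _ ≤ Nat.card K * Nat.card ↥(V ⊓ Subgroup.centralizer (K : Set G)) :=
              Nat.mul_le_mul_left _ hfix2
      have hK2 := ih K hKcard (hKA.trans hAH) (hA2.to_le hKA)
        (fun a ha b hb => hAc a (hKA ha) b (hKA hb)) hKnum
      intro g hg
      by_cases hgK : g ∈ K
      · exact hK2 g hgK
      · have hgaK : g * a ∈ K := by
          rw [hmemK]
          refine ⟨A.mul_mem hg haA, ?_⟩
          have h1 : g * e * g⁻¹ = d * e := by
            rcases hAe g hg with h2 | h2
            · exact absurd ((hmemK g).mpr ⟨hg, h2⟩) hgK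
            · exact h2
          calc g * a * e * (g * a)⁻¹ = g * (a * e * a⁻¹) * g⁻¹ := by group
            _ = g * (d * e) * g⁻¹ := by rw [hae]
            _ = (g * d * g⁻¹) * (g * e * g⁻¹) := by group
            _ = d * (d * e) := by rw [hAd g hg, h1]
            _ = (d * d) * e := by group
            _ = e := by rw [hdd, one_mul]
        have h5 := hK2 (g * a) hgaK
        have hga : g * a = a * g := hAc g hg a haA
        have haa : a * a = 1 := by rw [← pow_two]; exact ha2
        calc g ^ 2 = g * g * (a * a) := by rw [haa, mul_one, pow_two]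
          _ = g * (g * a) * a := by group
          _ = g * (a * g) * a := by rw [hga]
          _ = (g * a) * (g * a) := by group
          _ = (g * a) ^ 2 := by rw [pow_two]
          _ = 1 := h5

/-- For the prime `2`, a faithful group generated by best offenders with self-centralizing
`2'`-core is a direct product of copies of the symmetric group of degree three. -/
theorem struct_S3 [Finite G] {V H Q : Subgroup G} (hS : Setting 2 V H Q)
    (hS3 : H = ⨆ A : {A : Subgroup G // A ≤ H ∧ IsBestOffenderOn 2 V A}, (A : Subgroup G))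
    (hH1 : H ≠ ⊥) : ∃ n : ℕ, 1 ≤ n ∧ Nonempty (↥H ≃* (Fin n → Equiv.Perm (Fin 3))) := by
  classical
  have : Fact (Nat.Prime 2) := ⟨Nat.prime_two⟩
  obtain ⟨-, hEall, hind, hsup, -, -⟩ := struct_all hS hS3 hH1
  have hfin : Fintype {E : Subgroup G // IsFac 2 V H Q E} := Fintype.ofFinite _
  have hcomm : Pairwise fun i j : {E : Subgroup G // IsFac 2 V H Q E} =>
      ∀ x y : G, x ∈ (i : Subgroup G) → y ∈ (j : Subgroup G) → Commute x y := by
    intro i j hij x y hx hy
    have h1 := (fac_pair hS i.2 j.2 (fun h => hij (Subtype.ext h))).1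
    exact Subgroup.mem_centralizer_iff.mp (h1 hy) x hx
  have hinj : Function.Injective (Subgroup.noncommPiCoprod hcomm) :=
    Subgroup.injective_noncommPiCoprod_of_iSupIndep hind
  have hrange : (Subgroup.noncommPiCoprod hcomm).range = H := by
    rw [Subgroup.noncommPiCoprod_range]
    exact hsup
  have hne : Nonempty {E : Subgroup G // IsFac 2 V H Q E} := by
    by_contra hcon
    rw [not_nonempty_iff] at hcon
    apply hH1
    rw [← hsup, iSup_of_empty]
  obtain ⟨ψ⟩ := Cfsg.Agent.S0250.result (F := ZMod 2) (ZMod.card 2)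
  have hφ : ∀ E : {E : Subgroup G // IsFac 2 V H Q E},
      Nonempty (↥(E : Subgroup G) ≃* Matrix.SpecialLinearGroup (Fin 2) (ZMod 2)) :=
    fun E => (hEall E).2.1
  have φ : ∀ E : {E : Subgroup G // IsFac 2 V H Q E},
      ↥(E : Subgroup G) ≃* Matrix.SpecialLinearGroup (Fin 2) (ZMod 2) :=
    fun E => (hφ E).some
  refine ⟨Fintype.card {E : Subgroup G // IsFac 2 V H Q E}, Fintype.card_pos, ⟨?_⟩⟩
  exact ((MulEquiv.subgroupCongr hrange).symm.trans
    ((MonoidHom.ofInjective hinj).symm.trans
      ((MulEquiv.piCongrRight (fun E => (φ E).trans ψ)).trans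
        (MulEquiv.arrowCongr (Fintype.equivFin _) (MulEquiv.refl _)))))

/-- Numeric best offenders map to numeric best offenders in the realization. -/
theorem numBest_map [Finite G] (V : Subgroup G) [V.Normal] {A : Subgroup G}
    (h1 : NumBest V A) : NumBest (Vimg V) (A.map (rho V)) := by
  intro B' hB'
  obtain ⟨B, hBdef⟩ : ∃ B : Subgroup G, B = A ⊓ B'.comap (rho V) := ⟨_, rfl⟩
  have hBA : B ≤ A := hBdef ▸ inf_le_left
  have hBmap : B.map (rho V) = B' := by
    apply le_antisymm
    · rintro _ ⟨b, hb, rfl⟩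
      rw [hBdef] at hb
      exact hb.2
    · intro y hy
      obtain ⟨a, ha, rfl⟩ := hB' hy
      exact ⟨a, by rw [hBdef]; exact ⟨ha, hy⟩, rfl⟩
  have hBC : B ⊓ Subgroup.centralizer (V : Set G) = A ⊓ Subgroup.centralizer (V : Set G) := by
    apply le_antisymm (inf_le_inf_right _ hBA)
    intro g hg
    obtain ⟨hgA, hgC⟩ := Subgroup.mem_inf.mp hg
    refine Subgroup.mem_inf.mpr ⟨?_, hgC⟩
    rw [hBdef]
    refine Subgroup.mem_inf.mpr ⟨hgA, ?_⟩
    rw [Subgroup.mem_comap, rho_eq_one V hgC]
    exact B'.one_mem
  have e1 := card_map_rho V B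
  have e2 := card_map_rho V A
  have e3 := card_fix V B
  have e4 := card_fix V A
  have e5 := h1 B hBA
  rw [hBmap] at e1 e3
  rw [hBC] at e1
  rw [e3, e4]
  have hpos : 0 < Nat.card ↥(A ⊓ Subgroup.centralizer (V : Set G)) := Nat.card_pos
  apply Nat.le_of_mul_le_mul_left _ hpos
  calc Nat.card ↥(A ⊓ Subgroup.centralizer (V : Set G)) *
        (Nat.card ↥B' * Nat.card ↥(V ⊓ Subgroup.centralizer (B : Set G)))
      = (Nat.card ↥B' * Nat.card ↥(A ⊓ Subgroup.centralizer (V : Set G))) *
          Nat.card ↥(V ⊓ Subgroup.centralizer (B : Set G)) := by ring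
    _ = Nat.card B * Nat.card ↥(V ⊓ Subgroup.centralizer (B : Set G)) := by rw [e1]
    _ ≤ Nat.card A * Nat.card ↥(V ⊓ Subgroup.centralizer (A : Set G)) := e5
    _ = (Nat.card ↥(A.map (rho V)) * Nat.card ↥(A ⊓ Subgroup.centralizer (V : Set G))) *
          Nat.card ↥(V ⊓ Subgroup.centralizer (A : Set G)) := by rw [e2]
    _ = Nat.card ↥(A ⊓ Subgroup.centralizer (V : Set G)) *
        (Nat.card ↥(A.map (rho V)) * Nat.card ↥(V ⊓ Subgroup.centralizer (A : Set G))) := by
      ring

open Cfsg.Agent.Lib.Helper14 in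
set_option maxHeartbeats 1600000 in
/-- Failure of factorization for the prime `2` with abelian offenders: a normal subgroup `J`
generated by abelian `2`-subgroups that are numeric best offenders on a normal elementary
abelian `2`-subgroup `V` of a `2`-solvable group with no normal `2`-subgroup modulo `C_G(V)`,
not centralizing `V`, induces on `V` a direct product of symmetric groups of degree three. -/
theorem ff_abstract_S3 {G : Type u} [Group G] [Finite G]
    (hsep : IsPSolvable 2 G) (V : Subgroup G) [hVn : V.Normal] (hV : IsElementaryAbelian 2 V)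
    (hVmin : ∀ D : Subgroup G, D.Normal → Subgroup.centralizer (V : Set G) ≤ D →
      (∃ k : ℕ, (Subgroup.centralizer (V : Set G)).relIndex D = 2 ^ k) →
      D = Subgroup.centralizer (V : Set G))
    (J : Subgroup G) [hJn : J.Normal] (𝒜 : Set (Subgroup G)) (hJ : J = sSup 𝒜)
    (hoff : ∀ A ∈ 𝒜, IsPGroup 2 A ∧ (∀ a ∈ A, ∀ b ∈ A, a * b = b * a) ∧ NumBest V A)
    (hJC : ¬ J ≤ Subgroup.centralizer (V : Set G)) :
    ∃ n : ℕ, 1 ≤ n ∧ ∃ _ : ((Subgroup.centralizer (V : Set G)).subgroupOf J).Normal,
      Nonempty ((↥J ⧸ (Subgroup.centralizer (V : Set G)).subgroupOf J) ≃*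
        (Fin n → Equiv.Perm (Fin 3))) := by
  classical
  have hp : Fact (Nat.Prime 2) := ⟨Nat.prime_two⟩
  have hfin : Finite (Real V) := finite_real V
  have hπ : Function.Surjective (QuotientGroup.mk' (Subgroup.centralizer (V : Set G))) :=
    QuotientGroup.mk'_surjective _
  obtain ⟨Hb, hHb⟩ : ∃ Hb : Subgroup (G ⧸ Subgroup.centralizer (V : Set G)),
      Hb = J.map (QuotientGroup.mk' (Subgroup.centralizer (V : Set G))) := ⟨_, rfl⟩
  have hHbn : Hb.Normal := by
    rw [hHb]
    exact hJn.map _ hπ
  have hsolHb : IsPSolvable 2 ↥Hb :=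
    isPSolvable_subgroup hp.out Hb (isPSolvable_quotient hp.out _ hsep)
  have hOpHb : pCore 2 ↥Hb = ⊥ := by
    have hPn : ((pCore 2 ↥Hb).map Hb.subtype).Normal := pCore_map_subtype_normal Hb
    have hPp : IsPGroup 2 ↥((pCore 2 ↥Hb).map Hb.subtype) := (pCore_isPGroup 2).map _
    obtain ⟨k, hk⟩ := IsPGroup.iff_card.mp hPp
    have hD := hVmin (((pCore 2 ↥Hb).map Hb.subtype).comap
      (QuotientGroup.mk' (Subgroup.centralizer (V : Set G)))) (hPn.comap _) ?_ ⟨k, ?_⟩
    · rw [eq_bot_iff]
      intro x hx
      rw [Subgroup.mem_bot]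
      apply Subtype.ext
      obtain ⟨g, hg⟩ := hπ (x : G ⧸ Subgroup.centralizer (V : Set G))
      have hgD : g ∈ ((pCore 2 ↥Hb).map Hb.subtype).comap
          (QuotientGroup.mk' (Subgroup.centralizer (V : Set G))) := by
        rw [Subgroup.mem_comap, hg]
        exact ⟨x, hx, rfl⟩
      rw [hD] at hgD
      rw [Subgroup.coe_one, ← hg]
      exact (QuotientGroup.eq_one_iff g).mpr hgD
    · intro g hg
      rw [Subgroup.mem_comap]
      have h1 : QuotientGroup.mk' (Subgroup.centralizer (V : Set G)) g = 1 :=
        (QuotientGroup.eq_one_iff g).mpr hg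
      rw [h1]
      exact Subgroup.one_mem _
    · have h1 := Subgroup.relIndex_ker (((pCore 2 ↥Hb).map Hb.subtype).comap
        (QuotientGroup.mk' (Subgroup.centralizer (V : Set G))))
        (QuotientGroup.mk' (Subgroup.centralizer (V : Set G)))
      rw [QuotientGroup.ker_mk', Subgroup.map_comap_eq_self_of_surjective hπ] at h1
      rw [h1, hk]
  obtain ⟨H', hH'⟩ : ∃ H' : Subgroup (Real V), H' = Hb.map
      (SemidirectProduct.inr : (G ⧸ Subgroup.centralizer (V : Set G)) →* Real V) := ⟨_, rfl⟩
  have hH'map : H' = J.map (rho V) := by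
    rw [hH', hHb, Subgroup.map_map]
    rfl
  have hsolH' : IsPSolvable 2 ↥H' := by
    rw [hH']
    exact isPSolvable_of_mulEquiv hp.out
      (Hb.equivMapOfInjective _ SemidirectProduct.inr_injective) hsolHb
  have hOpH' : pCore 2 ↥H' = ⊥ := by
    rw [hH']
    have h1 := pCore_comap_mulEquiv (p := 2)
      (Hb.equivMapOfInjective (SemidirectProduct.inr :
        (G ⧸ Subgroup.centralizer (V : Set G)) →* Real V) SemidirectProduct.inr_injective)
    rw [hOpHb] at h1
    rw [eq_bot_iff]
    intro x hx
    rw [Subgroup.mem_bot]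
    obtain ⟨y, rfl⟩ := (Hb.equivMapOfInjective (SemidirectProduct.inr :
      (G ⧸ Subgroup.centralizer (V : Set G)) →* Real V)
      SemidirectProduct.inr_injective).surjective x
    have h2 : y ∈ (⊥ : Subgroup ↥Hb) := by
      rw [← h1, Subgroup.mem_comap]
      exact hx
    rw [Subgroup.mem_bot] at h2
    rw [h2, map_one]
  have hS1' : Subgroup.centralizer (pPrimeCore 2 ↥H' : Set ↥H') ≤ pPrimeCore 2 ↥H' :=
    centralizer_pPrimeCore_le_of_isPSolvable hsolH' hOpH'
  have hHV' : H' ≤ Subgroup.normalizer ((Vimg V : Subgroup (Real V)) : Set (Real V)) := by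
    rw [Subgroup.normalizer_eq_top_iff.mpr (Vimg_normal V)]
    exact le_top
  have hf' : H' ⊓ Subgroup.centralizer ((Vimg V : Subgroup (Real V)) : Set (Real V)) = ⊥ := by
    rw [hH'map]
    exact faithful V J
  have hS' := setting_of (Vimg V) H' (Vimg_elementary V hV) hHV' hf' hS1'
  have hAle : ∀ A ∈ 𝒜, A.map (rho V) ≤ H' := by
    intro A hA
    rw [hH'map]
    apply Subgroup.map_mono
    rw [hJ]
    exact le_sSup hA
  have hbest : ∀ A ∈ 𝒜, IsBestOffenderOn 2 (Vimg V) (A.map (rho V)) := by
    intro A hA
    obtain ⟨hA2, hAc, hAnum⟩ := hoff A hA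
    have hnum' := numBest_map V hAnum
    have hc' : ∀ a ∈ A.map (rho V), ∀ b ∈ A.map (rho V), a * b = b * a := by
      rintro _ ⟨a, ha, rfl⟩ _ ⟨b, hb, rfl⟩
      rw [← map_mul, ← map_mul, hAc a ha b hb]
    have hsq := numeric_ea hS' (Nat.card ↥(A.map (rho V))) (A.map (rho V)) le_rfl (hAle A hA)
      (hA2.map _) hc' hnum'
    refine ⟨hnum', ?_, ?_⟩
    · have h1 : ⁅A.map (rho V), A.map (rho V)⁆ = ⊥ := by
        rw [Subgroup.commutator_eq_bot_iff_le_centralizer]
        intro a ha
        rw [Subgroup.mem_centralizer_iff]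
        intro b hb
        exact hc' b hb a ha
      rw [h1]
      exact bot_le
    · intro a ha
      rw [hsq a ha]
      exact Subgroup.one_mem _
  have hS3' : H' = ⨆ A' : {A' : Subgroup (Real V) // A' ≤ H' ∧
      IsBestOffenderOn 2 (Vimg V) A'}, (A' : Subgroup (Real V)) := by
    apply le_antisymm ?_ (iSup_le (fun A' => A'.2.1))
    have h1 : H' = ⨆ A : 𝒜, (A : Subgroup G).map (rho V) := by
      rw [hH'map, hJ, sSup_eq_iSup', Subgroup.map_iSup]
    conv_lhs => rw [h1]
    exact iSup_le (fun A => le_iSup_of_le (⟨(A : Subgroup G).map (rho V), hAle A A.2,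
      hbest A A.2⟩ : {A' : Subgroup (Real V) // A' ≤ H' ∧
        IsBestOffenderOn 2 (Vimg V) A'}) le_rfl)
  have hH1' : H' ≠ ⊥ := by
    intro h
    apply hJC
    intro j hj
    have h1 : rho V j ∈ H' := by
      rw [hH'map]
      exact Subgroup.mem_map_of_mem _ hj
    rw [h, Subgroup.mem_bot] at h1
    rw [← ker_rho V]
    exact h1
  obtain ⟨n, hn1, ⟨ψ⟩⟩ := struct_S3 hS' hS3' hH1'
  refine ⟨n, hn1, ?_⟩
  obtain ⟨f, hfdef⟩ : ∃ f : ↥J →* Real V, f = (rho V).comp J.subtype := ⟨_, rfl⟩
  have hfr : f.range = H' := by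
    rw [hfdef, MonoidHom.range_comp, Subgroup.range_subtype, hH'map]
  have hfk : f.ker = (Subgroup.centralizer (V : Set G)).subgroupOf J := by
    rw [hfdef, ← MonoidHom.comap_ker, ker_rho V]
    rfl
  have hnorm : ((Subgroup.centralizer (V : Set G)).subgroupOf J).Normal := by
    rw [← hfk]
    infer_instance
  exact ⟨hnorm, ⟨(QuotientGroup.quotientMulEquivOfEq hfk.symm).trans
    ((QuotientGroup.quotientKerEquivRange f).trans ((MulEquiv.subgroupCongr hfr).trans ψ))⟩⟩

end Cfsg.Agent.Lib.Helper6.FFS3
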