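import Mathlib

set_option autoImplicit false

/-!
Relative multiple transitivity for subgroups of `Equiv.Perm α`:
`MT m S F` says that `S` is `m`-transitive on the points outside the finset `F`
(recursive definition through point stabilizers).
-/

namespace Cfsg.Agent.Lib.Helper6

open Equiv

variable {α : Type*}

lemma perm_apply_inv (g : Perm α) (x : α) : g (g⁻¹ x) = x := g.apply_symm_apply x

lemma perm_inv_apply (g : Perm α) (x : α) : g⁻¹ (g x) = x := g.symm_apply_apply x

/-- stabilizer of a point inside a subgroup of `Perm α` -/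
def ptStab (S : Subgroup (Perm α)) (a : α) : Subgroup (Perm α) :=
  S ⊓ MulAction.stabilizer (Perm α) a

lemma mem_ptStab {S : Subgroup (Perm α)} {a : α} {g : Perm α} :
    g ∈ ptStab S a ↔ g ∈ S ∧ g a = a := by
  simp [ptStab, MulAction.mem_stabilizer_iff]

lemma ptStab_le (S : Subgroup (Perm α)) (a : α) : ptStab S a ≤ S := inf_le_left

/-- pointwise stabilizer of a finset inside a subgroup of `Perm α` -/
def fixr (S : Subgroup (Perm α)) (T : Finset α) : Subgroup (Perm α) :=
  S ⊓ fixingSubgroup (Perm α) (T : Set α)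

lemma mem_fixr {S : Subgroup (Perm α)} {T : Finset α} {g : Perm α} :
    g ∈ fixr S T ↔ g ∈ S ∧ ∀ z ∈ T, g z = z := by
  simp [fixr, mem_fixingSubgroup_iff]

lemma fixr_le (S : Subgroup (Perm α)) (T : Finset α) : fixr S T ≤ S := inf_le_left

lemma fixr_empty (S : Subgroup (Perm α)) : fixr S (∅ : Finset α) = S := by
  ext g; simp [mem_fixr]

variable [DecidableEq α]

lemma ptStab_fixr (S : Subgroup (Perm α)) (T : Finset α) (a : α) :
    ptStab (fixr S T) a = fixr S (insert a T) := by
  ext g
  simp only [mem_ptStab, mem_fixr, Finset.mem_insert, forall_eq_or_imp]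
  tauto

/-- transitive on the points outside `F` -/
def TrOff (S : Subgroup (Perm α)) (F : Finset α) : Prop :=
  ∀ x, x ∉ F → ∀ y, y ∉ F → ∃ g ∈ S, g x = y

/-- fixes `F` pointwise -/
def FixesOn (S : Subgroup (Perm α)) (F : Finset α) : Prop :=
  ∀ g ∈ S, ∀ z ∈ F, g z = z

lemma FixesOn.mono {S S' : Subgroup (Perm α)} {F : Finset α} (h : FixesOn S F) (hS : S' ≤ S) :
    FixesOn S' F := fun g hg z hz => h g (hS hg) z hz

lemma FixesOn.mem_iff {S : Subgroup (Perm α)} {F : Finset α} (h : FixesOn S F) {g : Perm α}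
    (hg : g ∈ S) (z : α) : g z ∈ F ↔ z ∈ F := by
  constructor
  · intro hgz
    have h1 := h g hg (g z) hgz
    have h2 : g z = z := g.injective h1
    rwa [h2] at hgz
  · intro hz
    rw [h g hg z hz]; exact hz

lemma FixesOn.not_mem {S : Subgroup (Perm α)} {F : Finset α} (h : FixesOn S F) {g : Perm α}
    (hg : g ∈ S) {z : α} (hz : z ∉ F) : g z ∉ F := fun hgz => hz ((h.mem_iff hg z).mp hgz)

lemma FixesOn.ptStab {S : Subgroup (Perm α)} {F : Finset α} (h : FixesOn S F) (a : α) :
    FixesOn (ptStab S a) (insert a F) := by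
  intro g hg z hz
  rw [mem_ptStab] at hg
  rcases Finset.mem_insert.mp hz with rfl | hz
  · exact hg.2
  · exact h g hg.1 z hz

lemma fixesOn_empty (S : Subgroup (Perm α)) : FixesOn S ∅ := fun _ _ z hz => by simp at hz

/-- `MT m S F`: `S` is `m`-transitive on the points outside `F`. -/
def MT : ℕ → Subgroup (Perm α) → Finset α → Prop
  | 0, _, _ => True
  | m + 1, S, F => TrOff S F ∧ ∀ a, a ∉ F → MT m (ptStab S a) (insert a F)

lemma MT_zero (S : Subgroup (Perm α)) (F : Finset α) : MT 0 S F := trivial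

lemma MT_succ_iff {m : ℕ} {S : Subgroup (Perm α)} {F : Finset α} :
    MT (m + 1) S F ↔ TrOff S F ∧ ∀ a, a ∉ F → MT m (ptStab S a) (insert a F) := Iff.rfl

lemma MT_one_iff {S : Subgroup (Perm α)} {F : Finset α} : MT 1 S F ↔ TrOff S F := by
  rw [MT_succ_iff]
  exact ⟨fun h => h.1, fun h => ⟨h, fun _ _ => trivial⟩⟩

lemma MT_pred : ∀ (m : ℕ) (S : Subgroup (Perm α)) (F : Finset α), MT (m + 1) S F → MT m S F
  | 0, _, _, _ => trivial
  | m + 1, S, F, h => ⟨h.1, fun a ha => MT_pred m _ _ (h.2 a ha)⟩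

lemma MT_le {m m' : ℕ} (hm : m ≤ m') {S : Subgroup (Perm α)} {F : Finset α}
    (h : MT m' S F) : MT m S F := by
  induction m', hm using Nat.le_induction with
  | base => exact h
  | succ n _ ih => exact ih (MT_pred n S F h)

lemma MT.trOff {m : ℕ} {S : Subgroup (Perm α)} {F : Finset α} (h : MT m S F) (hm : 1 ≤ m) :
    TrOff S F := MT_one_iff.mp (MT_le hm h)

/-- conjugation invariance -/
lemma MT_conj : ∀ (m : ℕ) (S S' : Subgroup (Perm α)) (F F' : Finset α) (g : Perm α),
    (∀ s, s ∈ S' ↔ g⁻¹ * s * g ∈ S) → (∀ z, z ∈ F' ↔ g⁻¹ z ∈ F) → MT m S F → MT m S' F'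
  | 0, _, _, _, _, _, _, _, _ => trivial
  | m + 1, S, S', F, F', g, hS, hF, h => by
    refine ⟨?_, ?_⟩
    · intro x hx y hy
      obtain ⟨s, hs, hsx⟩ := h.1 (g⁻¹ x) (fun hh => hx ((hF x).mpr hh)) (g⁻¹ y)
        (fun hh => hy ((hF y).mpr hh))
      refine ⟨g * s * g⁻¹, (hS _).mpr (by simpa [mul_assoc] using hs), ?_⟩
      rw [Perm.mul_apply, Perm.mul_apply, hsx, perm_apply_inv]
    · intro a ha
      refine MT_conj m (ptStab S (g⁻¹ a)) (ptStab S' a) (insert (g⁻¹ a) F) (insert a F') g ?_ ?_
        (h.2 (g⁻¹ a) (fun hh => ha ((hF a).mpr hh)))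
      · intro s
        rw [mem_ptStab, mem_ptStab, hS s, Perm.mul_apply, Perm.mul_apply, perm_apply_inv,
          Perm.inv_eq_iff_eq, perm_apply_inv]
      · intro z
        rw [Finset.mem_insert, Finset.mem_insert, hF z, Perm.inv_eq_iff_eq, perm_apply_inv]

/-- lifting from one point stabilizer -/
lemma MT_lift {m : ℕ} {S : Subgroup (Perm α)} {F : Finset α} {a : α} (hF : FixesOn S F)
    (hT : TrOff S F) (ha : a ∉ F) (h : MT m (ptStab S a) (insert a F)) : MT (m + 1) S F := by
  refine ⟨hT, fun a' ha' => ?_⟩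
  obtain ⟨g, hg, hga⟩ := hT a ha a' ha'
  refine MT_conj m (ptStab S a) (ptStab S a') (insert a F) (insert a' F) g ?_ ?_ h
  · intro s
    rw [mem_ptStab, mem_ptStab, Perm.mul_apply, Perm.mul_apply, hga]
    have h1 : g⁻¹ * s * g ∈ S ↔ s ∈ S := by
      constructor
      · intro hh
        have := S.mul_mem (S.mul_mem hg hh) (S.inv_mem hg)
        simpa [mul_assoc] using this
      · intro hh
        exact S.mul_mem (S.mul_mem (S.inv_mem hg) hh) hg
    rw [h1, Perm.inv_eq_iff_eq, hga]
  · intro z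
    rw [Finset.mem_insert, Finset.mem_insert, hF.mem_iff (S.inv_mem hg) z, Perm.inv_eq_iff_eq,
      hga]

/-- pointwise stabilizers of finsets -/
lemma MT_fixr (T : Finset α) : ∀ (m : ℕ) (S : Subgroup (Perm α)) (F : Finset α),
    Disjoint T F → MT (T.card + m) S F → MT m (fixr S T) (T ∪ F) := by
  induction T using Finset.induction_on with
  | empty =>
    intro m S F _ h
    simpa [fixr_empty] using h
  | insert a T haT ih =>
    intro m S F hd h
    rw [Finset.disjoint_insert_left] at hd
    rw [Finset.card_insert_of_notMem haT] at h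
    have h1 : MT (m + 1) (fixr S T) (T ∪ F) := ih (m + 1) S F hd.2 (by
      have : T.card + (m + 1) = T.card + 1 + m := by ring
      rw [this]; exact h)
    have h2 := h1.2 a (by simp [haT, hd.1])
    rw [ptStab_fixr, ← Finset.insert_union] at h2
    exact h2

lemma MT.exists_fix {m : ℕ} {S : Subgroup (Perm α)} {F : Finset α} (h : MT m S F)
    (T : Finset α) (hT : T.card < m) (hTF : Disjoint T F) {x y : α} (hx : x ∉ T ∪ F)
    (hy : y ∉ T ∪ F) : ∃ s ∈ S, (∀ z ∈ T, s z = z) ∧ s x = y := by
  have h1 : MT (T.card + 1) S F := MT_le hT h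
  have h2 := MT_fixr T 1 S F hTF h1
  obtain ⟨s, hs, hsx⟩ := (MT_one_iff.mp h2) x hx y hy
  rw [mem_fixr] at hs
  exact ⟨s, hs.1, hs.2, hsx⟩

lemma MT.two {S : Subgroup (Perm α)} {F : Finset α} (hF : FixesOn S F) (h : MT 2 S F)
    {a b c d : α} (ha : a ∉ F) (hb : b ∉ F) (hc : c ∉ F) (hd : d ∉ F) (hab : a ≠ b)
    (hcd : c ≠ d) : ∃ s ∈ S, s a = c ∧ s b = d := by
  obtain ⟨s₁, hs₁, h1⟩ := h.1 a ha c hc
  have hb' : s₁ b ∉ insert c F := by
    rw [Finset.mem_insert, not_or]
    refine ⟨fun hh => hab (s₁.injective (h1.trans hh.symm)), hF.not_mem hs₁ hb⟩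
  have hd' : d ∉ insert c F := by
    rw [Finset.mem_insert, not_or]
    exact ⟨fun hh => hcd hh.symm, hd⟩
  obtain ⟨s₂, hs₂, h2⟩ := (h.2 c hc).1 (s₁ b) hb' d hd'
  rw [mem_ptStab] at hs₂
  refine ⟨s₂ * s₁, S.mul_mem hs₂.1 hs₁, ?_, ?_⟩
  · rw [Perm.mul_apply, h1, hs₂.2]
  · rw [Perm.mul_apply, h2]

section Fintype

variable [Fintype α]

lemma exists_notMem_of_card_lt (E : Finset α) (h : E.card < Fintype.card α) : ∃ a, a ∉ E := by
  by_contra hc
  push Not at hc
  have : E = Finset.univ := Finset.eq_univ_iff_forall.mpr hc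
  rw [this, Finset.card_univ] at h
  exact lt_irrefl _ h

lemma exists_tuple (m : ℕ) (E : Finset α) (h : m + E.card ≤ Fintype.card α) :
    ∃ x : Fin m → α, Function.Injective x ∧ ∀ i, x i ∉ E := by
  have h1 : m ≤ (Finset.univ \ E).card := by
    rw [Finset.card_sdiff_of_subset (Finset.subset_univ E), Finset.card_univ]; omega
  obtain ⟨t, ht, htc⟩ := Finset.exists_subset_card_eq h1
  refine ⟨fun i => ((t.equivFinOfCardEq htc).symm i : α), ?_, ?_⟩
  · exact Subtype.val_injective.comp (Equiv.injective _)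
  · intro i
    have := ht ((t.equivFinOfCardEq htc).symm i).2
    simpa using this

/-- from tuple transitivity to `MT` -/
lemma MT_of_tuple : ∀ (m : ℕ) (S : Subgroup (Perm α)) (F : Finset α),
    m + F.card ≤ Fintype.card α →
    (∀ x y : Fin m → α, Function.Injective x → Function.Injective y → (∀ i, x i ∉ F) →
      (∀ i, y i ∉ F) → ∃ g ∈ S, ∀ i, g (x i) = y i) → MT m S F
  | 0, _, _, _, _ => trivial
  | m + 1, S, F, hc, h => by
    refine ⟨?_, ?_⟩
    · intro x hx y hy
      have hcx : m + (insert x F).card ≤ Fintype.card α := by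
        rw [Finset.card_insert_of_notMem hx]; omega
      have hcy : m + (insert y F).card ≤ Fintype.card α := by
        rw [Finset.card_insert_of_notMem hy]; omega
      obtain ⟨t, ht, htE⟩ := exists_tuple m (insert x F) hcx
      obtain ⟨t', ht', htE'⟩ := exists_tuple m (insert y F) hcy
      have key := h (Fin.cons x t) (Fin.cons y t') ?_ ?_ ?_ ?_
      · obtain ⟨g, hg, hgi⟩ := key
        exact ⟨g, hg, by simpa using hgi 0⟩
      · rw [Fin.cons_injective_iff]
        refine ⟨?_, ht⟩
        rintro ⟨i, hi⟩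
        exact htE i (by simp [hi])
      · rw [Fin.cons_injective_iff]
        refine ⟨?_, ht'⟩
        rintro ⟨i, hi⟩
        exact htE' i (by simp [hi])
      · intro i
        refine Fin.cases ?_ ?_ i
        · simpa using hx
        · intro j
          have := htE j
          simp only [Finset.mem_insert, not_or] at this
          simpa using this.2
      · intro i
        refine Fin.cases ?_ ?_ i
        · simpa using hy
        · intro j
          have := htE' j
          simp only [Finset.mem_insert, not_or] at this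
          simpa using this.2
    · intro a ha
      refine MT_of_tuple m (ptStab S a) (insert a F) ?_ ?_
      · rw [Finset.card_insert_of_notMem ha]; omega
      · intro x y hx hy hxF hyF
        have key := h (Fin.cons a x) (Fin.cons a y) ?_ ?_ ?_ ?_
        · obtain ⟨g, hg, hgi⟩ := key
          refine ⟨g, mem_ptStab.mpr ⟨hg, by simpa using hgi 0⟩, fun i => ?_⟩
          simpa using hgi i.succ
        · rw [Fin.cons_injective_iff]
          refine ⟨?_, hx⟩
          rintro ⟨i, hi⟩
          exact hxF i (by simp [hi])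
        · rw [Fin.cons_injective_iff]
          refine ⟨?_, hy⟩
          rintro ⟨i, hi⟩
          exact hyF i (by simp [hi])
        · intro i
          refine Fin.cases ?_ ?_ i
          · simpa using ha
          · intro j
            have := hxF j
            simp only [Finset.mem_insert, not_or] at this
            simpa using this.2
        · intro i
          refine Fin.cases ?_ ?_ i
          · simpa using ha
          · intro j
            have := hyF j
            simp only [Finset.mem_insert, not_or] at this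
            simpa using this.2

end Fintype

/-- from `MT` to tuple transitivity -/
lemma MT.tuple : ∀ (m : ℕ) (S : Subgroup (Perm α)) (F : Finset α), FixesOn S F → MT m S F →
    ∀ x y : Fin m → α, Function.Injective x → Function.Injective y → (∀ i, x i ∉ F) →
      (∀ i, y i ∉ F) → ∃ g ∈ S, ∀ i, g (x i) = y i
  | 0, S, _, _, _ => fun _ _ _ _ _ _ => ⟨1, S.one_mem, fun i => i.elim0⟩
  | m + 1, S, F, hF, h => by
    intro x y hx hy hxF hyF
    obtain ⟨g₀, hg₀, h0⟩ := h.1 (x 0) (hxF 0) (y 0) (hyF 0)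
    have key := MT.tuple m (ptStab S (y 0)) (insert (y 0) F) (hF.ptStab _) (h.2 (y 0) (hyF 0))
      (fun i => g₀ (x i.succ)) (fun i => y i.succ) ?_ ?_ ?_ ?_
    · obtain ⟨g₁, hg₁, h1⟩ := key
      rw [mem_ptStab] at hg₁
      refine ⟨g₁ * g₀, S.mul_mem hg₁.1 hg₀, fun i => ?_⟩
      refine Fin.cases ?_ ?_ i
      · rw [Perm.mul_apply, h0, hg₁.2]
      · intro j
        rw [Perm.mul_apply]; exact h1 j
    · exact g₀.injective.comp (hx.comp (Fin.succ_injective _))
    · exact hy.comp (Fin.succ_injective _)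
    · intro i
      rw [Finset.mem_insert, not_or]
      refine ⟨?_, hF.not_mem hg₀ (hxF _)⟩
      rw [← h0]
      intro hh
      exact Fin.succ_ne_zero i (hx (g₀.injective hh))
    · intro i
      rw [Finset.mem_insert, not_or]
      refine ⟨?_, hyF _⟩
      intro hh
      exact Fin.succ_ne_zero i (hy hh)

/-- conversion from Mathlib's multiple transitivity -/
lemma MT_of_isMultiplyPretransitive [Fintype α] {H : Type*} [Group H] [MulAction H α]
    (S : Subgroup (Perm α)) (hS : ∀ h : H, ∃ g ∈ S, ∀ a : α, g a = h • a) (k : ℕ)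
    (hk : k ≤ Fintype.card α) (h : MulAction.IsMultiplyPretransitive H α k) : MT k S ∅ := by
  refine MT_of_tuple k S ∅ (by simpa using hk) ?_
  intro x y hx hy _ _
  obtain ⟨g, hg⟩ := (MulAction.isMultiplyPretransitive_iff.mp h) ⟨x, hx⟩ ⟨y, hy⟩
  obtain ⟨s, hs, hsa⟩ := hS g
  refine ⟨s, hs, fun i => ?_⟩
  rw [hsa]
  have := congrArg (fun e : Fin k ↪ α => e i) hg
  simpa using this

/-- conversion to Mathlib's multiple transitivity -/
lemma isMultiplyPretransitive_of_MT {H : Type*} [Group H] [MulAction H α]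
    (S : Subgroup (Perm α)) (hS : ∀ g ∈ S, ∃ h : H, ∀ a : α, h • a = g a) (k : ℕ)
    (h : MT k S ∅) : MulAction.IsMultiplyPretransitive H α k := by
  rw [MulAction.isMultiplyPretransitive_iff]
  intro x y
  obtain ⟨g, hg, hgi⟩ := MT.tuple k S ∅ (fixesOn_empty S) h x y x.injective y.injective
    (by simp) (by simp)
  obtain ⟨h', hh'⟩ := hS g hg
  refine ⟨h', ?_⟩
  ext i
  simp [hh', hgi]

end Cfsg.Agent.Lib.Helper6
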