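import Mathlib

/-!
Helper library: finite subgroups of `GL(2, p)` given by explicit tables, and regularity on
non-zero vectors.
-/

set_option autoImplicit false

namespace Cfsg.Agent.Lib.Helper6

open Matrix

/-- 2×2 matrices encoded by four naturals. -/
abbrev Q4 := ℕ × ℕ × ℕ × ℕ

/-- The matrix over `ZMod p` encoded by a 4-tuple. -/
def qmat (p : ℕ) (x : Q4) : Matrix (Fin 2) (Fin 2) (ZMod p) :=
  !![(x.1 : ZMod p), (x.2.1 : ZMod p); (x.2.2.1 : ZMod p), (x.2.2.2 : ZMod p)]

/-- Multiplication of encoded matrices modulo `p`. -/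
def qmul (p : ℕ) (x y : Q4) : Q4 :=
  ((x.1 * y.1 + x.2.1 * y.2.2.1) % p, (x.1 * y.2.1 + x.2.1 * y.2.2.2) % p,
   (x.2.2.1 * y.1 + x.2.2.2 * y.2.2.1) % p, (x.2.2.1 * y.2.1 + x.2.2.2 * y.2.2.2) % p)

/-- The encoded identity matrix. -/
def qone : Q4 := (1, 0, 0, 1)

theorem qmat_qmul (p : ℕ) (x y : Q4) : qmat p (qmul p x y) = qmat p x * qmat p y := by
  ext i j
  fin_cases i <;> fin_cases j <;>
    simp [qmat, qmul, Matrix.mul_apply, Fin.sum_univ_two, ZMod.natCast_mod]

theorem qmat_qone (p : ℕ) : qmat p qone = 1 := by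
  ext i j
  fin_cases i <;> fin_cases j <;> simp [qmat, qone]

/-- All entries are reduced modulo `p`. -/
def qred (p : ℕ) (x : Q4) : Bool :=
  decide (x.1 < p) && decide (x.2.1 < p) && decide (x.2.2.1 < p) && decide (x.2.2.2 < p)

theorem natCast_inj_of_lt {p a b : ℕ} (ha : a < p) (hb : b < p)
    (h : (a : ZMod p) = (b : ZMod p)) : a = b := by
  have h1 := (ZMod.natCast_eq_natCast_iff' a b p).mp h
  rwa [Nat.mod_eq_of_lt ha, Nat.mod_eq_of_lt hb] at h1

theorem qmat_injOn (p : ℕ) {x y : Q4} (hx : qred p x = true) (hy : qred p y = true)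
    (h : qmat p x = qmat p y) : x = y := by
  have h00 := congrFun (congrFun h 0) 0
  have h01 := congrFun (congrFun h 0) 1
  have h10 := congrFun (congrFun h 1) 0
  have h11 := congrFun (congrFun h 1) 1
  simp only [qmat, Matrix.of_apply, Matrix.cons_val_zero, Matrix.cons_val_one,
    Matrix.cons_val', Matrix.cons_val_fin_one] at h00 h01 h10 h11
  simp only [qred, Bool.and_eq_true, decide_eq_true_eq] at hx hy
  obtain ⟨⟨⟨hx1, hx2⟩, hx3⟩, hx4⟩ := hx
  obtain ⟨⟨⟨hy1, hy2⟩, hy3⟩, hy4⟩ := hy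
  obtain ⟨x1, x2, x3, x4⟩ := x
  obtain ⟨y1, y2, y3, y4⟩ := y
  simp only at *
  rw [natCast_inj_of_lt hx1 hy1 h00, natCast_inj_of_lt hx2 hy2 h01,
    natCast_inj_of_lt hx3 hy3 h10, natCast_inj_of_lt hx4 hy4 h11]

/-- Every entry of the list is the identity or a generator times a later entry. -/
def qwf (p : ℕ) (gens : List Q4) : List Q4 → Bool
  | [] => true
  | m :: rest =>
    (m == qone || gens.any (fun g => rest.any (fun m' => m == qmul p g m'))) && qwf p gens rest

/-- The list is closed under left multiplication by the generators. -/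
def qclosed (p : ℕ) (gens T : List Q4) : Bool :=
  gens.all (fun g => T.all (fun m => T.contains (qmul p g m)))

/-- All entries of the list are reduced. -/
def qallred (p : ℕ) (T : List Q4) : Bool := T.all (qred p)

/-- No non-identity `lam • x` with `x` in the list has eigenvalue one. -/
def qsemireg (p lam : ℕ) (T : List Q4) : Bool :=
  T.all (fun x =>
    !(((lam * x.1 + (p - 1)) * (lam * x.2.2.2 + (p - 1))) % p ==
      (lam * lam * (x.2.1 * x.2.2.1)) % p) || (x == qone && lam % p == 1))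

theorem qsemireg_spec {p : ℕ} [hp : Fact p.Prime] (lam : ℕ) (T : List Q4)
    (h6 : qsemireg p lam T = true) {x : Q4} (hx : x ∈ T)
    (hdet : ((lam : ZMod p) • qmat p x - 1).det = 0) : x = qone ∧ lam % p = 1 := by
  have h := List.all_eq_true.mp h6 x hx
  have hp1 : ((p - 1 : ℕ) : ZMod p) = -1 := by
    rw [Nat.cast_sub hp.out.one_le]
    simp
  have hd : ((lam : ZMod p) * (x.1 : ZMod p) - 1) * ((lam : ZMod p) * (x.2.2.2 : ZMod p) - 1) =
      (lam : ZMod p) * (lam : ZMod p) * ((x.2.1 : ZMod p) * (x.2.2.1 : ZMod p)) := by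
    rw [Matrix.det_fin_two] at hdet
    simp only [qmat, Matrix.sub_apply, Matrix.smul_apply, Matrix.of_apply, Matrix.cons_val_zero,
      Matrix.cons_val_one, Matrix.cons_val', Matrix.cons_val_fin_one, Matrix.one_apply_eq,
      smul_eq_mul] at hdet
    have h01 : (1 : Matrix (Fin 2) (Fin 2) (ZMod p)) 0 1 = 0 := Matrix.one_apply_ne (by decide)
    have h10 : (1 : Matrix (Fin 2) (Fin 2) (ZMod p)) 1 0 = 0 := Matrix.one_apply_ne (by decide)
    rw [h01, h10] at hdet
    linear_combination hdet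
  have hnat : (((lam * x.1 + (p - 1)) * (lam * x.2.2.2 + (p - 1)) : ℕ) : ZMod p) =
      ((lam * lam * (x.2.1 * x.2.2.1) : ℕ) : ZMod p) := by
    push_cast
    rw [hp1]
    linear_combination hd
  have hmod := (ZMod.natCast_eq_natCast_iff' _ _ p).mp hnat
  rw [Bool.or_eq_true] at h
  rcases h with h | h
  · rw [Bool.not_eq_true', beq_eq_false_iff_ne] at h
    exact absurd hmod h
  · rw [Bool.and_eq_true, beq_iff_eq, beq_iff_eq] at h
    exact h

section table

variable {p : ℕ} [hp : Fact p.Prime]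

theorem table_mem (gens : List (GL (Fin 2) (ZMod p))) (gq T : List Q4)
    (hg1 : ∀ g ∈ gens, ∃ q ∈ gq, qmat p q = (g : Matrix (Fin 2) (Fin 2) (ZMod p)))
    (h1 : T.contains qone = true) (h2 : qclosed p gq T = true) (h4 : qallred p T = true) :
    ∀ h ∈ Subgroup.closure {g | g ∈ gens},
      ∃ x ∈ T, qmat p x = (h : Matrix (Fin 2) (Fin 2) (ZMod p)) := by
  classical
  have hred : ∀ x ∈ T, qred p x = true := fun x hx => List.all_eq_true.mp h4 x hx
  let S : Subgroup (GL (Fin 2) (ZMod p)) :=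
    { carrier := {h | ∀ x ∈ T, ∃ y ∈ T,
        qmat p y = (h : Matrix (Fin 2) (Fin 2) (ZMod p)) * qmat p x}
      one_mem' := fun x hx => ⟨x, hx, by simp⟩
      mul_mem' := by
        intro a b ha hb x hx
        obtain ⟨y, hy, hy'⟩ := hb x hx
        obtain ⟨z, hz, hz'⟩ := ha y hy
        exact ⟨z, hz, by rw [hz', hy', Units.val_mul, mul_assoc]⟩
      inv_mem' := by
        intro a ha x hx
        have hchoice : ∀ x : {x // x ∈ T.toFinset}, ∃ y : {x // x ∈ T.toFinset},
            qmat p y.1 = (a : Matrix (Fin 2) (Fin 2) (ZMod p)) * qmat p x.1 := by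
          intro x
          obtain ⟨y, hy, hy'⟩ := ha x.1 (List.mem_toFinset.mp x.2)
          exact ⟨⟨y, List.mem_toFinset.mpr hy⟩, hy'⟩
        choose φ hφ using hchoice
        have hinj : Function.Injective φ := by
          intro x y hxy
          have h5 : (a : Matrix (Fin 2) (Fin 2) (ZMod p)) * qmat p x.1 =
              (a : Matrix (Fin 2) (Fin 2) (ZMod p)) * qmat p y.1 := by
            rw [← hφ x, ← hφ y, hxy]
          have h6 : qmat p x.1 = qmat p y.1 := by
            have h7 := congrArg (fun M => ((a⁻¹ : GL (Fin 2) (ZMod p)) :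
              Matrix (Fin 2) (Fin 2) (ZMod p)) * M) h5
            simp only [← mul_assoc, ← Units.val_mul, inv_mul_cancel, Units.val_one, one_mul] at h7
            exact h7
          exact Subtype.ext (qmat_injOn p (hred _ (List.mem_toFinset.mp x.2))
            (hred _ (List.mem_toFinset.mp y.2)) h6)
        have hsurj := Finite.surjective_of_injective hinj
        obtain ⟨y, hy⟩ := hsurj ⟨x, List.mem_toFinset.mpr hx⟩
        refine ⟨y.1, List.mem_toFinset.mp y.2, ?_⟩
        have h8 := hφ y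
        rw [hy] at h8
        rw [h8, ← mul_assoc, ← Units.val_mul, inv_mul_cancel, Units.val_one, one_mul] }
  have hle : Subgroup.closure {g | g ∈ gens} ≤ S := by
    rw [Subgroup.closure_le]
    intro g hg x hx
    obtain ⟨q, hq, hq'⟩ := hg1 g hg
    have h3 : T.contains (qmul p q x) = true :=
      List.all_eq_true.mp (List.all_eq_true.mp h2 q hq) x hx
    refine ⟨qmul p q x, by simpa using h3, ?_⟩
    rw [qmat_qmul, hq']
  intro h hh
  have h1' : qone ∈ T := by simpa using h1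
  obtain ⟨y, hy, hy'⟩ := hle hh qone h1'
  exact ⟨y, hy, by rw [hy', qmat_qone, mul_one]⟩

theorem table_sub (gens : List (GL (Fin 2) (ZMod p))) (gq : List Q4)
    (hg2 : ∀ q ∈ gq, ∃ g ∈ gens, qmat p q = (g : Matrix (Fin 2) (Fin 2) (ZMod p))) :
    ∀ T : List Q4, qwf p gq T = true → ∀ x ∈ T, ∃ h ∈ Subgroup.closure {g | g ∈ gens},
      (h : Matrix (Fin 2) (Fin 2) (ZMod p)) = qmat p x := by
  intro T
  induction T with
  | nil => intro _ x hx; simp at hx
  | cons m rest ih =>
    intro hwf x hx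
    rw [qwf, Bool.and_eq_true] at hwf
    obtain ⟨hm, hrest⟩ := hwf
    rcases List.mem_cons.mp hx with rfl | hx'
    · rw [Bool.or_eq_true] at hm
      rcases hm with hm | hm
      · rw [beq_iff_eq] at hm
        exact ⟨1, Subgroup.one_mem _, by rw [hm, qmat_qone]; rfl⟩
      · rw [List.any_eq_true] at hm
        obtain ⟨g, hg, hm⟩ := hm
        rw [List.any_eq_true] at hm
        obtain ⟨m', hm', hm⟩ := hm
        rw [beq_iff_eq] at hm
        obtain ⟨h', hh', hh''⟩ := ih hrest m' hm'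
        obtain ⟨g', hg', hg''⟩ := hg2 g hg
        refine ⟨g' * h', Subgroup.mul_mem _ (Subgroup.subset_closure hg') hh', ?_⟩
        rw [hm, qmat_qmul, Units.val_mul, hh'', hg'']
    · exact ih hrest x hx'

theorem table_card (gens : List (GL (Fin 2) (ZMod p))) (gq T : List Q4)
    (hg1 : ∀ g ∈ gens, ∃ q ∈ gq, qmat p q = (g : Matrix (Fin 2) (Fin 2) (ZMod p)))
    (hg2 : ∀ q ∈ gq, ∃ g ∈ gens, qmat p q = (g : Matrix (Fin 2) (Fin 2) (ZMod p)))
    (h1 : T.contains qone = true) (h2 : qclosed p gq T = true) (h3 : qwf p gq T = true)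
    (h4 : qallred p T = true) (h5 : T.Nodup) :
    Nat.card (Subgroup.closure {g | g ∈ gens}) = T.length := by
  classical
  have hred : ∀ x ∈ T, qred p x = true := fun x hx => List.all_eq_true.mp h4 x hx
  have hmem := table_mem gens gq T hg1 h1 h2 h4
  have hsub := table_sub gens gq hg2 T h3
  have hchoice : ∀ x : {x // x ∈ T.toFinset}, ∃ h : Subgroup.closure {g | g ∈ gens},
      ((h : GL (Fin 2) (ZMod p)) : Matrix (Fin 2) (Fin 2) (ZMod p)) = qmat p x.1 := by
    intro x
    obtain ⟨h, hh, hh'⟩ := hsub x.1 (List.mem_toFinset.mp x.2)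
    exact ⟨⟨h, hh⟩, hh'⟩
  choose f hf using hchoice
  have hbij : Function.Bijective f := by
    constructor
    · intro x y hxy
      have h6 : qmat p x.1 = qmat p y.1 := by rw [← hf x, ← hf y, hxy]
      exact Subtype.ext (qmat_injOn p (hred _ (List.mem_toFinset.mp x.2))
        (hred _ (List.mem_toFinset.mp y.2)) h6)
    · intro h
      obtain ⟨x, hx, hx'⟩ := hmem h.1 h.2
      refine ⟨⟨x, List.mem_toFinset.mpr hx⟩, ?_⟩
      apply Subtype.ext
      apply Units.ext
      rw [hf, hx']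
  rw [← Nat.card_eq_of_bijective f hbij, Nat.card_eq_fintype_card, Fintype.card_coe,
    List.toFinset_card_of_nodup h5]

end table

section regular

variable {p : ℕ} [hp : Fact p.Prime]

theorem card_nonzero_vec : Nat.card {w : Fin 2 → ZMod p // w ≠ 0} = p ^ 2 - 1 := by
  classical
  rw [Nat.card_eq_fintype_card, Fintype.card_subtype_compl, Fintype.card_subtype_eq]
  simp [ZMod.card]

theorem orbit_map_injective (H : Subgroup (GL (Fin 2) (ZMod p)))
    (hsr : ∀ h ∈ H, ((h : Matrix (Fin 2) (Fin 2) (ZMod p)) - 1).det = 0 → h = 1)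
    (v : Fin 2 → ZMod p) (hv : v ≠ 0) (h h' : H)
    (heq : ((h : GL (Fin 2) (ZMod p)) : Matrix (Fin 2) (Fin 2) (ZMod p)) *ᵥ v =
      ((h' : GL (Fin 2) (ZMod p)) : Matrix (Fin 2) (Fin 2) (ZMod p)) *ᵥ v) : h = h' := by
  have h1 : ((((h⁻¹ * h' : H) : GL (Fin 2) (ZMod p)) : Matrix (Fin 2) (Fin 2) (ZMod p)) - 1) *ᵥ v
      = 0 := by
    rw [Matrix.sub_mulVec, Matrix.one_mulVec, Subgroup.coe_mul, Units.val_mul,
      ← Matrix.mulVec_mulVec, ← heq, Matrix.mulVec_mulVec, ← Units.val_mul, Subgroup.coe_inv,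
      inv_mul_cancel, Units.val_one, Matrix.one_mulVec, sub_self]
  have h2 : ((((h⁻¹ * h' : H) : GL (Fin 2) (ZMod p)) : Matrix (Fin 2) (Fin 2) (ZMod p)) - 1).det
      = 0 := Matrix.exists_mulVec_eq_zero_iff.mp ⟨v, hv, h1⟩
  have h3 := hsr _ (h⁻¹ * h').2 h2
  have h4 : h⁻¹ * h' = 1 := Subtype.ext h3
  exact (inv_mul_eq_one.mp h4)

theorem card_le_of_semiregular (H : Subgroup (GL (Fin 2) (ZMod p)))
    (hsr : ∀ h ∈ H, ((h : Matrix (Fin 2) (Fin 2) (ZMod p)) - 1).det = 0 → h = 1) :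
    Nat.card H ≤ p ^ 2 - 1 := by
  classical
  have hv : (![1, 0] : Fin 2 → ZMod p) ≠ 0 := by
    intro h
    have := congrFun h 0
    simp at this
  have hne : ∀ h : H, ((h : GL (Fin 2) (ZMod p)) : Matrix (Fin 2) (Fin 2) (ZMod p)) *ᵥ
      (![1, 0] : Fin 2 → ZMod p) ≠ 0 := by
    intro h h0
    apply hv
    have h1 := congrArg (fun u => (((h : GL (Fin 2) (ZMod p))⁻¹ : GL (Fin 2) (ZMod p)) :
      Matrix (Fin 2) (Fin 2) (ZMod p)) *ᵥ u) h0
    simp only [Matrix.mulVec_mulVec, ← Units.val_mul, inv_mul_cancel, Units.val_one,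
      Matrix.one_mulVec, Matrix.mulVec_zero] at h1
    exact h1
  rw [← card_nonzero_vec (p := p)]
  refine Nat.card_le_card_of_injective
    (fun h : H => (⟨_, hne h⟩ : {w : Fin 2 → ZMod p // w ≠ 0})) ?_
  intro h h' heq
  exact orbit_map_injective H hsr _ hv h h' (congrArg Subtype.val heq)

theorem regular_of_semiregular (H : Subgroup (GL (Fin 2) (ZMod p)))
    (hcard : Nat.card H = p ^ 2 - 1)
    (hsr : ∀ h ∈ H, ((h : Matrix (Fin 2) (Fin 2) (ZMod p)) - 1).det = 0 → h = 1) :
    ∀ v w : Fin 2 → ZMod p, v ≠ 0 → w ≠ 0 → ∃! h : H,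
      ((h : GL (Fin 2) (ZMod p)) : Matrix (Fin 2) (Fin 2) (ZMod p)) *ᵥ v = w := by
  classical
  intro v w hv hw
  have hne : ∀ h : H, ((h : GL (Fin 2) (ZMod p)) : Matrix (Fin 2) (Fin 2) (ZMod p)) *ᵥ v ≠ 0 := by
    intro h h0
    apply hv
    have h1 := congrArg (fun u => (((h : GL (Fin 2) (ZMod p))⁻¹ : GL (Fin 2) (ZMod p)) :
      Matrix (Fin 2) (Fin 2) (ZMod p)) *ᵥ u) h0
    simp only [Matrix.mulVec_mulVec, ← Units.val_mul, inv_mul_cancel, Units.val_one,
      Matrix.one_mulVec, Matrix.mulVec_zero] at h1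
    exact h1
  have hinj : Function.Injective
      (fun h : H => (⟨_, hne h⟩ : {w : Fin 2 → ZMod p // w ≠ 0})) := by
    intro h h' heq
    exact orbit_map_injective H hsr _ hv h h' (congrArg Subtype.val heq)
  have hbij := hinj.bijective_of_nat_card_le (by rw [card_nonzero_vec, hcard])
  obtain ⟨h, hh⟩ := hbij.2 ⟨w, hw⟩
  refine ⟨h, congrArg Subtype.val hh, ?_⟩
  intro h' hh'
  exact hinj (Subtype.ext (hh'.trans (congrArg Subtype.val hh).symm))

end regular

end Cfsg.Agent.Lib.Helper6
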