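import Mathlib

set_option autoImplicit false

namespace Cfsg.Agent.Lib.Helper6

open Equiv

theorem perm_inv_apply_self {α : Type*} (f : Perm α) (x : α) : f⁻¹ (f x) = x :=
  f.symm_apply_apply x

theorem perm_apply_inv_self {α : Type*} (f : Perm α) (x : α) : f (f⁻¹ x) = x :=
  f.apply_symm_apply x

/-- A permutation commuting with a transitive set of permutations and fixing a point is trivial. -/
theorem perm_eq_one_of_commute_of_fix {α : Type*} (K : Subgroup (Perm α))
    (hK : ∀ a b : α, ∃ k ∈ K, k a = b) (c : Perm α) (hc : ∀ k ∈ K, k * c = c * k)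
    (a : α) (hca : c a = a) : c = 1 := by
  ext b
  obtain ⟨k, hk, hkab⟩ := hK a b
  have h3 := congrArg (fun σ : Perm α => σ a) (hc k hk)
  simp only [Perm.coe_mul, Function.comp_apply] at h3
  rw [Perm.coe_one, id_eq, ← hkab, ← h3, hca]

/-- If two transitive permutation groups commute elementwise, each is the centralizer of the other. -/
theorem centralizer_eq_of_transitive_of_commute {α : Type*} (M N : Subgroup (Perm α))
    (hM : ∀ a b : α, ∃ k ∈ M, k a = b) (hN : ∀ a b : α, ∃ k ∈ N, k a = b)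
    (hcomm : ∀ m ∈ M, ∀ n ∈ N, m * n = n * m) :
    Subgroup.centralizer (M : Set (Perm α)) = N := by
  apply le_antisymm
  · intro c hc
    rw [Subgroup.mem_centralizer_iff] at hc
    rcases isEmpty_or_nonempty α with hα | ⟨⟨a⟩⟩
    · have : c = 1 := by ext b; exact (hα.false b).elim
      rw [this]; exact one_mem _
    · obtain ⟨n, hn, hna⟩ := hN a (c a)
      have h1 : n⁻¹ * c = 1 := by
        apply perm_eq_one_of_commute_of_fix M hM (n⁻¹ * c) _ a
        · rw [Perm.coe_mul, Function.comp_apply, ← hna, perm_inv_apply_self]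
        · intro k hk
          have e1 : k * n = n * k := hcomm k hk n hn
          have e2 : k * c = c * k := hc k hk
          have e3 : k * n⁻¹ = n⁻¹ * k := by
            rw [eq_inv_mul_iff_mul_eq, ← mul_assoc, ← e1, mul_assoc, mul_inv_cancel, mul_one]
          rw [← mul_assoc, e3, mul_assoc, e2, mul_assoc]
      have h2 : c = n := by
        rw [inv_mul_eq_one] at h1; exact h1.symm
      rw [h2]; exact hn
  · intro n hn
    rw [Subgroup.mem_centralizer_iff]
    intro m hm
    exact hcomm m hm n hn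

/-- Two transitive permutation groups commuting elementwise are both semiregular. -/
theorem semiregular_of_transitive_of_commute {α : Type*} (M N : Subgroup (Perm α))
    (hM : ∀ a b : α, ∃ k ∈ M, k a = b)
    (hcomm : ∀ m ∈ M, ∀ n ∈ N, m * n = n * m) (n : Perm α) (hn : n ∈ N) (a : α) (hna : n a = a) :
    n = 1 :=
  perm_eq_one_of_commute_of_fix M hM n (fun k hk => hcomm k hk n hn) a hna

/-- Two transitive permutation groups commuting elementwise are isomorphic. -/
theorem nonempty_mulEquiv_of_transitive_of_commute {α : Type*} (M N : Subgroup (Perm α))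
    (hM : ∀ a b : α, ∃ k ∈ M, k a = b) (hN : ∀ a b : α, ∃ k ∈ N, k a = b)
    (hcomm : ∀ m ∈ M, ∀ n ∈ N, m * n = n * m) : Nonempty (M ≃* N) := by
  rcases isEmpty_or_nonempty α with hα | ⟨⟨a⟩⟩
  · have hone : ∀ c : Perm α, c = 1 := fun c => by ext b; exact (hα.false b).elim
    refine ⟨⟨⟨fun _ => 1, fun _ => 1, ?_, ?_⟩, ?_⟩⟩
    · intro x; apply Subtype.ext; exact (hone _).symm
    · intro x; apply Subtype.ext; exact (hone _).symm
    · intro x y; simp
  have hNs : ∀ n ∈ N, n a = a → n = 1 := fun n hn h =>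
    semiregular_of_transitive_of_commute M N hM hcomm n hn a h
  have hMs : ∀ m ∈ M, m a = a → m = 1 := fun m hm h =>
    semiregular_of_transitive_of_commute N M hN (fun n hn m hm => (hcomm m hm n hn).symm) m hm a h
  have hex : ∀ m : M, ∃ n : N, (n : Perm α)⁻¹ a = (m : Perm α) a := by
    intro m
    obtain ⟨n, hn, hna⟩ := hN a ((m : Perm α) a)
    refine ⟨⟨n⁻¹, inv_mem hn⟩, ?_⟩
    simp [hna]
  have huniq : ∀ n₁ n₂ : N, (n₁ : Perm α)⁻¹ a = (n₂ : Perm α)⁻¹ a → n₁ = n₂ := by
    intro n₁ n₂ h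
    have h1 : (n₂ : Perm α) * (n₁ : Perm α)⁻¹ = 1 := by
      apply hNs _ (mul_mem n₂.2 (inv_mem n₁.2))
      rw [Perm.coe_mul, Function.comp_apply, h, perm_apply_inv_self]
    apply Subtype.ext
    rw [mul_inv_eq_one] at h1
    exact h1.symm
  let ψ : M → N := fun m => Classical.choose (hex m)
  have hψ : ∀ m : M, ((ψ m : N) : Perm α)⁻¹ a = (m : Perm α) a := fun m =>
    Classical.choose_spec (hex m)
  have hmul : ∀ m₁ m₂ : M, ψ (m₁ * m₂) = ψ m₁ * ψ m₂ := by
    intro m₁ m₂
    apply huniq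
    rw [hψ]
    have e1 : (m₁ : Perm α) * ((ψ m₂ : N) : Perm α)⁻¹ = ((ψ m₂ : N) : Perm α)⁻¹ * (m₁ : Perm α) :=
      hcomm _ m₁.2 _ (inv_mem (ψ m₂).2)
    have e2 := congrArg (fun σ : Perm α => σ a) e1
    simp only [Perm.coe_mul, Function.comp_apply] at e2
    rw [Subgroup.coe_mul, Subgroup.coe_mul, mul_inv_rev, Perm.coe_mul, Perm.coe_mul,
      Function.comp_apply, Function.comp_apply, hψ m₁, ← e2, hψ m₂]
  let Ψ : M →* N := MonoidHom.mk' ψ hmul
  refine ⟨MulEquiv.ofBijective Ψ ⟨?_, ?_⟩⟩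
  · intro m₁ m₂ h
    have h1 : (m₁ : Perm α) a = (m₂ : Perm α) a := by
      rw [← hψ m₁, ← hψ m₂]
      have : ψ m₁ = ψ m₂ := h
      rw [this]
    have h2 : (m₂ : Perm α)⁻¹ * (m₁ : Perm α) = 1 := by
      apply hMs _ (mul_mem (inv_mem m₂.2) m₁.2)
      rw [Perm.coe_mul, Function.comp_apply, h1, perm_inv_apply_self]
    apply Subtype.ext
    rw [inv_mul_eq_one] at h2
    exact h2.symm
  · intro n
    obtain ⟨m, hm, hma⟩ := hM a ((n : Perm α)⁻¹ a)
    refine ⟨⟨m, hm⟩, ?_⟩
    apply huniq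
    show ((ψ ⟨m, hm⟩ : N) : Perm α)⁻¹ a = (n : Perm α)⁻¹ a
    rw [hψ]
    exact hma

end Cfsg.Agent.Lib.Helper6
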