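import Mathlib
import Cfsg.Prelude.Def_PLocal
import Cfsg.Agent.Lib.Helper23.Regular

/-!
Regular `p`-groups, level by level: the identity `(ab)^(p^n) = a^(p^n) b^(p^n) c` with `c` a product
of `p^n`-th powers of elements of the derived subgroup of `⟨a, b⟩` (`RegAt`), and its consequences
at the same level: the `p^n`-th powers of a subgroup form a subgroup, and the derived subgroup of
the power subgroup lies in the power subgroup of the derived subgroup. Kemhadze's one-step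
condition lifts the identity from level `n` to level `n + 1`.
-/

namespace Cfsg.Agent.Lib.Helper6

open scoped commutatorElement

/-- the regularity identity at level `n` -/
def RegAt (G : Type*) [Group G] (p n : ℕ) : Prop :=
  ∀ a b : G, ∃ c ∈ Cfsg.powerClosure p n
      ⁅Subgroup.closure ({a, b} : Set G), Subgroup.closure ({a, b} : Set G)⁆,
    (a * b) ^ (p ^ n) = a ^ (p ^ n) * b ^ (p ^ n) * c

theorem regAt_of_isRegularPGroup {G : Type*} [Group G] {p : ℕ} (hG : Cfsg.IsRegularPGroup p G)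
    (n : ℕ) : RegAt G p n := fun a b => hG.2 a b n

theorem powerClosure_mono {G : Type*} [Group G] (p n : ℕ) {H K : Subgroup G} (h : H ≤ K) :
    Cfsg.powerClosure p n H ≤ Cfsg.powerClosure p n K := by
  unfold Cfsg.powerClosure
  apply Subgroup.closure_mono
  rintro _ ⟨x, hx, rfl⟩
  exact ⟨x, h hx, rfl⟩

theorem pow_mem_powerClosure {G : Type*} [Group G] (p n : ℕ) {H : Subgroup G} {x : G}
    (hx : x ∈ H) : x ^ (p ^ n) ∈ Cfsg.powerClosure p n H :=
  Subgroup.subset_closure ⟨x, hx, rfl⟩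

theorem closure_pair_le {G : Type*} [Group G] {H : Subgroup G} {x y : G} (hx : x ∈ H)
    (hy : y ∈ H) : Subgroup.closure ({x, y} : Set G) ≤ H := by
  rw [Subgroup.closure_le]
  intro z hz
  rcases hz with rfl | rfl
  · exact hx
  · exact hy

/-- Products of `p^n`-th powers are `p^n`-th powers, inside any subgroup. -/
theorem pow_mul_pow_of_regAt {G : Type*} [Group G] [Finite G] {p : ℕ} [Fact p.Prime]
    (hp : IsPGroup p G) {n : ℕ} (h : RegAt G p n) :
    ∀ (m : ℕ) (K : Subgroup G), Nat.card K ≤ m → ∀ x ∈ K, ∀ y ∈ K,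
      ∃ z ∈ K, x ^ (p ^ n) * y ^ (p ^ n) = z ^ (p ^ n) := by
  intro m
  induction m with
  | zero =>
    intro K hK
    have : 0 < Nat.card K := Nat.card_pos
    omega
  | succ m ih =>
    intro K hK x hx y hy
    by_cases hcomm : x * y = y * x
    · exact ⟨x * y, K.mul_mem hx hy, ((show Commute x y from hcomm).mul_pow _).symm⟩
    · obtain ⟨L, hL⟩ : ∃ L, L = Subgroup.closure ({x, y} : Set G) := ⟨_, rfl⟩
      have hxL : x ∈ L := hL ▸ Subgroup.subset_closure (by simp)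
      have hyL : y ∈ L := hL ▸ Subgroup.subset_closure (by simp)
      have hLK : L ≤ K := hL ▸ closure_pair_le hx hy
      obtain ⟨c, hc, hreg⟩ := h x y
      rw [← hL] at hc
      obtain ⟨M, hxyM, hML, hMn, hMcard⟩ := Cfsg.Agent.Lib.Helper23.exists_normal_proper hp L
        (x * y) (L.mul_mem hxL hyL) ⟨x, hxL, y, hyL, hcomm⟩
      have hxyc : ⁅x, y⁆ ∈ M := by
        have h1 : x⁻¹ * (x * y) * x⁻¹⁻¹ ∈ M := hMn x⁻¹ (L.inv_mem hxL) _ hxyM
        have e : ⁅x, y⁆ = (x * y) * (x⁻¹ * (x * y) * x⁻¹⁻¹)⁻¹ := by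
          rw [commutatorElement_def]; group
        rw [e]
        exact M.mul_mem hxyM (M.inv_mem h1)
      have hder : ⁅L, L⁆ ≤ M := by
        rw [hL]
        exact Cfsg.Agent.Lib.Helper23.commutator_closure_pair_le x y M (hL ▸ hMn) hxyc
      have hcardL : Nat.card L ≤ m + 1 := (Subgroup.card_le_of_le hLK).trans hK
      have hcardD : Nat.card ↥(⁅L, L⁆) ≤ m := by
        have := Subgroup.card_le_of_le hder
        omega
      have hpow : ∀ g ∈ Cfsg.powerClosure p n ⁅L, L⁆, ∃ d ∈ ⁅L, L⁆, g = d ^ (p ^ n) := by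
        intro g hg
        unfold Cfsg.powerClosure at hg
        refine Subgroup.closure_induction
          (p := fun g _ => ∃ d ∈ ⁅L, L⁆, g = d ^ (p ^ n)) ?_ ?_ ?_ ?_ hg
        · rintro _ ⟨w, hw, rfl⟩
          exact ⟨w, hw, rfl⟩
        · exact ⟨1, Subgroup.one_mem _, (one_pow _).symm⟩
        · rintro _ _ _ _ ⟨d₁, h1, rfl⟩ ⟨d₂, h2, rfl⟩
          obtain ⟨z, hz, e⟩ := ih ⁅L, L⁆ hcardD d₁ h1 d₂ h2
          exact ⟨z, hz, e⟩
        · rintro _ _ ⟨d₁, h1, rfl⟩
          exact ⟨d₁⁻¹, Subgroup.inv_mem _ h1, (inv_pow _ _).symm⟩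
      obtain ⟨d, hd, hdc⟩ := hpow c⁻¹ (Subgroup.inv_mem _ hc)
      obtain ⟨z, hz, e⟩ := ih M (by omega) (x * y) hxyM d (hder hd)
      refine ⟨z, hLK (hML hz), ?_⟩
      rw [← e, ← hdc, hreg, mul_inv_cancel_right]

/-- The elements of the power subgroup are exactly the `p^n`-th powers. -/
theorem mem_powerClosure_iff_of_regAt {G : Type*} [Group G] [Finite G] {p : ℕ} [Fact p.Prime]
    (hp : IsPGroup p G) {n : ℕ} (h : RegAt G p n) (H : Subgroup G) (g : G) :
    g ∈ Cfsg.powerClosure p n H ↔ ∃ x ∈ H, g = x ^ (p ^ n) := by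
  constructor
  · intro hg
    unfold Cfsg.powerClosure at hg
    refine Subgroup.closure_induction
      (p := fun g _ => ∃ d ∈ H, g = d ^ (p ^ n)) ?_ ?_ ?_ ?_ hg
    · rintro _ ⟨w, hw, rfl⟩
      exact ⟨w, hw, rfl⟩
    · exact ⟨1, Subgroup.one_mem _, (one_pow _).symm⟩
    · rintro _ _ _ _ ⟨d₁, h1, rfl⟩ ⟨d₂, h2, rfl⟩
      obtain ⟨z, hz, e⟩ := pow_mul_pow_of_regAt hp h (Nat.card H) H le_rfl d₁ h1 d₂ h2
      exact ⟨z, hz, e⟩
    · rintro _ _ ⟨d₁, h1, rfl⟩
      exact ⟨d₁⁻¹, Subgroup.inv_mem _ h1, (inv_pow _ _).symm⟩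
  · rintro ⟨x, hx, rfl⟩
    exact pow_mem_powerClosure p n hx

/-- `⁅x^(p^n), y⁆` lies in the power subgroup of the derived subgroup. -/
theorem commutator_pow_mem_of_regAt {G : Type*} [Group G] {p : ℕ} {n : ℕ} (h : RegAt G p n)
    (H : Subgroup G) {x y : G} (hx : x ∈ H) (hy : y ∈ H) :
    ⁅x ^ (p ^ n), y⁆ ∈ Cfsg.powerClosure p n ⁅H, H⁆ := by
  obtain ⟨c, hc, hreg⟩ := h x (y * x⁻¹ * y⁻¹)
  have hc' : c ∈ Cfsg.powerClosure p n ⁅H, H⁆ := by
    have hle : Subgroup.closure ({x, y * x⁻¹ * y⁻¹} : Set G) ≤ H :=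
      closure_pair_le hx (H.mul_mem (H.mul_mem hy (H.inv_mem hx)) (H.inv_mem hy))
    exact powerClosure_mono p n (Subgroup.commutator_mono hle hle) hc
  have e1 : x * (y * x⁻¹ * y⁻¹) = ⁅x, y⁆ := by
    rw [commutatorElement_def]; group
  have e2 : ⁅x ^ (p ^ n), y⁆ = x ^ (p ^ n) * (y * x⁻¹ * y⁻¹) ^ (p ^ n) := by
    rw [commutatorElement_def, conj_pow, inv_pow]; group
  have e3 : ⁅x ^ (p ^ n), y⁆ = ⁅x, y⁆ ^ (p ^ n) * c⁻¹ := by
    rw [e2, ← e1, hreg, mul_inv_cancel_right]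
  rw [e3]
  exact Subgroup.mul_mem _
    (pow_mem_powerClosure p n (Subgroup.commutator_mem_commutator hx hy)) (Subgroup.inv_mem _ hc')

/-- The derived subgroup of the power subgroup lies in the power subgroup of the derived
subgroup. -/
theorem commutator_powerClosure_le_of_regAt {G : Type*} [Group G] [Finite G] {p : ℕ}
    [Fact p.Prime] (hp : IsPGroup p G) {n : ℕ} (h : RegAt G p n) (H : Subgroup G) :
    ⁅Cfsg.powerClosure p n H, Cfsg.powerClosure p n H⁆ ≤ Cfsg.powerClosure p n ⁅H, H⁆ := by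
  rw [Subgroup.commutator_le]
  intro g₁ hg₁ g₂ hg₂
  obtain ⟨x, hx, rfl⟩ := (mem_powerClosure_iff_of_regAt hp h H g₁).mp hg₁
  obtain ⟨y, hy, rfl⟩ := (mem_powerClosure_iff_of_regAt hp h H g₂).mp hg₂
  have h1 : ⁅y ^ (p ^ n), x ^ (p ^ n)⁆ ∈ Cfsg.powerClosure p n ⁅H, H⁆ :=
    commutator_pow_mem_of_regAt h H hy (H.pow_mem hx _)
  rw [← commutatorElement_inv]
  exact Subgroup.inv_mem _ h1

/-- Kemhadze's one-step condition lifts the regularity identity one level up. -/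
theorem regAt_succ {G : Type*} [Group G] [Finite G] {p : ℕ} [Fact p.Prime]
    (hp : IsPGroup p G)
    (hK : ∀ a b : G, ∃ c ∈ ⁅Subgroup.closure ({a, b} : Set G), Subgroup.closure ({a, b} : Set G)⁆,
      (a * b) ^ p = a ^ p * b ^ p * c ^ p)
    {n : ℕ} (h : RegAt G p n) : RegAt G p (n + 1) := by
  intro a b
  obtain ⟨H, hH⟩ : ∃ H, H = Subgroup.closure ({a, b} : Set G) := ⟨_, rfl⟩
  rw [← hH]
  have haH : a ∈ H := hH ▸ Subgroup.subset_closure (by simp)
  have hbH : b ∈ H := hH ▸ Subgroup.subset_closure (by simp)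
  obtain ⟨c, hc, hreg⟩ := h a b
  rw [← hH] at hc
  have hXm : a ^ (p ^ n) ∈ Cfsg.powerClosure p n H := pow_mem_powerClosure p n haH
  have hYm : b ^ (p ^ n) ∈ Cfsg.powerClosure p n H := pow_mem_powerClosure p n hbH
  have hcm : c ∈ Cfsg.powerClosure p n H :=
    powerClosure_mono p n (Subgroup.commutator_le_self H) hc
  obtain ⟨e₁, he₁, hk1⟩ := hK (a ^ (p ^ n) * b ^ (p ^ n)) c
  obtain ⟨e₂, he₂, hk2⟩ := hK (a ^ (p ^ n)) (b ^ (p ^ n))
  have hC := commutator_powerClosure_le_of_regAt hp h H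
  have key : ∀ e : G, e ∈ Cfsg.powerClosure p n ⁅H, H⁆ →
      e ^ p ∈ Cfsg.powerClosure p (n + 1) ⁅H, H⁆ := by
    intro e he
    obtain ⟨u, hu, rfl⟩ := (mem_powerClosure_iff_of_regAt hp h _ e).mp he
    rw [← pow_mul, ← pow_succ]
    exact pow_mem_powerClosure p (n + 1) hu
  have he₁' : e₁ ∈ Cfsg.powerClosure p n ⁅H, H⁆ := by
    apply hC
    have hle : Subgroup.closure ({a ^ (p ^ n) * b ^ (p ^ n), c} : Set G)
        ≤ Cfsg.powerClosure p n H := closure_pair_le (Subgroup.mul_mem _ hXm hYm) hcm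
    exact Subgroup.commutator_mono hle hle he₁
  have he₂' : e₂ ∈ Cfsg.powerClosure p n ⁅H, H⁆ := by
    apply hC
    have hle : Subgroup.closure ({a ^ (p ^ n), b ^ (p ^ n)} : Set G)
        ≤ Cfsg.powerClosure p n H := closure_pair_le hXm hYm
    exact Subgroup.commutator_mono hle hle he₂
  refine ⟨e₂ ^ p * c ^ p * e₁ ^ p, ?_, ?_⟩
  · exact Subgroup.mul_mem _ (Subgroup.mul_mem _ (key e₂ he₂') (key c hc)) (key e₁ he₁')
  · rw [pow_succ, pow_mul, hreg, hk1, hk2, pow_mul, pow_mul]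
    group

/-- Kemhadze's condition gives the regularity identity at every level. -/
theorem regAt_of_kemhadze {G : Type*} [Group G] [Finite G] {p : ℕ} [Fact p.Prime]
    (hp : IsPGroup p G)
    (hK : ∀ a b : G, ∃ c ∈ ⁅Subgroup.closure ({a, b} : Set G), Subgroup.closure ({a, b} : Set G)⁆,
      (a * b) ^ p = a ^ p * b ^ p * c ^ p) :
    ∀ n : ℕ, RegAt G p n := by
  intro n
  induction n with
  | zero =>
    intro a b
    exact ⟨1, Subgroup.one_mem _, by simp⟩
  | succ n ih => exact regAt_succ hp hK ih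

end Cfsg.Agent.Lib.Helper6
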